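import Cfsg.Agent.Lib.Helper10.TH0

/-!
Job-board piece TH-C3 (helper10's S1632 project): the level sets of the quadratic form are
finite.
-/

set_option autoImplicit false

namespace Cfsg.Agent.Lib.Helper92.THC3

open Matrix Complex UpperHalfPlane ModularForm MatrixGroups Cfsg.Agent.Lib.Helper10.TH
open scoped Manifold Real

variable {B : Matrix (Fin 24) (Fin 24) ℤ}

/-- C3 (from C1, A1 as hypotheses) -/
theorem finite_level_of (T : Tri 24)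
    (hTQ : ∀ x : Fin 24 → ℤ, T.Q (fun i => (x i : ℝ)) = (qf B x : ℝ))
    {c : ℝ} (hc : 0 < c) (hco : ∀ x : Fin 24 → ℝ, c * ∑ i, x i ^ 2 ≤ T.Q x) (m : ℤ) :
    {x : Fin 24 → ℤ | qf B x = m}.Finite := by
  apply Set.Finite.subset (Fintype.piFinset (fun _ : Fin 24 =>
    Finset.Icc (-(⌈(m : ℝ) / c⌉₊ : ℤ)) (⌈(m : ℝ) / c⌉₊ : ℤ))).finite_toSet
  intro x hx
  have hx : qf B x = m := hx
  rw [Finset.mem_coe, Fintype.mem_piFinset]
  intro i
  rw [Finset.mem_Icc]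
  have h1 := hco (fun i => (x i : ℝ))
  rw [hTQ, hx] at h1
  have h2 : ((x i : ℝ)) ^ 2 ≤ ∑ j, ((x j : ℝ)) ^ 2 :=
    Finset.single_le_sum (f := fun j => ((x j : ℝ)) ^ 2) (fun j _ => sq_nonneg _)
      (Finset.mem_univ i)
  have h3 : ((x i : ℝ)) ^ 2 ≤ (m : ℝ) / c := by
    rw [le_div_iff₀ hc]
    nlinarith
  have h4 : |x i| ≤ (x i) ^ 2 := by
    have h40 := abs_nonneg (x i)
    have h41 := sq_abs (x i)
    rcases h40.eq_or_lt with h | h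
    · rw [← h]
      exact sq_nonneg _
    · nlinarith
  have h5 : ((|x i| : ℤ) : ℝ) ≤ (m : ℝ) / c := by
    calc ((|x i| : ℤ) : ℝ) ≤ (((x i) ^ 2 : ℤ) : ℝ) := by exact_mod_cast h4
      _ = (x i : ℝ) ^ 2 := by push_cast; ring
      _ ≤ _ := h3
  have h6 : ((|x i| : ℤ) : ℝ) ≤ (⌈(m : ℝ) / c⌉₊ : ℝ) := le_trans h5 (Nat.le_ceil _)
  have h7 : |x i| ≤ (⌈(m : ℝ) / c⌉₊ : ℤ) := by exact_mod_cast h6
  exact abs_le.mp h7

end Cfsg.Agent.Lib.Helper92.THC3
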