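import Mathlib
import Cfsg.Agent.Lib.Helper15.FH0

/-!
Job-board piece Ma (helper15's S1142 Feit–Higman project): Coxeter bookkeeping
(`len_inv`, `ind_inv`, `pair_sum`).
-/

set_option autoImplicit false

namespace Cfsg.Agent.Lib.Helper92.FH

open Cfsg Cfsg.Agent.Lib.Helper8 Cfsg.Agent.Lib.Helper15.FH

universe u

theorem len_inv {W : Type*} [Group W] {S : Set W} (h : InvGen S) (w : W) :
    len S w⁻¹ = len S w := by
  have key : ∀ w : W, len S w⁻¹ ≤ len S w := by
    intro w
    obtain ⟨L, hL, hw, hlen⟩ := h.exists_reduced w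
    have h1 := len_le (S := S) (L := L.reverse)
      (by intro x hx; exact hL x (List.mem_reverse.mp hx))
    rw [prod_reverse_of_sq h.sq L hL, hw, List.length_reverse, hlen] at h1
    exact h1
  apply le_antisymm (key w)
  have h2 := key w⁻¹
  rwa [inv_inv] at h2

/-- The index along a reduced word is the product of the parameters of its letters. -/
theorem ind_reduced {W : Type*} [Group W] {S : Set W} (h : InvGen S) (q ind : W → ℝ)
    (ind_one : ind 1 = 1)
    (ind_mul : ∀ x ∈ S, ∀ w, len S w < len S (x * w) → ind (x * w) = q x * ind w) :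
    ∀ L : List W, (∀ x ∈ L, x ∈ S) → L.length = len S L.prod →
      ind L.prod = (L.map q).prod := by
  intro L
  induction L with
  | nil => intro _ _; simp [ind_one]
  | cons x L ih =>
    intro hL hlen
    have hx : x ∈ S := hL x (by simp)
    have hL' : ∀ y ∈ L, y ∈ S := fun y hy => hL y (by simp [hy])
    have h1 : len S L.prod ≤ L.length := len_le hL'
    have h2 : len S (x * L.prod) ≤ len S L.prod + 1 := h.len_mul_le hx L.prod
    rw [List.prod_cons, List.length_cons] at hlen
    have h3 : L.length = len S L.prod := by omega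
    have h4 : len S L.prod < len S (x * L.prod) := by omega
    rw [List.prod_cons, ind_mul x hx L.prod h4, ih hL' h3, List.map_cons, List.prod_cons]

theorem ind_inv {W : Type*} [Group W] {S : Set W} (hE : ExchGen S) (q ind : W → ℝ)
    (ind_one : ind 1 = 1)
    (ind_mul : ∀ x ∈ S, ∀ w, len S w < len S (x * w) → ind (x * w) = q x * ind w) (w : W) :
    ind w⁻¹ = ind w := by
  have h := hE.toInvGen
  obtain ⟨L, hL, hw, hlen⟩ := h.exists_reduced w
  have hLr : ∀ x ∈ L.reverse, x ∈ S := fun x hx => hL x (List.mem_reverse.mp hx)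
  have hpr : L.reverse.prod = w⁻¹ := by rw [prod_reverse_of_sq h.sq L hL, hw]
  have e1 := ind_reduced h q ind ind_one ind_mul L hL (by rw [hw, hlen])
  have e2 := ind_reduced h q ind ind_one ind_mul L.reverse hLr
    (by rw [hpr, len_inv h, List.length_reverse, hlen])
  rw [hpr] at e2
  rw [hw] at e1
  rw [e1, e2, List.map_reverse, List.prod_reverse]

/-- Pairing `w` with `x * w`: a sum over the group is a sum over the elements lengthened by
`x` of the two paired terms. -/
theorem sum_pair {W : Type*} [Group W] [Fintype W] {S : Set W} (hE : ExchGen S) {x : W}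
    (hx : x ∈ S) {V : Type*} [AddCommGroup V] (g : W → V) :
    ∑ w, g w = ∑ w with len S w < len S (x * w), (g w + g (x * w)) := by
  classical
  have hxx : ∀ w : W, x * (x * w) = w := fun w => by
    rw [← mul_assoc, hE.sq x hx, one_mul]
  rw [← Finset.sum_filter_add_sum_filter_not Finset.univ (fun w => len S w < len S (x * w)) g,
    Finset.sum_add_distrib]
  congr 1
  apply Finset.sum_nbij' (fun w => x * w) (fun w => x * w)
  · intro w hw
    rw [Finset.mem_filter] at hw ⊢
    refine ⟨Finset.mem_univ _, ?_⟩
    have h1 := hE.len_mul_ne hx w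
    have h2 := hw.2
    rw [hxx]
    omega
  · intro w hw
    rw [Finset.mem_filter] at hw ⊢
    refine ⟨Finset.mem_univ _, ?_⟩
    have h2 := hw.2
    rw [hxx]
    omega
  · intro w _
    exact hxx w
  · intro w _
    exact hxx w
  · intro w _
    rw [hxx]

theorem pair_sum {W : Type*} [Group W] [Fintype W] {S : Set W} (hE : ExchGen S) {x : W}
    (hx : x ∈ S) {V : Type*} [AddCommGroup V] [Module ℝ V] (X : W → V) (L : V →ₗ[ℝ] V) (q : ℝ)
    (hL : ∀ w, len S w < len S (x * w) → L (X w) = X (x * w))
    (hL2 : ∀ w, len S w < len S (x * w) → L (X (x * w)) = q • X w + (q - 1) • X (x * w))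
    (c c' : W → ℝ)
    (h1 : ∀ w, len S w < len S (x * w) → c' w = q * c (x * w))
    (h2 : ∀ w, len S w < len S (x * w) → c' (x * w) = c w + (q - 1) * c (x * w)) :
    ∑ w, c w • L (X w) = ∑ w, c' w • X w := by
  classical
  rw [sum_pair hE hx (fun w => c w • L (X w)), sum_pair hE hx (fun w => c' w • X w)]
  apply Finset.sum_congr rfl
  intro w hw
  rw [Finset.mem_filter] at hw
  have hw2 := hw.2
  show c w • L (X w) + c (x * w) • L (X (x * w)) = c' w • X w + c' (x * w) • X (x * w)
  rw [hL w hw2, hL2 w hw2, h1 w hw2, h2 w hw2]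
  module

end Cfsg.Agent.Lib.Helper92.FH
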