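import Mathlib
import Cfsg.Prelude.Def_OddOrderLocal
import Cfsg.Prelude.Def_OddOrder

/-!
# B&G Theorem 12.12 (S1421): interface (helper92)

`Hyp M E` is the standing hypothesis of S1421.  The `…Stmt` definitions are the exact statements
of the pieces of the proof; the theorems at the end are the formal assembly.
Vocabulary: a *line* of `A` is a subgroup `X ≤ A` of order `p`; it is *good* when
`sigmaCore M ⊓ centralizer X = ⊥`.
-/

set_option autoImplicit false

open Cfsg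

namespace Cfsg.Agent.Lib.Helper92.FT

universe u

section Defs

variable {G : Type u} [Group G]

/-- the standing hypotheses of S1421 -/
structure Hyp (M E : Subgroup G) : Prop where
  hM : IsCoatom M
  hE : IsComplIn E (sigmaCore M) M
  h : ∀ e ∈ E, e ≠ 1 → (∀ p : ℕ, p.Prime → p ∣ orderOf e → p ∈ tau1 M ∪ tau3 M) →
      sigmaCore M ⊓ Subgroup.centralizer ({e} : Set G) = ⊥

/-- `e` centralizes a nonidentity element of `M_σ` -/
def Fix (M : Subgroup G) (e : G) : Prop :=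
  sigmaCore M ⊓ Subgroup.centralizer ({e} : Set G) ≠ ⊥

/-- `P` is a Sylow `p`-subgroup of `E` -/
def SylIn (p : ℕ) (P E : Subgroup G) : Prop :=
  P ≤ E ∧ IsPGroup p P ∧ ¬ p ∣ P.relIndex E

/-- the data of a prime `p ∈ τ₂(M)`: `A ≤ E` elementary abelian of order `p²` -/
structure T2 (M E : Subgroup G) (p : ℕ) (A : Subgroup G) : Prop where
  hp : p ∈ tau2 M
  hAE : A ≤ E
  hA : IsElementaryAbelian p A
  hA2 : Nat.card A = p ^ 2

/-- `x` has `p`-power order -/
def PElt (p : ℕ) (x : G) : Prop := ∃ k : ℕ, orderOf x = p ^ k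

/-- the conclusion (a) of S1421 -/
def ConclA (M E : Subgroup G) : Prop :=
  ∃ A₀ : Subgroup G, A₀ ≤ E ∧ E ≤ Subgroup.normalizer (A₀ : Set G) ∧ IsMulCommutative A₀ ∧
    ∀ x ∈ sigmaCore M, x ≠ 1 → E ⊓ Subgroup.centralizer ({x} : Set G) ≤ A₀

/-- the conclusion (b) of S1421 -/
def ConclB (M E : Subgroup G) : Prop :=
  ∃ E₀ : Subgroup G, E₀ ≤ E ∧ Monoid.exponent E₀ = Monoid.exponent E ∧
    ∀ e ∈ E₀, e ≠ 1 → sigmaCore M ⊓ Subgroup.centralizer ({e} : Set G) = ⊥

/-- a subgroup `Ep` of `E` adapted to the prime `p`: of `p`-power index, containing an element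
whose order is a multiple of the order of every `p`-element of `E`, and all of whose elements of
order `p` act freely on `M_σ` -/
def Adapted (M E : Subgroup G) (p : ℕ) (Ep : Subgroup G) : Prop :=
  Ep ≤ E ∧ (∀ r : ℕ, r.Prime → r ≠ p → ¬ r ∣ Ep.relIndex E) ∧
    (∃ y ∈ Ep, ∀ x ∈ E, PElt p x → orderOf x ∣ orderOf y) ∧
    ∀ z ∈ Ep, orderOf z = p → ¬ Fix M z

end Defs

/-! ## Basic facts -/

/-- TAU: the primes of `E`; fixed-point elements are `τ₂`-elements; the subgroups `A_p`. -/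
def TauStmt : Prop :=
  ∀ (G : Type u) [Group G] [Finite G], IsMinSimpleOddOrder G → ∀ M E : Subgroup G,
    IsCoatom M → IsComplIn E (sigmaCore M) M →
    (∀ r : ℕ, r.Prime → r ∣ Nat.card E → r ∈ tau1 M ∪ tau3 M ∨ r ∈ tau2 M) ∧
    (∀ p : ℕ, p ∈ tau2 M → ∃ A : Subgroup G, T2 M E p A) ∧
    ((∀ e ∈ E, e ≠ 1 → (∀ p : ℕ, p.Prime → p ∣ orderOf e → p ∈ tau1 M ∪ tau3 M) →
        sigmaCore M ⊓ Subgroup.centralizer ({e} : Set G) = ⊥) →
      ∀ e ∈ E, Fix M e → ∀ r : ℕ, r.Prime → r ∣ orderOf e → r ∈ tau2 M)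

/-! ## Part (a) -/

/-- NSYL-LOC: in the abelian Sylow case a Sylow `p`-subgroup of `E` centralizes the `r`-elements
(`r ≠ p`) of `E'`. -/
def NSylLocStmt : Prop :=
  ∀ (G : Type u) [Group G] [Finite G], IsMinSimpleOddOrder G → ∀ M E : Subgroup G,
    IsCoatom M → IsComplIn E (sigmaCore M) M → ∀ (p : ℕ) [Fact p.Prime], p ∈ tau2 M →
    (∃ S : Sylow p G, IsMulCommutative (S : Subgroup G)) →
    ∀ P : Subgroup G, SylIn p P E → ∀ x ∈ P, ∀ t ∈ ⁅E, E⁆, ∀ r : ℕ, r.Prime → r ≠ p →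
      PElt r t → x * t = t * x

/-- NSYL-PURE: a Sylow `p`-subgroup centralizing the `p'`-primary elements of the abelian
derived subgroup is normal. -/
def NSylPureStmt : Prop :=
  ∀ (G : Type u) [Group G] [Finite G] (p : ℕ) [Fact p.Prime] (E P : Subgroup G),
    SylIn p P E → (∀ a ∈ ⁅E, E⁆, ∀ b ∈ ⁅E, E⁆, a * b = b * a) →
    (∀ x ∈ P, ∀ t ∈ ⁅E, E⁆, ∀ r : ℕ, r.Prime → r ≠ p → PElt r t → x * t = t * x) →
    E ≤ Subgroup.normalizer (P : Set G)

/-- NSYL: in the abelian Sylow case the Sylow `p`-subgroups of `E` are normal in `E`. -/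
def NSylStmt : Prop :=
  ∀ (G : Type u) [Group G] [Finite G], IsMinSimpleOddOrder G → ∀ M E : Subgroup G,
    IsCoatom M → IsComplIn E (sigmaCore M) M → ∀ (p : ℕ) [Fact p.Prime], p ∈ tau2 M →
    (∃ S : Sylow p G, IsMulCommutative (S : Subgroup G)) →
    ∀ P : Subgroup G, SylIn p P E → E ≤ Subgroup.normalizer (P : Set G)

/-- NONAB: the nonabelian Sylow case.  With `A₀ = A ∩ C(M_σ)`: the `p`-elements of `E` with a
fixed point lie in `A₀`, and `A₀` has a complement in every Sylow `p`-subgroup `P` of `E`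
containing an element of maximal order of `P`. -/
def NonabStmt : Prop :=
  ∀ (G : Type u) [Group G] [Finite G], IsMinSimpleOddOrder G → ∀ M E : Subgroup G,
    IsCoatom M → IsComplIn E (sigmaCore M) M → ∀ (p : ℕ) [Fact p.Prime] (A : Subgroup G),
    T2 M E p A → (∀ S : Sylow p G, ¬ IsMulCommutative (S : Subgroup G)) → sigmaCore M ≠ ⊥ →
    (∀ e ∈ E, PElt p e → Fix M e → e ∈ A ⊓ Subgroup.centralizer (sigmaCore M : Set G)) ∧
    ∀ P : Subgroup G, SylIn p P E → ∃ C : Subgroup G, C ≤ P ∧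
      (A ⊓ Subgroup.centralizer (sigmaCore M : Set G)) ⊓ C = ⊥ ∧
      (A ⊓ Subgroup.centralizer (sigmaCore M : Set G)) ⊔ C = P ∧
      ∃ c ∈ C, ∀ x ∈ P, orderOf x ∣ orderOf c

/-- part (a) of S1421 -/
def PartAStmt : Prop :=
  ∀ (G : Type u) [Group G] [Finite G], IsMinSimpleOddOrder G → ∀ M E : Subgroup G,
    Hyp M E → ConclA M E

/-! ## Part (b): linear algebra on `A` -/

/-- LIN3: an element normalizing three distinct lines of `A` normalizes every line. -/
def Lin3Stmt : Prop :=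
  ∀ (G : Type u) [Group G] [Finite G] (p : ℕ) [Fact p.Prime] (A : Subgroup G),
    IsElementaryAbelian p A → Nat.card A = p ^ 2 → ∀ e ∈ Subgroup.normalizer (A : Set G),
    ∀ X₁ X₂ X₃ : Subgroup G, X₁ ≤ A → X₂ ≤ A → X₃ ≤ A → Nat.card X₁ = p → Nat.card X₂ = p →
      Nat.card X₃ = p → X₁ ≠ X₂ → X₁ ≠ X₃ → X₂ ≠ X₃ →
      e ∈ Subgroup.normalizer (X₁ : Set G) → e ∈ Subgroup.normalizer (X₂ : Set G) →
      e ∈ Subgroup.normalizer (X₃ : Set G) →
      ∀ X : Subgroup G, X ≤ A → Nat.card X = p → e ∈ Subgroup.normalizer (X : Set G)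

/-- LINODD: if `e` normalizes the line `X` but not every line, then every element `n` of odd
order of `N(A)` commuting with `e` modulo `C(A)` normalizes `X`. -/
def LinOddStmt : Prop :=
  ∀ (G : Type u) [Group G] [Finite G] (p : ℕ) [Fact p.Prime] (A : Subgroup G),
    IsElementaryAbelian p A → Nat.card A = p ^ 2 → ∀ e ∈ Subgroup.normalizer (A : Set G),
    ∀ n ∈ Subgroup.normalizer (A : Set G), Odd (orderOf n) →
      n * e * n⁻¹ * e⁻¹ ∈ Subgroup.centralizer (A : Set G) →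
      ∀ X L : Subgroup G, X ≤ A → Nat.card X = p → L ≤ A → Nat.card L = p →
        e ∈ Subgroup.normalizer (X : Set G) → e ∉ Subgroup.normalizer (L : Set G) →
        n ∈ Subgroup.normalizer (X : Set G)

/-- LINA: if the `q`-element `y` (`q` odd) normalizes no line of `A`, then every power of `y`
normalizing some line centralizes `A`. -/
def LinAStmt : Prop :=
  ∀ (G : Type u) [Group G] [Finite G] (p : ℕ) [Fact p.Prime] (A : Subgroup G),
    IsElementaryAbelian p A → Nat.card A = p ^ 2 → ∀ y ∈ Subgroup.normalizer (A : Set G),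
    ∀ q : ℕ, q.Prime → q ≠ 2 → PElt q y →
      (∀ X : Subgroup G, X ≤ A → Nat.card X = p → y ∉ Subgroup.normalizer (X : Set G)) →
      ∀ m : ℕ, (∃ X : Subgroup G, X ≤ A ∧ Nat.card X = p ∧
          y ^ m ∈ Subgroup.normalizer (X : Set G)) →
        y ^ m ∈ Subgroup.centralizer (A : Set G)

/-! ## Part (b): local analysis -/

/-- NORM: an element of prime order of `E` normalizing no line of `A` has a nontrivial fixed
point on `M_σ`. -/
def NormStmt : Prop :=
  ∀ (G : Type u) [Group G] [Finite G], IsMinSimpleOddOrder G → ∀ M E : Subgroup G,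
    IsCoatom M → IsComplIn E (sigmaCore M) M → ∀ (p : ℕ) [Fact p.Prime] (A : Subgroup G),
    T2 M E p A → sigmaCore M ≠ ⊥ → ∀ z ∈ E, (orderOf z).Prime →
      (∀ X : Subgroup G, X ≤ A → Nat.card X = p → z ∉ Subgroup.normalizer (X : Set G)) →
      Fix M z

/-- NBAR: in the abelian Sylow case `N(A)/C(A)` is abelian. -/
def NBarStmt : Prop :=
  ∀ (G : Type u) [Group G] [Finite G], IsMinSimpleOddOrder G → ∀ M E : Subgroup G,
    IsCoatom M → IsComplIn E (sigmaCore M) M → ∀ (p : ℕ) [Fact p.Prime] (A : Subgroup G),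
    T2 M E p A → (∃ S : Sylow p G, IsMulCommutative (S : Subgroup G)) →
    ∀ n ∈ Subgroup.normalizer (A : Set G), ∀ e ∈ Subgroup.normalizer (A : Set G),
      n * e * n⁻¹ * e⁻¹ ∈ Subgroup.centralizer (A : Set G)

/-- KEY2: the `M*`-argument (helper32): in the abelian Sylow case no `q`-element `y` of `E`,
`q ∈ τ₁(M)`, normalizes no line of `A` while its power of order `q` centralizes `A`. -/
def Key2Stmt : Prop :=
  ∀ (G : Type u) [Group G] [Finite G], IsMinSimpleOddOrder G → ∀ M E : Subgroup G,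
    IsCoatom M → IsComplIn E (sigmaCore M) M → ∀ (p : ℕ) [Fact p.Prime] (A : Subgroup G),
    T2 M E p A → (∃ S : Sylow p G, IsMulCommutative (S : Subgroup G)) →
    ∀ y ∈ E, ∀ q : ℕ, q ∈ tau1 M → PElt q y →
      (∀ X : Subgroup G, X ≤ A → Nat.card X = p → y ∉ Subgroup.normalizer (X : Set G)) →
      y ^ (orderOf y / q) ∈ Subgroup.centralizer (A : Set G) → False

/-- KEY: in the abelian Sylow case (under the hypothesis of S1421) every element of prime power
order of `E` normalizes some line of `A`. -/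
def KeyStmt : Prop :=
  ∀ (G : Type u) [Group G] [Finite G], IsMinSimpleOddOrder G → ∀ M E : Subgroup G,
    Hyp M E → ∀ (p : ℕ) [Fact p.Prime] (A : Subgroup G),
    T2 M E p A → (∃ S : Sylow p G, IsMulCommutative (S : Subgroup G)) → sigmaCore M ≠ ⊥ →
    ∀ y ∈ E, ∀ q : ℕ, q.Prime → PElt q y →
      ∃ X : Subgroup G, X ≤ A ∧ Nat.card X = p ∧ y ∈ Subgroup.normalizer (X : Set G)

/-- GL: in the abelian Sylow case either every line of `A` is good or some `E`-invariant line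
of `A` is good. -/
def GLStmt : Prop :=
  ∀ (G : Type u) [Group G] [Finite G], IsMinSimpleOddOrder G → ∀ M E : Subgroup G,
    Hyp M E → ∀ (p : ℕ) [Fact p.Prime] (A : Subgroup G),
    T2 M E p A → (∃ S : Sylow p G, IsMulCommutative (S : Subgroup G)) → sigmaCore M ≠ ⊥ →
    (∀ X : Subgroup G, X ≤ A → Nat.card X = p →
        sigmaCore M ⊓ Subgroup.centralizer (X : Set G) = ⊥) ∨
      ∃ X : Subgroup G, X ≤ A ∧ Nat.card X = p ∧ E ≤ Subgroup.normalizer (X : Set G) ∧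
        sigmaCore M ⊓ Subgroup.centralizer (X : Set G) = ⊥

/-- GOODLINE: as GL, with the good invariant line lying under an element of maximal order of
the Sylow `p`-subgroup `P` of `E`. -/
def GoodLineStmt : Prop :=
  ∀ (G : Type u) [Group G] [Finite G], IsMinSimpleOddOrder G → ∀ M E : Subgroup G,
    Hyp M E → ∀ (p : ℕ) [Fact p.Prime] (A : Subgroup G),
    T2 M E p A → (∃ S : Sylow p G, IsMulCommutative (S : Subgroup G)) → sigmaCore M ≠ ⊥ →
    ∀ P : Subgroup G, SylIn p P E →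
    (∀ X : Subgroup G, X ≤ A → Nat.card X = p →
        sigmaCore M ⊓ Subgroup.centralizer (X : Set G) = ⊥) ∨
      ∃ X : Subgroup G, X ≤ A ∧ Nat.card X = p ∧ E ≤ Subgroup.normalizer (X : Set G) ∧
        sigmaCore M ⊓ Subgroup.centralizer (X : Set G) = ⊥ ∧
        ∃ c ∈ P, (∀ x ∈ P, orderOf x ∣ orderOf c) ∧ c ^ (orderOf c / p) ∈ X

/-! ## Part (b): pure group theory -/

/-- CYC: a normal line lying under an element of maximal order of a normal abelian Sylow
`p`-subgroup lies in a normal cyclic subgroup of maximal order. -/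
def CycStmt : Prop :=
  ∀ (Γ : Type u) [Group Γ] [Finite Γ] (p : ℕ) [Fact p.Prime] (P X : Subgroup Γ),
    P.Normal → IsPGroup p P → (∀ a ∈ P, ∀ b ∈ P, a * b = b * a) → ¬ p ∣ P.index →
    X ≤ P → X.Normal → Nat.card X = p →
    ∀ c ∈ P, (∀ x ∈ P, orderOf x ∣ orderOf c) → c ^ (orderOf c / p) ∈ X →
    ∃ C : Subgroup Γ, C ≤ P ∧ C.Normal ∧ IsCyclic C ∧ Nat.card C = orderOf c ∧ X ≤ C

/-- EPP: the subgroup `C ⋊ H₀` (`H₀` a complement of the normal abelian Sylow `p`-subgroup `P`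
of `E`, `C` from CYC). -/
def EpPureStmt : Prop :=
  ∀ (G : Type u) [Group G] [Finite G] (p : ℕ) [Fact p.Prime] (E P X : Subgroup G),
    SylIn p P E → E ≤ Subgroup.normalizer (P : Set G) → (∀ a ∈ P, ∀ b ∈ P, a * b = b * a) →
    X ≤ P → E ≤ Subgroup.normalizer (X : Set G) → Nat.card X = p →
    ∀ c ∈ P, (∀ x ∈ P, orderOf x ∣ orderOf c) → c ^ (orderOf c / p) ∈ X →
    ∃ H : Subgroup G, H ≤ E ∧ (∀ r : ℕ, r.Prime → r ≠ p → ¬ r ∣ H.relIndex E) ∧
      (∃ y ∈ H, ∀ x ∈ E, PElt p x → orderOf x ∣ orderOf y) ∧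
      ∀ z ∈ H, orderOf z = p → z ∈ X

/-- INTER: intersecting subgroups of prime power index for distinct primes. -/
def InterStmt : Prop :=
  ∀ (G : Type u) [Group G] [Finite G] (E : Subgroup G) (T : Set ℕ) (Ep : ℕ → Subgroup G),
    (∀ p ∈ T, p.Prime) →
    (∀ p ∈ T, Ep p ≤ E ∧ ∀ r : ℕ, r.Prime → r ≠ p → ¬ r ∣ (Ep p).relIndex E) →
    ∃ E₀ : Subgroup G, E₀ ≤ E ∧ (∀ p ∈ T, E₀ ≤ Ep p) ∧
      (∀ x ∈ E, ∀ r : ℕ, r.Prime → r ∉ T → PElt r x → ∃ y ∈ E₀, orderOf y = orderOf x) ∧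
      ∀ p ∈ T, ∀ x ∈ Ep p, PElt p x → ∃ y ∈ E₀, orderOf y = orderOf x

/-! ## Part (b): the adapted subgroups -/

/-- EPA: the abelian Sylow case. -/
def EpAStmt : Prop :=
  ∀ (G : Type u) [Group G] [Finite G], IsMinSimpleOddOrder G → ∀ M E : Subgroup G,
    Hyp M E → ∀ (p : ℕ) [Fact p.Prime] (A : Subgroup G),
    T2 M E p A → (∃ S : Sylow p G, IsMulCommutative (S : Subgroup G)) → sigmaCore M ≠ ⊥ →
    ∃ Ep : Subgroup G, Adapted M E p Ep

/-- EPN: the nonabelian Sylow case. -/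
def EpNStmt : Prop :=
  ∀ (G : Type u) [Group G] [Finite G], IsMinSimpleOddOrder G → ∀ M E : Subgroup G,
    Hyp M E → ∀ (p : ℕ) [Fact p.Prime] (A : Subgroup G),
    T2 M E p A → (∀ S : Sylow p G, ¬ IsMulCommutative (S : Subgroup G)) → sigmaCore M ≠ ⊥ →
    ∃ Ep : Subgroup G, Adapted M E p Ep

/-- part (b) of S1421 -/
def PartBStmt : Prop :=
  ∀ (G : Type u) [Group G] [Finite G], IsMinSimpleOddOrder G → ∀ M E : Subgroup G,
    Hyp M E → ConclB M E

/-- the statement of S1421 -/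
def FinStmt : Prop :=
  ∀ (G : Type u) [Group G] [Finite G], IsMinSimpleOddOrder G → ∀ (M : Subgroup G),
    IsCoatom M → ∀ (E : Subgroup G), IsComplIn E (sigmaCore M) M →
    (∀ e ∈ E, e ≠ 1 → (∀ p : ℕ, p.Prime → p ∣ orderOf e → p ∈ tau1 M ∪ tau3 M) →
      sigmaCore M ⊓ Subgroup.centralizer ({e} : Set G) = ⊥) →
    (∃ A₀ : Subgroup G, A₀ ≤ E ∧ E ≤ Subgroup.normalizer (A₀ : Set G) ∧ IsMulCommutative A₀ ∧
        ∀ x ∈ sigmaCore M, x ≠ 1 → E ⊓ Subgroup.centralizer ({x} : Set G) ≤ A₀) ∧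
      ∃ E₀ : Subgroup G, E₀ ≤ E ∧ Monoid.exponent E₀ = Monoid.exponent E ∧
        ∀ e ∈ E₀, e ≠ 1 → sigmaCore M ⊓ Subgroup.centralizer ({e} : Set G) = ⊥

/-! ## Formal assembly -/

theorem fin (ha : PartAStmt.{u}) (hb : PartBStmt.{u}) : FinStmt.{u} := by
  intro G _ _ hG M hM E hE h
  exact ⟨ha G hG M E ⟨hM, hE, h⟩, hb G hG M E ⟨hM, hE, h⟩⟩

theorem nsyl (h1 : NSylLocStmt.{u}) (h2 : NSylPureStmt.{u})
    (hab : ∀ (G : Type u) [Group G] [Finite G], IsMinSimpleOddOrder G → ∀ M E : Subgroup G,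
      IsCoatom M → IsComplIn E (sigmaCore M) M → IsMulCommutative ↥⁅E, E⁆) : NSylStmt.{u} := by
  intro G _ _ hG M E hM hE p _ hp hS P hP
  have hc := hab G hG M E hM hE
  refine h2 G p E P hP ?_ (h1 G hG M E hM hE p hp hS P hP)
  intro a ha b hb
  have := hc.is_comm.comm ⟨a, ha⟩ ⟨b, hb⟩
  exact congrArg Subtype.val this

end Cfsg.Agent.Lib.Helper92.FT
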