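import Mathlib

/-!
Job-board piece HB-SYL (for S0633): a `p`-element acting on a normal `p'`-subgroup `K` and
having a power `y` that does not centralise `K` normalises a `q`-subgroup of `K` that `y`
does not centralise.
-/

set_option autoImplicit false

namespace Cfsg.Agent.Lib.Helper92.HB

variable {G : Type*} [Group G]

theorem hbs_sylow_le_of_not_dvd_index [Finite G] (p : ℕ) [Fact p.Prime] (K : Subgroup G)
    (h : ¬ p ∣ K.index) : ∃ P : Sylow p G, (P : Subgroup G) ≤ K := by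
  obtain ⟨P₀⟩ : Nonempty (Sylow p K) := inferInstance
  have hp : IsPGroup p ((P₀ : Subgroup K).map K.subtype) := P₀.2.map _
  have hidx : ¬ p ∣ ((P₀ : Subgroup K).map K.subtype).index := by
    rw [Subgroup.index_map_subtype]
    exact Nat.Prime.not_dvd_mul Fact.out P₀.not_dvd_index h
  refine ⟨hp.toSylow hidx, ?_⟩
  rw [IsPGroup.toSylow_coe]
  exact Subgroup.map_subtype_le _

theorem hbs_relIndex_sup_of_normal [Finite G] (H N : Subgroup G) [N.Normal] :
    H.relIndex (H ⊔ N) = H.relIndex N := by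
  have h1 : H.relIndex (H ⊔ N) * Nat.card H = Nat.card (H ⊔ N : Subgroup G) := by
    rw [← Subgroup.relIndex_bot_left, mul_comm, ← Subgroup.relIndex_bot_left]
    exact Subgroup.relIndex_mul_relIndex ⊥ H (H ⊔ N) bot_le le_sup_left
  have h2 : N.relIndex (H ⊔ N) * Nat.card N = Nat.card (H ⊔ N : Subgroup G) := by
    rw [← Subgroup.relIndex_bot_left, mul_comm, ← Subgroup.relIndex_bot_left]
    exact Subgroup.relIndex_mul_relIndex ⊥ N (H ⊔ N) bot_le le_sup_right
  rw [Subgroup.relIndex_sup_right] at h2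
  have h3 : H.relIndex N * Nat.card (H ⊓ N : Subgroup G) = Nat.card N := by
    rw [← Subgroup.inf_relIndex_right, ← Subgroup.relIndex_bot_left, mul_comm,
      ← Subgroup.relIndex_bot_left]
    exact Subgroup.relIndex_mul_relIndex ⊥ (H ⊓ N) N bot_le inf_le_right
  have h4 : N.relIndex H * Nat.card (H ⊓ N : Subgroup G) = Nat.card H := by
    rw [← Subgroup.inf_relIndex_left, ← Subgroup.relIndex_bot_left, mul_comm,
      ← Subgroup.relIndex_bot_left]
    exact Subgroup.relIndex_mul_relIndex ⊥ (H ⊓ N) H bot_le inf_le_left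
  have hpos : 0 < Nat.card H := Nat.card_pos
  have hpos2 : 0 < Nat.card (H ⊓ N : Subgroup G) := Nat.card_pos
  have : H.relIndex (H ⊔ N) * Nat.card H = H.relIndex N * Nat.card H := by
    rw [h1, ← h2, ← h3, ← h4]; ring
  exact Nat.eq_of_mul_eq_mul_right hpos this

theorem hbs_index_eq_relIndex [Finite G] (H N : Subgroup G) [N.Normal]
    (h : H ⊔ N = ⊤) : H.index = H.relIndex N := by
  rw [← hbs_relIndex_sup_of_normal H N, h, Subgroup.relIndex_top_right]

/-- Coprime action: a `p`-element normalises some Sylow `r`-subgroup of a normal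
`p'`-subgroup `M`. -/
theorem hbs_exists_invariant_sylow [Finite G] {p : ℕ} [Fact p.Prime] (M : Subgroup G)
    [M.Normal] (hM : (Nat.card M).Coprime p) (x : G)
    (hx : ∃ j : ℕ, x ^ (p ^ j) = 1) (r : ℕ) [Fact r.Prime] :
    ∃ R : Subgroup G, R ≤ M ∧ IsPGroup r R ∧ Nat.card R = r ^ (Nat.card M).factorization r ∧
      ∀ h ∈ R, x * h * x⁻¹ ∈ R := by
  have hp : p.Prime := Fact.out
  obtain ⟨R₀⟩ : Nonempty (Sylow r ↥M) := inferInstance
  have hNM : Subgroup.normalizer (((R₀ : Subgroup ↥M).map M.subtype : Subgroup G) : Set G) ⊔ M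
      = ⊤ := Sylow.normalizer_sup_eq_top R₀
  have hNidx : ¬ p ∣ (Subgroup.normalizer
      (((R₀ : Subgroup ↥M).map M.subtype : Subgroup G) : Set G)).index := by
    rw [hbs_index_eq_relIndex _ M hNM]
    intro h
    have h1 : p ∣ Nat.card M := h.trans (Subgroup.relIndex_dvd_card _ M)
    exact (Nat.Prime.coprime_iff_not_dvd hp).mp hM.symm h1
  obtain ⟨S₂, hS₂⟩ := hbs_sylow_le_of_not_dvd_index p _ hNidx
  have hxp : IsPGroup p (Subgroup.zpowers x) := by
    obtain ⟨j, hj⟩ := hx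
    rintro ⟨y, hy⟩
    refine ⟨j, ?_⟩
    obtain ⟨i, rfl⟩ := Subgroup.mem_zpowers_iff.mp hy
    apply Subtype.ext
    simp only [Subgroup.coe_pow, Subgroup.coe_one]
    rw [← zpow_natCast, ← _root_.zpow_mul, mul_comm, _root_.zpow_mul, zpow_natCast, hj,
      _root_.one_zpow]
  obtain ⟨S₁, hxS₁⟩ := hxp.exists_le_sylow
  obtain ⟨g, hg⟩ := MulAction.exists_smul_eq G S₂ S₁
  have hxS : x ∈ (S₁ : Subgroup G) := hxS₁ (Subgroup.mem_zpowers x)
  rw [← hg, Sylow.coe_subgroup_smul, Subgroup.mem_smul_pointwise_iff_exists] at hxS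
  obtain ⟨y, hyS₂, hyx⟩ := hxS
  have hyx' : x = g * y * g⁻¹ := by
    rw [← hyx]; simp [MulAut.smul_def]
  have hyN := hS₂ hyS₂
  refine ⟨((R₀ : Subgroup ↥M).map M.subtype).map (MulAut.conj g).toMonoidHom, ?_,
    (R₀.2.map _).map _, ?_, ?_⟩
  · rintro _ ⟨h, hh, rfl⟩
    obtain ⟨h', -, rfl⟩ := hh
    exact (inferInstance : M.Normal).conj_mem _ h'.2 g
  · rw [Subgroup.card_map_of_injective (MulAut.conj g).injective,
      Subgroup.card_map_of_injective M.subtype_injective]
    exact R₀.card_eq_multiplicity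
  · rintro _ ⟨h, hh, rfl⟩
    refine ⟨y * h * y⁻¹, (Subgroup.mem_normalizer_iff.mp hyN h).mp hh, ?_⟩
    rw [hyx']
    simp only [MulEquiv.coe_toMonoidHom, MulAut.conj_apply]
    group

/-- Piece HB-SYL. -/
theorem hb_invariant_sylow {H : Type*} [Group H] [Finite H] {p : ℕ} [Fact p.Prime]
    (K : Subgroup H) [K.Normal] (hK : (Nat.card K).Coprime p) (x y : H) (n : ℕ)
    (hx : x ^ p ^ n = 1) (hy : y ∈ Subgroup.zpowers x) (hyK : ∃ k ∈ K, y * k ≠ k * y) :
    ∃ (q : ℕ) (Q : Subgroup H), q.Prime ∧ q ≠ p ∧ Q ≤ K ∧ IsPGroup q Q ∧ x ∈ Subgroup.normalizer (Q : Set H) ∧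
      ∃ g ∈ Q, y * g ≠ g * y := by
  have hp : p.Prime := Fact.out
  by_contra hcon
  push Not at hcon
  have hdvd : ∀ q : ℕ, q.Prime → q ^ (Nat.card K).factorization q ∣
      Nat.card (K ⊓ Subgroup.centralizer ({y} : Set H) : Subgroup H) := by
    intro q hq
    by_cases hqK : q ∣ Nat.card K
    · have hqp : q ≠ p := by
        rintro rfl
        exact (Nat.Prime.coprime_iff_not_dvd hp).mp hK.symm hqK
      have := Fact.mk hq
      obtain ⟨R, hRK, hR, hRc, hRx⟩ := hbs_exists_invariant_sylow K hK x ⟨n, hx⟩ q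
      have hxR : x ∈ Subgroup.normalizer (R : Set H) :=
        Subgroup.mem_normalizer_fintype (S := (R : Set H)) (fun h hh => hRx h hh)
      have hc := hcon q R hq hqp hRK hR hxR
      have hRC : R ≤ K ⊓ Subgroup.centralizer ({y} : Set H) := by
        intro g hg
        refine Subgroup.mem_inf.mpr ⟨hRK hg, ?_⟩
        rw [Subgroup.mem_centralizer_iff]
        intro h hh
        rw [Set.mem_singleton_iff] at hh
        subst hh
        exact hc g hg
      rw [← hRc]
      exact Subgroup.card_dvd_of_le hRC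
    · rw [Nat.factorization_eq_zero_of_not_dvd hqK, pow_zero]
      exact one_dvd _
  have hKne : Nat.card K ≠ 0 := Nat.card_pos.ne'
  have hCne : Nat.card (K ⊓ Subgroup.centralizer ({y} : Set H) : Subgroup H) ≠ 0 :=
    Nat.card_pos.ne'
  have hKC : Nat.card K ∣ Nat.card (K ⊓ Subgroup.centralizer ({y} : Set H) : Subgroup H) := by
    rw [← Nat.factorization_prime_le_iff_dvd hKne hCne]
    intro q hq
    exact (hq.pow_dvd_iff_le_factorization hCne).mp (hdvd q hq)
  have hle : K ≤ K ⊓ Subgroup.centralizer ({y} : Set H) := by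
    have h1 : K ⊓ Subgroup.centralizer ({y} : Set H) = K :=
      Subgroup.eq_of_le_of_card_ge inf_le_left (Nat.le_of_dvd Nat.card_pos hKC)
    rw [h1]
  obtain ⟨k, hk, hne⟩ := hyK
  have hkC := (Subgroup.mem_inf.mp (hle hk)).2
  rw [Subgroup.mem_centralizer_iff] at hkC
  exact hne (hkC y rfl)

end Cfsg.Agent.Lib.Helper92.HB
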