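import Cfsg.Agent.Lib.Helper22.TGDefs
import Cfsg.Agent.Lib.Helper81.BrConj
import Cfsg.Agent.Lib.Helper81.BrMax2
import Cfsg.Agent.Lib.Helper81.BrPairs
import Cfsg.Agent.Lib.Helper22.IndCent2
import Cfsg.Prelude.Def_Blocks

/-!
# TGC-IND (helper92 for helper33): the blocks of `C_G(P)` inducing `B` are the conjugates of `b`
-/

set_option autoImplicit false
set_option linter.unusedVariables false

namespace Cfsg.Agent.Lib.Helper92.TGC

open Cfsg Cfsg.Agent.Lib.Helper22.TG Cfsg.Agent.Lib.Helper81
open scoped ComplexConjugate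

variable {G : Type*} [Group G] [Fintype G] (p : ℕ) [Fact p.Prime] (M : Ideal AlgInt)

/-- PIECE TGC-IND : the blocks of `C` inducing `B` are the conjugates of `b`. -/
theorem ind_iff_conj (hM : IsPModular p M) (P : Sylow p G) (hP : Nat.card P = p)
    (B : Set (IrrCharacter G)) (hB : IsPBlock M B) (hBP : IsDefectGroup p M B P)
    (b : Set (IrrCharacter (Subgroup.centralizer ((P : Subgroup G) : Set G))))
    (hind : IsInducedBlock M (Subgroup.centralizer ((P : Subgroup G) : Set G)) b B)
    (c : Set (IrrCharacter (Subgroup.centralizer ((P : Subgroup G) : Set G)))) :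
    IsInducedBlock M (Subgroup.centralizer ((P : Subgroup G) : Set G)) c B ↔
      ∃ g : G, conjPair g (⟨(P : Subgroup G), b⟩ : BrauerPairIdx G) = ⟨(P : Subgroup G), c⟩ := by
  have hPp : IsPGroup p (P : Subgroup G) := P.isPGroup'
  have hpairb : IsBrauerPairOf p M B (P : Subgroup G) b :=
    (isBrauerPairOf_iff_isInducedBlock hM _ hPp b B).mpr hind
  have hmax : IsMaximalBrauerPair p M B (P : Subgroup G) b :=
    Cfsg.Agent.Lib.Helper22.isMaximalBrauerPair_of_defectGroup hM B _ b hpairb hBP
  constructor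
  · intro hc
    have hpairc : IsBrauerPairOf p M B (P : Subgroup G) c :=
      (isBrauerPairOf_iff_isInducedBlock hM _ hPp c B).mpr hc
    obtain ⟨g, hg⟩ := exists_conj_subpairLE_maximal hM B (P : Subgroup G) (P : Subgroup G) b c
      hmax hpairc
    have hle : (P : Subgroup G).map (MulAut.conj g).toMonoidHom ≤ (P : Subgroup G) :=
      reflTransGen_le _ _ hg
    have hQP : (P : Subgroup G).map (MulAut.conj g).toMonoidHom = (P : Subgroup G) := by
      apply Subgroup.eq_of_le_of_card_ge hle
      rw [Subgroup.card_map_of_injective (MulAut.conj g).injective]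
    have heq : conjPair g (⟨(P : Subgroup G), c⟩ : BrauerPairIdx G) = ⟨(P : Subgroup G), b⟩ :=
      reflTransGen_eq_of_fst_eq hM _ _ hg hQP
    refine ⟨g⁻¹, ?_⟩
    rw [← heq, conjPair_inv_conjPair]
  · rintro ⟨g, hg⟩
    have h1 := brauerPairOf_conj B (P : Subgroup G) b hpairb g
    have h2 : IsBrauerPairOf p M B (conjPair g (⟨(P : Subgroup G), b⟩ : BrauerPairIdx G)).1
        (conjPair g (⟨(P : Subgroup G), b⟩ : BrauerPairIdx G)).2 := h1
    rw [hg] at h2
    exact (isBrauerPairOf_iff_isInducedBlock hM _ hPp c B).mp h2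

end Cfsg.Agent.Lib.Helper92.TGC
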