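import Mathlib
import Cfsg.Prelude.Def_RootSubgroups
import Cfsg.Agent.Lib.Helper12.RootInv
import Cfsg.Agent.Lib.Helper20.RI1

/-!
Job-board piece LEMN (helper20's S5046 project): the conjugates of `β` under `⟨u x⟩` commute
pairwise.
-/

set_option autoImplicit false

namespace Cfsg.Agent.Lib.Helper92.RI

open Cfsg Cfsg.Agent.Lib.Helper12.RootInv Cfsg.Agent.Lib.Helper20.RI

variable {G : Type*} [Group G]

theorem comm_of_sq {a b : G} (ha : a * a = 1) (hb : b * b = 1) (h : (a * b) * (a * b) = 1) :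
    a * b = b * a := by
  have h1 : a * b = (a * b)⁻¹ := eq_inv_of_mul_eq_one_left h
  rw [mul_inv_rev, inv_eq_of_mul_eq_one_left ha, inv_eq_of_mul_eq_one_left hb] at h1
  exact h1

theorem cancel_comm {a b r s : G} (h : Commute (a * r) (b * s)) (hrb : Commute r b)
    (hsa : Commute s a) (hrs : Commute r s) : Commute a b := by
  have h' : a * r * (b * s) = b * s * (a * r) := h.eq
  have e1 : a * r * (b * s) = a * b * (r * s) := by
    calc a * r * (b * s) = a * (r * b) * s := by simp only [mul_assoc]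
      _ = a * (b * r) * s := by rw [hrb.eq]
      _ = a * b * (r * s) := by simp only [mul_assoc]
  have e2 : b * s * (a * r) = b * a * (r * s) := by
    calc b * s * (a * r) = b * (s * a) * r := by simp only [mul_assoc]
      _ = b * (a * s) * r := by rw [hsa.eq]
      _ = b * a * (s * r) := by simp only [mul_assoc]
      _ = b * a * (r * s) := by rw [hrs.eq]
  rw [e1, e2] at h'
  exact mul_right_cancel h'

/-! ### the window subgroups -/

/-- the subgroup generated by the `β_i`, `lo ≤ i ≤ hi` -/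
def W (ρ β : G) (lo hi : ℤ) : Subgroup G :=
  Subgroup.closure {g | ∃ i : ℤ, lo ≤ i ∧ i ≤ hi ∧ g = bfam ρ β i}

theorem W_mono (ρ β : G) {lo hi lo' hi' : ℤ} (h1 : lo' ≤ lo) (h2 : hi ≤ hi') :
    W ρ β lo hi ≤ W ρ β lo' hi' := by
  apply Subgroup.closure_mono
  rintro g ⟨i, hi1, hi2, rfl⟩
  exact ⟨i, by omega, by omega, rfl⟩

theorem bfam_mem_W (ρ β : G) {lo hi i : ℤ} (h1 : lo ≤ i) (h2 : i ≤ hi) :
    bfam ρ β i ∈ W ρ β lo hi :=
  Subgroup.subset_closure ⟨i, h1, h2, rfl⟩

theorem W_shift_up (ρ β : G) {lo hi lo' hi' : ℤ} (h1 : lo' ≤ lo + 1) (h2 : hi + 1 ≤ hi') {g : G}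
    (hg : g ∈ W ρ β lo hi) : ρ⁻¹ * g * ρ ∈ W ρ β lo' hi' := by
  unfold W at hg
  induction hg using Subgroup.closure_induction with
  | mem y hy =>
    obtain ⟨i, hi1, hi2, rfl⟩ := hy
    rw [bfam_succ]
    exact bfam_mem_W ρ β (by omega) (by omega)
  | one =>
    have e : ρ⁻¹ * 1 * ρ = 1 := by group
    rw [e]
    exact Subgroup.one_mem _
  | mul a b _ _ iha ihb =>
    have e : ρ⁻¹ * (a * b) * ρ = (ρ⁻¹ * a * ρ) * (ρ⁻¹ * b * ρ) := by group
    rw [e]
    exact Subgroup.mul_mem _ iha ihb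
  | inv a _ iha =>
    have e : ρ⁻¹ * a⁻¹ * ρ = (ρ⁻¹ * a * ρ)⁻¹ := by group
    rw [e]
    exact Subgroup.inv_mem _ iha

theorem W_shift_down (ρ β : G) {lo hi lo' hi' : ℤ} (h1 : lo' ≤ lo - 1) (h2 : hi - 1 ≤ hi') {g : G}
    (hg : g ∈ W ρ β lo hi) : ρ * g * ρ⁻¹ ∈ W ρ β lo' hi' := by
  unfold W at hg
  induction hg using Subgroup.closure_induction with
  | mem y hy =>
    obtain ⟨i, hi1, hi2, rfl⟩ := hy
    rw [bfam_pred]
    exact bfam_mem_W ρ β (by omega) (by omega)
  | one =>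
    have e : ρ * 1 * ρ⁻¹ = 1 := by group
    rw [e]
    exact Subgroup.one_mem _
  | mul a b _ _ iha ihb =>
    have e : ρ * (a * b) * ρ⁻¹ = (ρ * a * ρ⁻¹) * (ρ * b * ρ⁻¹) := by group
    rw [e]
    exact Subgroup.mul_mem _ iha ihb
  | inv a _ iha =>
    have e : ρ * a⁻¹ * ρ⁻¹ = (ρ * a * ρ⁻¹)⁻¹ := by group
    rw [e]
    exact Subgroup.inv_mem _ iha

theorem W_commute (ρ β : G) {lo hi : ℤ} {c : G}
    (h : ∀ i, lo ≤ i → i ≤ hi → Commute c (bfam ρ β i)) {g : G} (hg : g ∈ W ρ β lo hi) :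
    Commute c g := by
  have hle : W ρ β lo hi ≤ Subgroup.centralizer ({c} : Set G) := by
    unfold W
    rw [Subgroup.closure_le]
    rintro y ⟨i, h1, h2, rfl⟩
    rw [SetLike.mem_coe, Subgroup.mem_centralizer_singleton_iff]
    exact (h i h1 h2).eq.symm
  have h3 := hle hg
  rw [Subgroup.mem_centralizer_singleton_iff] at h3
  exact h3.symm

theorem W_abelian (ρ β : G) {lo hi : ℤ}
    (h : ∀ i j, lo ≤ i → i ≤ hi → lo ≤ j → j ≤ hi → Commute (bfam ρ β i) (bfam ρ β j))
    {g g' : G} (hg : g ∈ W ρ β lo hi) (hg' : g' ∈ W ρ β lo hi) : Commute g g' := by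
  apply W_commute ρ β _ hg'
  intro i h1 h2
  exact (W_commute ρ β (fun j h3 h4 => h i j h1 h2 h3 h4) hg).symm

/-! ### commutation at bounded distance -/

/-- `β_i` and `β_j` commute whenever `|i - j| ≤ n` -/
def CA (ρ β : G) (n : ℤ) : Prop :=
  ∀ i j : ℤ, i - j ≤ n → j - i ≤ n → Commute (bfam ρ β i) (bfam ρ β j)

theorem commute_shift (ρ β : G) {a b : ℤ} (h : Commute (bfam ρ β a) (bfam ρ β b)) (t : ℤ) :
    Commute (bfam ρ β (a + t)) (bfam ρ β (b + t)) := by
  rw [← bfam_conj_zpow, ← bfam_conj_zpow]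
  have e1 : ∀ A B : G, (ρ ^ (-t) * A * ρ ^ t) * (ρ ^ (-t) * B * ρ ^ t) =
      ρ ^ (-t) * (A * B) * ρ ^ t := by
    intro A B
    rw [zpow_neg]
    group
  show _ * _ = _ * _
  rw [e1, e1, h.eq]

theorem CA_succ (ρ β : G) {n : ℤ} (hn : 0 ≤ n) (h : CA ρ β n) {a b : ℤ} (hab : b - a = n + 1)
    (hc : Commute (bfam ρ β a) (bfam ρ β b)) : CA ρ β (n + 1) := by
  intro i j h1 h2
  by_cases h3 : i - j ≤ n ∧ j - i ≤ n
  · exact h i j h3.1 h3.2
  · by_cases h4 : j - i = n + 1
    · have h5 := commute_shift ρ β hc (i - a)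
      have e1 : a + (i - a) = i := by ring
      have e2 : b + (i - a) = j := by omega
      rw [e1, e2] at h5
      exact h5
    · have h5 := commute_shift ρ β hc (j - a)
      have e1 : a + (j - a) = j := by ring
      have e2 : b + (j - a) = i := by omega
      rw [e1, e2] at h5
      exact h5.symm

/-! ### the step lemma -/

/-- the configuration preserved by the step -/
structure BB (D : Set G) (u x π : G) : Prop where
  mem : π ∈ D
  comm : π * u = u * π
  prod : u * π ∈ D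
  four : orderOf (π * x) = 4

theorem step {D : Set G} (hD : IsRootInvolutionSet D) {u x π : G} (hu : u ∈ D) (hx : x ∈ D)
    (hodd : Odd (orderOf (u * x))) (hxu : x ≠ u) (h : BB D u x π) :
    Commute π ((u * x)⁻¹ * π * (u * x)) ∧
    Commute ((u * x)⁻¹ * π * (u * x)) ((u * x) * π * (u * x)⁻¹) ∧
    BB D u x (((u * x) * π * (u * x)⁻¹) * ((u * x)⁻¹ * π * (u * x))) := by
  obtain ⟨hπ, hπu, huπ, h4⟩ := h
  have hu2 := ri_sq hD hu
  have hx2 := ri_sq hD hx
  have hπ2 := ri_sq hD hπ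
  have hp4 := four_pow h4
  have hρinv : (u * x)⁻¹ = x * u := by rw [mul_inv_rev, ri_inv hD hu, ri_inv hD hx]
  have hP1 : (u * x)⁻¹ * π * (u * x) = x * π * x := by
    rw [hρinv]
    calc x * u * π * (u * x) = x * (u * π) * u * x := by simp only [mul_assoc]
      _ = x * (π * u) * u * x := by rw [hπu]
      _ = x * π * (u * u) * x := by simp only [mul_assoc]
      _ = x * π * x := by rw [hu2, mul_one]
  have hP2 : (u * x) * π * (u * x)⁻¹ = u * (x * π * x) * u := by
    rw [hρinv]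
    simp only [mul_assoc]
  rw [hP1, hP2]
  -- the element `v = (π x)^2 = π * P1`
  have hv : (π * x) ^ 2 ∈ D := four_mem hD hπ hx h4
  have hvP : (π * x) ^ 2 = π * (x * π * x) := by
    rw [pow_two]
    simp only [mul_assoc]
  have hvπ : π * (π * x) ^ 2 = (π * x) ^ 2 * π := sq_comm_left hπ2 hx2 hp4
  have hvx : x * (π * x) ^ 2 = (π * x) ^ 2 * x := sq_comm_right hπ2 hx2 hp4
  have hvx' : (π * x) ^ 2 * x = π * x * π := inv_sq_right hx2
  have hP1D : x * π * x ∈ D := by
    have := hD.conj_mem π hπ x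
    rwa [ri_inv hD hx] at this
  obtain ⟨v, hvdef⟩ : ∃ v : G, v = (π * x) ^ 2 := ⟨_, rfl⟩
  rw [← hvdef] at hv hvP hvπ hvx hvx'
  obtain ⟨P1, hP1def⟩ : ∃ P1 : G, P1 = x * π * x := ⟨_, rfl⟩
  rw [← hP1def] at hvP hP1D ⊢
  have hvv : v * v = 1 := ri_sq hD hv
  have hP1sq : P1 * P1 = 1 := ri_sq hD hP1D
  have c1 : π * P1 = P1 * π := by
    apply comm_of_sq hπ2 hP1sq
    rw [← hvP]
    exact hvv
  have hP2D : u * P1 * u ∈ D := by
    have := hD.conj_mem P1 hP1D u
    rwa [ri_inv hD hu] at this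
  obtain ⟨P2, hP2def⟩ : ∃ P2 : G, P2 = u * P1 * u := ⟨_, rfl⟩
  rw [← hP2def] at hP2D ⊢
  have hP2sq : P2 * P2 = 1 := ri_sq hD hP2D
  have c1' : π * P2 = P2 * π := by
    rw [hP2def]
    calc π * (u * P1 * u) = (π * u) * P1 * u := by simp only [mul_assoc]
      _ = (u * π) * P1 * u := by rw [hπu]
      _ = u * (π * P1) * u := by simp only [mul_assoc]
      _ = u * (P1 * π) * u := by rw [c1]
      _ = u * P1 * (π * u) := by simp only [mul_assoc]
      _ = u * P1 * (u * π) := by rw [hπu]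
      _ = u * P1 * u * π := by simp only [mul_assoc]
  -- (2)
  have hne : u * v ≠ v * u := by
    intro huv
    have hvρ : Commute v (u * x) := by
      show v * (u * x) = u * x * v
      calc v * (u * x) = (v * u) * x := by simp only [mul_assoc]
        _ = (u * v) * x := by rw [huv]
        _ = u * (v * x) := by simp only [mul_assoc]
        _ = u * (x * v) := by rw [hvx]
        _ = u * x * v := by simp only [mul_assoc]
    have e1 : π * (u * x) * π⁻¹ = v * (u * x) := by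
      rw [ri_inv hD hπ]
      calc π * (u * x) * π = (π * u) * x * π := by simp only [mul_assoc]
        _ = (u * π) * x * π := by rw [hπu]
        _ = u * (π * x * π) := by simp only [mul_assoc]
        _ = u * (v * x) := by rw [hvx']
        _ = (u * v) * x := by simp only [mul_assoc]
        _ = (v * u) * x := by rw [huv]
        _ = v * (u * x) := by simp only [mul_assoc]
    obtain ⟨k, hk⟩ := hodd
    have e3 : (u * x) ^ (2 * k + 1) = 1 := by
      rw [← hk]
      exact pow_orderOf_eq_one _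
    have e4 : v ^ (2 * k + 1) = v := by
      rw [pow_succ, pow_mul, pow_two, hvv, one_pow, one_mul]
    have e2 : (π * (u * x) * π⁻¹) ^ (2 * k + 1) = 1 := by
      rw [conj_pow, e3, mul_one, mul_inv_cancel]
    rw [e1, hvρ.mul_pow, e3, e4, mul_one] at e2
    exact ri_ne_one hD hv e2
  have hnodd : ¬ Odd (orderOf (u * v)) := by
    intro ho
    have h5 := l2 hD hπ2 (ri_ne_one hD hπ) hπu.symm huπ hv hvπ.symm ho
    apply hne
    rw [← h5]
  obtain ⟨h4', hμ⟩ := four_of_not hD hu hv hne hnodd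
  have hp4' := four_pow h4'
  -- (3)
  have hμeq : (u * v) ^ 2 = P2 * P1 := by
    calc (u * v) ^ 2 = u * v * (u * v) := pow_two _
      _ = u * (π * P1) * (u * (π * P1)) := by rw [hvP]
      _ = (u * π) * P1 * u * π * P1 := by simp only [mul_assoc]
      _ = (π * u) * P1 * u * π * P1 := by rw [hπu]
      _ = π * (u * P1 * u) * π * P1 := by simp only [mul_assoc]
      _ = π * P2 * π * P1 := by rw [hP2def]
      _ = P2 * π * π * P1 := by rw [c1']
      _ = P2 * (π * π) * P1 := by simp only [mul_assoc]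
      _ = P2 * P1 := by rw [hπ2, mul_one]
  have hμμ : (u * v) ^ 2 * (u * v) ^ 2 = 1 := ri_sq hD hμ
  have c3 : P2 * P1 = P1 * P2 := by
    apply comm_of_sq hP2sq hP1sq
    rw [← hμeq]
    exact hμμ
  have hμu : u * (u * v) ^ 2 = (u * v) ^ 2 * u := sq_comm_left hu2 hvv hp4'
  have huμ : u * (u * v) ^ 2 ∈ D := by
    rw [inv_sq_left hu2]
    have := hD.conj_mem u hu v
    rwa [ri_inv hD hv] at this
  refine ⟨c1, c3.symm, ?_⟩
  rw [← hμeq]
  refine ⟨hμ, hμu.symm, huμ, ?_⟩
  have hne' : (u * v) ^ 2 * x ≠ x * (u * v) ^ 2 := by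
    intro hc
    have h5 := l2 hD hμμ (ri_ne_one hD hμ) hμu huμ hx hc.symm hodd
    exact hxu h5.symm
  have hnodd' : ¬ Odd (orderOf ((u * v) ^ 2 * x)) := by
    intro ho
    have ho' : Odd (orderOf (x * (u * v) ^ 2)) := by
      rw [orderOf_mul_swap]
      exact ho
    have hxvD : x * v ∈ D := by
      rw [hvx, hvx']
      have := hD.conj_mem x hx π
      rwa [ri_inv hD hπ] at this
    have hμv : (u * v) ^ 2 * v = v * (u * v) ^ 2 := by
      rw [hμeq, hvP]
      calc P2 * P1 * (π * P1) = P2 * (P1 * π) * P1 := by simp only [mul_assoc]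
        _ = P2 * (π * P1) * P1 := by rw [c1]
        _ = (P2 * π) * P1 * P1 := by simp only [mul_assoc]
        _ = (π * P2) * P1 * P1 := by rw [c1']
        _ = π * (P2 * P1) * P1 := by simp only [mul_assoc]
        _ = π * (P1 * P2) * P1 := by rw [c3]
        _ = π * P1 * (P2 * P1) := by simp only [mul_assoc]
    have h5 := l2 hD hvv (ri_ne_one hD hv) hvx hxvD hμ hμv ho'
    have h6 : u * x = x * u := by
      rw [h5]
      exact hμu
    exact hxu (eq_of_comm_odd hD hu hx h6 hodd).symm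
  exact (four_of_not hD hμ hx hne' hnodd').1

/-! ### the induction -/

theorem inv_all {D : Set G} (hD : IsRootInvolutionSet D) {u β x : G} (hu : u ∈ D) (hβ : β ∈ D)
    (hx : x ∈ D) (hβu : β * u = u * β) (huβ : u * β ∈ D) (hodd : Odd (orderOf (u * x)))
    (hxu : x ≠ u) (h4 : orderOf (β * x) = 4) (k : ℕ) :
    CA (u * x) β (2 * (k : ℤ)) ∧
    ∃ p : G, BB D u x p ∧
      (∃ r ∈ W (u * x) β (-(k : ℤ) + 1) k, p = bfam (u * x) β (-(k : ℤ)) * r) ∧
      (∃ s ∈ W (u * x) β (-(k : ℤ)) ((k : ℤ) - 1), p = bfam (u * x) β k * s) := by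
  induction k with
  | zero =>
    refine ⟨?_, β, ⟨hβ, hβu, huβ, h4⟩, ⟨1, Subgroup.one_mem _, ?_⟩, ⟨1, Subgroup.one_mem _, ?_⟩⟩
    · intro i j h1 h2
      have : i = j := by
        simp only [Nat.cast_zero, mul_zero] at h1 h2
        omega
      rw [this]
    · simp [bfam_zero]
    · simp [bfam_zero]
  | succ k ih =>
    obtain ⟨hCA, p, hBB, ⟨r, hr, hpr⟩, ⟨s, hs, hps⟩⟩ := ih
    obtain ⟨h1, h3, hBB'⟩ := step hD hu hx hodd hxu hBB
    have hk1 : ((k + 1 : ℕ) : ℤ) = (k : ℤ) + 1 := by push_cast; ring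
    rw [hk1]
    have hs' : (u * x)⁻¹ * s * (u * x) ∈ W (u * x) β (-(k : ℤ) + 1) k :=
      W_shift_up (u * x) β (by omega) (by omega) hs
    have hr'' : (u * x) * r * (u * x)⁻¹ ∈ W (u * x) β (-(k : ℤ)) ((k : ℤ) - 1) :=
      W_shift_down (u * x) β (by omega) (by omega) hr
    have e1 : (u * x)⁻¹ * p * (u * x) =
        bfam (u * x) β ((k : ℤ) + 1) * ((u * x)⁻¹ * s * (u * x)) := by
      rw [hps, ← bfam_succ]
      group
    have e2 : (u * x) * p * (u * x)⁻¹ =
        bfam (u * x) β (-(k : ℤ) - 1) * ((u * x) * r * (u * x)⁻¹) := by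
      rw [hpr, ← bfam_pred]
      group
    obtain ⟨s', hs'def⟩ : ∃ s' : G, s' = (u * x)⁻¹ * s * (u * x) := ⟨_, rfl⟩
    obtain ⟨r'', hr''def⟩ : ∃ r'' : G, r'' = (u * x) * r * (u * x)⁻¹ := ⟨_, rfl⟩
    rw [← hs'def] at hs' e1
    rw [← hr''def] at hr'' e2
    rw [e1] at h1 h3
    rw [e2] at h3
    rw [hpr] at h1
    -- STEP (1): distance 2k+1
    have c_rs' : Commute r s' :=
      W_abelian (u * x) β (fun i j a1 a2 a3 a4 => hCA i j (by omega) (by omega)) hr hs'
    have c_r_b : Commute r (bfam (u * x) β ((k : ℤ) + 1)) :=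
      (W_commute (u * x) β (fun i a1 a2 => hCA _ i (by omega) (by omega)) hr).symm
    have c_s'_a : Commute s' (bfam (u * x) β (-(k : ℤ))) :=
      (W_commute (u * x) β (fun i a1 a2 => hCA _ i (by omega) (by omega)) hs').symm
    have hd1 : Commute (bfam (u * x) β (-(k : ℤ))) (bfam (u * x) β ((k : ℤ) + 1)) :=
      cancel_comm h1 c_r_b c_s'_a c_rs'
    have hCA1 : CA (u * x) β (2 * (k : ℤ) + 1) :=
      CA_succ (u * x) β (by omega) hCA (by ring) hd1
    -- STEP (3): distance 2k+2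
    have hs'W : s' ∈ W (u * x) β (-(k : ℤ)) k := W_mono (u * x) β (by omega) (by omega) hs'
    have hr''W : r'' ∈ W (u * x) β (-(k : ℤ)) k := W_mono (u * x) β (by omega) (by omega) hr''
    have c_s'r'' : Commute s' r'' :=
      W_abelian (u * x) β (fun i j a1 a2 a3 a4 => hCA i j (by omega) (by omega)) hs'W hr''W
    have c_s'_b : Commute s' (bfam (u * x) β (-(k : ℤ) - 1)) :=
      (W_commute (u * x) β (fun i a1 a2 => hCA1 _ i (by omega) (by omega)) hs').symm
    have c_r''_a : Commute r'' (bfam (u * x) β ((k : ℤ) + 1)) :=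
      (W_commute (u * x) β (fun i a1 a2 => hCA1 _ i (by omega) (by omega)) hr'').symm
    have hd2 : Commute (bfam (u * x) β ((k : ℤ) + 1)) (bfam (u * x) β (-(k : ℤ) - 1)) :=
      cancel_comm h3 c_s'_b c_r''_a c_s'r''
    have hCA2 : CA (u * x) β (2 * (k : ℤ) + 1 + 1) :=
      CA_succ (u * x) β (by omega) hCA1 (by ring) hd2.symm
    have e3 : 2 * ((k : ℤ) + 1) = 2 * (k : ℤ) + 1 + 1 := by ring
    rw [e3]
    refine ⟨hCA2, _, hBB', ⟨r'' * bfam (u * x) β ((k : ℤ) + 1) * s', ?_, ?_⟩,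
      ⟨bfam (u * x) β (-(k : ℤ) - 1) * r'' * s', ?_, ?_⟩⟩
    · refine Subgroup.mul_mem _ (Subgroup.mul_mem _ ?_ ?_) ?_
      · exact W_mono (u * x) β (by omega) (by omega) hr''
      · exact bfam_mem_W (u * x) β (by omega) (by omega)
      · exact W_mono (u * x) β (by omega) (by omega) hs'
    · rw [e1, e2]
      have e4 : -((k : ℤ) + 1) = -(k : ℤ) - 1 := by ring
      rw [e4]
      simp only [mul_assoc]
    · refine Subgroup.mul_mem _ (Subgroup.mul_mem _ ?_ ?_) ?_
      · exact bfam_mem_W (u * x) β (by omega) (by omega)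
      · exact W_mono (u * x) β (by omega) (by omega) hr''
      · exact W_mono (u * x) β (by omega) (by omega) hs'
    · rw [e1, e2]
      calc bfam (u * x) β (-(k : ℤ) - 1) * r'' * (bfam (u * x) β ((k : ℤ) + 1) * s')
          = bfam (u * x) β (-(k : ℤ) - 1) * (r'' * bfam (u * x) β ((k : ℤ) + 1)) * s' := by
            simp only [mul_assoc]
        _ = bfam (u * x) β (-(k : ℤ) - 1) * (bfam (u * x) β ((k : ℤ) + 1) * r'') * s' := by
            rw [c_r''_a.eq]
        _ = (bfam (u * x) β (-(k : ℤ) - 1) * bfam (u * x) β ((k : ℤ) + 1)) * r'' * s' := by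
            simp only [mul_assoc]
        _ = (bfam (u * x) β ((k : ℤ) + 1) * bfam (u * x) β (-(k : ℤ) - 1)) * r'' * s' := by
            rw [hd2.eq]
        _ = bfam (u * x) β ((k : ℤ) + 1) * (bfam (u * x) β (-(k : ℤ) - 1) * r'' * s') := by
            simp only [mul_assoc]

/-- PIECE LEMN: the conjugates of `β` under `⟨u x⟩` commute pairwise. -/
theorem lemma_N {D : Set G} (hD : IsRootInvolutionSet D) {u β x : G} (hu : u ∈ D) (hβ : β ∈ D) (hx : x ∈ D)
    (hβu : β * u = u * β) (huβ : u * β ∈ D) (hodd : Odd (orderOf (u * x))) (hxu : x ≠ u)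
    (h4 : orderOf (β * x) = 4) (i j : ℤ) :
    Commute (bfam (u * x) β i) (bfam (u * x) β j) := by
  have h := (inv_all hD hu hβ hx hβu huβ hodd hxu h4 (i - j).natAbs).1
  apply h i j
  · omega
  · omega

end Cfsg.Agent.Lib.Helper92.RI
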