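import Mathlib
import Cfsg.Prelude.Def_Blocks
import Cfsg.Agent.Lib.Helper67.DORM

/-!
# Piece RM2 of the TG project (helper92 for helper22): refined rank divisibility

`dvd_rank_refined`: for a lattice endomorphism `lam` which is idempotent mod `p` and commutes with
`wX`, `Φ_m(wX) = 0`, `p ∤ m`: if all root multiplicities of `charpoly (lam ∘ wX)` are divisible by
`d` then `d * ord_m(p)` divides the `𝔽_p`-rank of `lam mod p`.
-/

set_option autoImplicit false
set_option linter.style.haveILetI false
set_option linter.unusedSectionVars false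
set_option linter.unusedVariables false

namespace Cfsg.Agent.Lib.Helper92.TG

open Polynomial Cfsg

/-- orbit counting: a weight function invariant under an injective map acting with all periods
equal to `r` on a finite stable set has total weight divisible by `D * r` when all weights are
divisible by `D`. -/
theorem orbit_sum_dvd {α : Type*} [DecidableEq α] (σ : α → α) (hσ : Function.Injective σ)
    (r : ℕ) (hr : 0 < r) (c : α → ℕ) (D : ℕ) :
    ∀ (S : Finset α), (∀ a ∈ S, σ a ∈ S) → (∀ a ∈ S, ∀ i : ℕ, σ^[i] a = a ↔ r ∣ i) →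
      (∀ a ∈ S, c (σ a) = c a) → (∀ a ∈ S, D ∣ c a) → D * r ∣ ∑ a ∈ S, c a := by
  intro S
  induction S using Finset.strongInduction with
  | H S ih =>
    intro hst hfree hc hD
    rcases S.eq_empty_or_nonempty with rfl | ⟨a, ha⟩
    · simp
    have hiter : ∀ i : ℕ, σ^[i] a ∈ S := by
      intro i
      induction i with
      | zero => exact ha
      | succ i ihi =>
        rw [Function.iterate_succ_apply']
        exact hst _ ihi
    have hciter : ∀ i : ℕ, c (σ^[i] a) = c a := by
      intro i
      induction i with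
      | zero => rfl
      | succ i ihi =>
        rw [Function.iterate_succ_apply', hc _ (hiter i), ihi]
    have hsucc : ∀ i : ℕ, 0 < i → σ^[i] a = σ (σ^[i - 1] a) := by
      intro i hi
      obtain ⟨j, rfl⟩ : ∃ j, i = j + 1 := ⟨i - 1, by omega⟩
      rw [Function.iterate_succ_apply', Nat.add_sub_cancel]
    have hO : ∃ O : Finset α, O = (Finset.range r).image (fun i => σ^[i] a) := ⟨_, rfl⟩
    obtain ⟨O, hOdef⟩ := hO
    have hmemO : ∀ b, b ∈ O ↔ ∃ i, i < r ∧ σ^[i] a = b := by
      intro b
      rw [hOdef, Finset.mem_image]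
      constructor
      · rintro ⟨i, hi, rfl⟩
        exact ⟨i, Finset.mem_range.mp hi, rfl⟩
      · rintro ⟨i, hi, rfl⟩
        exact ⟨i, Finset.mem_range.mpr hi, rfl⟩
    have hOS : O ⊆ S := by
      intro b hb
      obtain ⟨i, -, rfl⟩ := (hmemO b).mp hb
      exact hiter i
    have hle : ∀ i j : ℕ, i ≤ j → j < r → σ^[i] a = σ^[j] a → i = j := by
      intro i j hij hj h
      have h1 : σ^[j] a = σ^[i] (σ^[j - i] a) := by
        rw [← Function.iterate_add_apply]
        congr 1
        omega
      rw [h1] at h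
      have h2 := (hσ.iterate i) h
      have h3 := (hfree a ha (j - i)).mp h2.symm
      have h4 : j - i = 0 := Nat.eq_zero_of_dvd_of_lt h3 (by omega)
      omega
    have hinj : Set.InjOn (fun i => σ^[i] a) (Finset.range r : Set ℕ) := by
      intro i hi j hj hij
      have hi' : i < r := Finset.mem_range.mp hi
      have hj' : j < r := Finset.mem_range.mp hj
      rcases le_total i j with h | h
      · exact hle i j h hj' hij
      · exact (hle j i h hi' hij.symm).symm
    have hOcard : O.card = r := by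
      rw [hOdef, Finset.card_image_of_injOn hinj, Finset.card_range]
    have hcO : ∀ b ∈ O, c b = c a := by
      intro b hb
      obtain ⟨i, -, rfl⟩ := (hmemO b).mp hb
      exact hciter i
    have haO : a ∈ O := (hmemO a).mpr ⟨0, hr, rfl⟩
    have hsum : ∑ b ∈ S, c b = ∑ b ∈ S \ O, c b + ∑ b ∈ O, c b := (Finset.sum_sdiff hOS).symm
    have hOsum : ∑ b ∈ O, c b = r * c a := by
      rw [Finset.sum_congr rfl hcO, Finset.sum_const, hOcard, smul_eq_mul]
    have hlt : S \ O ⊂ S := by
      refine Finset.ssubset_iff_subset_ne.mpr ⟨Finset.sdiff_subset, ?_⟩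
      intro h
      have : a ∈ S \ O := by rw [h]; exact ha
      exact (Finset.mem_sdiff.mp this).2 haO
    have hst' : ∀ b ∈ S \ O, σ b ∈ S \ O := by
      intro b hb
      obtain ⟨hbS, hbO⟩ := Finset.mem_sdiff.mp hb
      refine Finset.mem_sdiff.mpr ⟨hst b hbS, ?_⟩
      intro h
      obtain ⟨i, hi, hib⟩ := (hmemO _).mp h
      apply hbO
      rcases Nat.eq_zero_or_pos i with h0 | h0
      · subst h0
        have h1 : σ^[r] a = a := (hfree a ha r).mpr dvd_rfl
        have h2 : σ^[r] a = σ (σ^[r - 1] a) := hsucc r hr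
        have h3 : σ (σ^[r - 1] a) = σ b := by
          rw [← h2, h1]
          exact hib
        exact (hmemO b).mpr ⟨r - 1, by omega, hσ h3⟩
      · have h2 : σ^[i] a = σ (σ^[i - 1] a) := hsucc i h0
        rw [h2] at hib
        exact (hmemO b).mpr ⟨i - 1, by omega, hσ hib⟩
    have h5 := ih (S \ O) hlt hst' (fun b hb => hfree b (Finset.sdiff_subset hb))
      (fun b hb => hc b (Finset.sdiff_subset hb)) (fun b hb => hD b (Finset.sdiff_subset hb))
    rw [hsum, hOsum]
    exact dvd_add h5 (by rw [mul_comm D r]; exact mul_dvd_mul_left r (hD a ha))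

/-- counting roots: a polynomial over a field of characteristic `p` which splits, whose root
multiplicities are all divisible by `d` and Frobenius-invariant, and whose non-zero roots are
primitive `m`-th roots of unity. -/
theorem count_core {k : Type*} [Field k] (p : ℕ) [Fact p.Prime] [CharP k p]
    (m : ℕ) (hm : 0 < m) (hpm : ¬ p ∣ m) (Fb : k[X]) (hFb : Fb ≠ 0)
    (hsplit : Multiset.card Fb.roots = Fb.natDegree)
    (d : ℕ) (hd : ∀ a : k, d ∣ Fb.rootMultiplicity a)
    (hfrob : ∀ a : k, Fb.rootMultiplicity (a ^ p) = Fb.rootMultiplicity a)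
    (hprim : ∀ a : k, a ≠ 0 → Fb.IsRoot a → IsPrimitiveRoot a m) :
    d * orderOf ((p : ZMod m)) ∣ Fb.natDegree - Fb.rootMultiplicity 0 := by
  classical
  have hp := (Fact.out : p.Prime)
  have hcop : Nat.Coprime p m := (Nat.Prime.coprime_iff_not_dvd hp).mpr hpm
  have hr : 0 < orderOf ((p : ZMod m)) := by
    haveI : NeZero m := ⟨hm.ne'⟩
    rw [orderOf_pos_iff]
    have h1 := ZMod.pow_totient (ZMod.unitOfCoprime p hcop)
    refine isOfFinOrder_iff_pow_eq_one.mpr ⟨Nat.totient m, Nat.totient_pos.mpr hm, ?_⟩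
    have h2 := congrArg Units.val h1
    rw [Units.val_pow_eq_pow_val, ZMod.coe_unitOfCoprime, Units.val_one] at h2
    exact h2
  obtain ⟨Ω, hΩ⟩ : ∃ Ω : Finset k, Ω = primitiveRoots m k := ⟨_, rfl⟩
  have hmemΩ : ∀ a : k, a ∈ Ω ↔ IsPrimitiveRoot a m := by
    intro a
    rw [hΩ]
    exact mem_primitiveRoots hm
  have h0Ω : (0 : k) ∉ Ω := by
    intro h
    exact ((hmemΩ 0).mp h).ne_zero hm.ne' rfl
  have hsub : ∀ a ∈ Fb.roots, a ∈ insert (0 : k) Ω := by
    intro a ha
    by_cases ha0 : a = 0
    · rw [ha0]; exact Finset.mem_insert_self _ _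
    · exact Finset.mem_insert_of_mem ((hmemΩ a).mpr (hprim a ha0 ((mem_roots hFb).mp ha)))
  have hcard : ∑ a ∈ insert (0 : k) Ω, Fb.roots.count a = Multiset.card Fb.roots :=
    Multiset.sum_count_eq_card hsub
  rw [Finset.sum_insert h0Ω, count_roots, hsplit] at hcard
  have hval : Fb.natDegree - Fb.rootMultiplicity 0 = ∑ a ∈ Ω, Fb.rootMultiplicity a := by
    have h1 : ∑ a ∈ Ω, Fb.roots.count a = ∑ a ∈ Ω, Fb.rootMultiplicity a :=
      Finset.sum_congr rfl (fun a _ => count_roots Fb)
    omega
  rw [hval]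
  have hinj : Function.Injective (fun a : k => a ^ p) := by
    intro a b hab
    have h1 : (a - b) ^ p = 0 := by
      rw [sub_pow_char]
      exact sub_eq_zero.mpr hab
    exact sub_eq_zero.mp (pow_eq_zero_iff hp.ne_zero |>.mp h1)
  apply orbit_sum_dvd (fun a : k => a ^ p) hinj _ hr (fun a => Fb.rootMultiplicity a) d Ω
  · intro a ha
    exact (hmemΩ _).mpr (((hmemΩ a).mp ha).pow_of_coprime p hcop)
  · intro a ha i
    have h1 := (hmemΩ a).mp ha
    have hiter : ∀ j : ℕ, (fun a : k => a ^ p)^[j] a = a ^ (p ^ j) := by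
      intro j
      induction j with
      | zero => simp
      | succ j ih => rw [Function.iterate_succ_apply', ih, ← pow_mul, ← pow_succ]
    rw [hiter]
    have hpos : 1 ≤ p ^ i := Nat.one_le_pow _ _ hp.pos
    constructor
    · intro h
      have h2 : a ^ (p ^ i - 1) = 1 := by
        have h3 : a ^ (p ^ i - 1) * a = 1 * a := by
          rw [← pow_succ, Nat.sub_add_cancel hpos, one_mul]
          exact h
        exact mul_right_cancel₀ (h1.ne_zero hm.ne') h3
      have h4 : m ∣ p ^ i - 1 := (h1.pow_eq_one_iff_dvd _).mp h2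
      have h5 : ((1 : ℕ) : ZMod m) = ((p ^ i : ℕ) : ZMod m) := by
        rw [ZMod.natCast_eq_natCast_iff]
        exact (Nat.modEq_iff_dvd' hpos).mpr h4
      rw [orderOf_dvd_iff_pow_eq_one]
      push_cast at h5
      exact h5.symm
    · intro h
      rw [orderOf_dvd_iff_pow_eq_one] at h
      have h5 : ((1 : ℕ) : ZMod m) = ((p ^ i : ℕ) : ZMod m) := by
        push_cast
        exact h.symm
      have h4 : m ∣ p ^ i - 1 :=
        (Nat.modEq_iff_dvd' hpos).mp ((ZMod.natCast_eq_natCast_iff _ _ _).mp h5)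
      have h2 : a ^ (p ^ i - 1) = 1 := (h1.pow_eq_one_iff_dvd _).mpr h4
      calc a ^ (p ^ i) = a ^ (p ^ i - 1) * a := by rw [← pow_succ, Nat.sub_add_cancel hpos]
        _ = a := by rw [h2, one_mul]
  · intro a ha
    exact hfrob a
  · intro a ha
    exact hd a

/-- reduction of the complex roots of a monic integer polynomial along a ring hom from the
algebraic integers to a domain (generalizes the proof of `Helper67.DO.dvd_rank_of_rootMult`) -/
theorem roots_mod {k : Type*} [CommRing k] [IsDomain k] (π : Cfsg.AlgInt →+* k)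
    (F : ℤ[X]) (hFm : F.Monic) (d : ℕ)
    (hmult : ∀ θ : ℂ, d ∣ (F.map (algebraMap ℤ ℂ)).rootMultiplicity θ) :
    Multiset.card (F.map (Int.castRingHom k)).roots = F.natDegree ∧
      ∀ a : k, d ∣ (F.map (Int.castRingHom k)).rootMultiplicity a := by
  classical
  obtain ⟨Fc, hFc⟩ : ∃ Fc : ℂ[X], Fc = F.map (algebraMap ℤ ℂ) := ⟨_, rfl⟩
  rw [← hFc] at hmult
  have hFcm : Fc.Monic := by rw [hFc]; exact hFm.map _
  have hint : ∀ θ ∈ Fc.roots, θ ∈ Cfsg.AlgInt := by
    intro θ hθ
    have h0 : Fc.IsRoot θ := (Polynomial.mem_roots hFcm.ne_zero).mp hθ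
    refine ⟨F, hFm, ?_⟩
    rw [← Polynomial.eval_map, ← hFc]
    exact h0
  obtain ⟨Θ, hΘ⟩ : ∃ Θ : Multiset Cfsg.AlgInt, Θ.map (algebraMap Cfsg.AlgInt ℂ) = Fc.roots := by
    refine ⟨Fc.roots.attach.map (fun θ => ⟨θ.1, hint θ.1 θ.2⟩), ?_⟩
    rw [Multiset.map_map]
    exact Multiset.attach_map_val _
  have hinj : Function.Injective (algebraMap Cfsg.AlgInt ℂ) := Subtype.val_injective
  have hFA : F.map (algebraMap ℤ Cfsg.AlgInt) =
      (Θ.map (fun a => Polynomial.X - Polynomial.C a)).prod := by
    apply Polynomial.map_injective (algebraMap Cfsg.AlgInt ℂ) hinj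
    rw [Polynomial.map_map, ← IsScalarTower.algebraMap_eq, Polynomial.map_multiset_prod,
      Multiset.map_map]
    have h1 := Polynomial.prod_multiset_X_sub_C_of_monic_of_roots_card_eq hFcm
      IsAlgClosed.card_roots_eq_natDegree
    rw [← hFc, ← h1, ← hΘ, Multiset.map_map]
    congr 1
    apply Multiset.map_congr rfl
    intro a _
    simp
  have hFk : F.map (Int.castRingHom k) =
      ((Θ.map π).map (fun a => Polynomial.X - Polynomial.C a)).prod := by
    have h1 : F.map (Int.castRingHom k) = (F.map (algebraMap ℤ Cfsg.AlgInt)).map π := by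
      rw [Polynomial.map_map]
      congr 1
      exact RingHom.ext_int _ _
    rw [h1, hFA, Polynomial.map_multiset_prod, Multiset.map_map, Multiset.map_map]
    congr 1
    apply Multiset.map_congr rfl
    intro a _
    simp
  have hroots : (F.map (Int.castRingHom k)).roots = Θ.map π := by
    rw [hFk, Polynomial.roots_multiset_prod_X_sub_C]
  constructor
  · rw [hroots, Multiset.card_map]
    have h1 : Multiset.card Θ = Multiset.card Fc.roots := by
      rw [← hΘ, Multiset.card_map]
    rw [h1, IsAlgClosed.card_roots_eq_natDegree, hFc, hFm.natDegree_map]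
  · intro a
    rw [← Polynomial.count_roots, hroots, Multiset.count_map]
    apply Cfsg.Agent.Lib.Helper67.DO.rm_card_filter_dvd
    intro b
    have h1 : Θ.count b = Fc.roots.count (b : ℂ) := by
      rw [← hΘ]
      exact (Multiset.count_map_eq_count' _ _ hinj b).symm
    rw [h1, Polynomial.count_roots]
    exact hmult _

section kside

variable {X : Type*} [AddCommGroup X] [Module.Free ℤ X] [Module.Finite ℤ X]

/-- `lam` idempotent mod `p` becomes idempotent after base change to a field of
characteristic `p` -/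
theorem baseChange_idem {k : Type*} [Field k] (p : ℕ) [CharP k p]
    (lam mu : X →ₗ[ℤ] X) (hidem : lam ∘ₗ lam - lam = (p : ℤ) • mu) :
    lam.baseChange k ∘ₗ lam.baseChange k = lam.baseChange k := by
  have h1 : (lam ∘ₗ lam - lam).baseChange k = ((p : ℤ) • mu).baseChange k := by rw [hidem]
  have h2 : ((p : ℤ) • mu).baseChange k = 0 := by
    rw [LinearMap.baseChange_smul]
    apply LinearMap.ext
    intro y
    rw [LinearMap.smul_apply, ← Int.cast_smul_eq_zsmul k, Int.cast_natCast,
      CharP.cast_eq_zero k p, zero_smul, LinearMap.zero_apply]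
  rw [h2, LinearMap.baseChange_sub, LinearMap.baseChange_comp] at h1
  exact sub_eq_zero.mp h1

theorem kside_rank {k : Type*} [Field k] (p : ℕ) [CharP k p]
    (lam mu : X →ₗ[ℤ] X) (hidem : lam ∘ₗ lam - lam = (p : ℤ) • mu) :
    Module.finrank k (LinearMap.range (lam.baseChange k)) =
      ((LinearMap.charpoly lam).map (Int.castRingHom k)).rootMultiplicity 1 := by
  have h := Cfsg.Agent.Lib.Helper67.DO.rm_idem_rootMult (lam.baseChange k)
    (baseChange_idem p lam mu hidem)
  rw [LinearMap.charpoly_baseChange, algebraMap_int_eq] at h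
  exact h.symm

theorem kside {k : Type*} [Field k] (p : ℕ) [Fact p.Prime] [CharP k p]
    (lam mu wX : X →ₗ[ℤ] X) (hidem : lam ∘ₗ lam - lam = (p : ℤ) • mu)
    (hcomm : lam ∘ₗ wX = wX ∘ₗ lam) (m : ℕ) (hm : 0 < m) (hpm : ¬ p ∣ m)
    (hcyc : Polynomial.eval₂ (Int.castRingHom (X →ₗ[ℤ] X)) wX (Polynomial.cyclotomic m ℤ) = 0) :
    (∀ a : k, a ≠ 0 → ((LinearMap.charpoly (lam ∘ₗ wX)).map (Int.castRingHom k)).IsRoot a →
        IsPrimitiveRoot a m) ∧
      Module.finrank k (LinearMap.range (lam.baseChange k)) +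
        ((LinearMap.charpoly (lam ∘ₗ wX)).map (Int.castRingHom k)).rootMultiplicity 0 =
        (LinearMap.charpoly (lam ∘ₗ wX)).natDegree := by
  obtain ⟨Lk, hLk⟩ : ∃ Lk : Module.End k (TensorProduct ℤ k X), Lk = lam.baseChange k := ⟨_, rfl⟩
  obtain ⟨Wk, hWk⟩ : ∃ Wk : Module.End k (TensorProduct ℤ k X), Wk = wX.baseChange k := ⟨_, rfl⟩
  rw [← hLk]
  have hLL : Lk ∘ₗ Lk = Lk := by rw [hLk]; exact baseChange_idem p lam mu hidem
  have hLW : Lk ∘ₗ Wk = Wk ∘ₗ Lk := by
    rw [hLk, hWk, ← LinearMap.baseChange_comp, ← LinearMap.baseChange_comp, hcomm]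
  have hchar : (Lk ∘ₗ Wk).charpoly = (LinearMap.charpoly (lam ∘ₗ wX)).map (Int.castRingHom k) := by
    rw [hLk, hWk, ← LinearMap.baseChange_comp, LinearMap.charpoly_baseChange, algebraMap_int_eq]
  have hcycZ : aeval wX (cyclotomic m ℤ) = 0 := by
    rw [aeval_def, algebraMap_int_eq]
    exact hcyc
  have hcyck : aeval Wk (cyclotomic m k) = 0 := by
    have h1 : aeval (Module.End.baseChangeHom ℤ k X wX) (cyclotomic m ℤ) = 0 := by
      rw [aeval_algHom_apply, hcycZ, map_zero]
    have h2 : aeval Wk (cyclotomic m ℤ) = 0 := by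
      rw [hWk]
      exact h1
    rw [← map_cyclotomic m (algebraMap ℤ k), aeval_map_algebraMap]
    exact h2
  have hWm : Wk ^ m = 1 := by
    obtain ⟨Q, hQ⟩ := cyclotomic.dvd_X_pow_sub_one m k
    have h1 := congrArg (aeval Wk) hQ
    rw [map_mul, hcyck, zero_mul, map_sub, map_pow, aeval_X, map_one] at h1
    exact sub_eq_zero.mp h1
  have hWinj : ∀ y, Wk y = 0 → y = 0 := by
    intro y hy
    have h1 : (Wk ^ m) y = y := by rw [hWm, Module.End.one_apply]
    have h2 : Wk ^ m = Wk ^ (m - 1) * Wk := by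
      rw [← pow_succ, Nat.sub_add_cancel hm]
    rw [h2, Module.End.mul_apply, hy, map_zero] at h1
    exact h1.symm
  constructor
  · intro a ha0 hroot
    rw [← hchar] at hroot
    have hev := (Module.End.hasEigenvalue_iff_isRoot_charpoly (Lk ∘ₗ Wk) a).mpr hroot
    obtain ⟨v, hv⟩ := hev.exists_hasEigenvector
    have hv1 : Lk (Wk v) = a • v := hv.apply_eq_smul
    have h1 : Lk (Lk (Wk v)) = Lk (Wk v) := by rw [← LinearMap.comp_apply, hLL]
    have h2 : a • Lk v = a • v := by rw [← map_smul, ← hv1, h1]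
    have h3 : Lk v = v := smul_right_injective _ ha0 h2
    have h4 : Wk v = a • v := by
      rw [← hv1, ← LinearMap.comp_apply, hLW, LinearMap.comp_apply, h3]
    have hvec : Module.End.HasEigenvector Wk a v :=
      ⟨Module.End.mem_eigenspace_iff.mpr h4, hv.2⟩
    have h5 := Module.End.aeval_apply_of_hasEigenvector hvec (p := cyclotomic m k)
    rw [hcyck, LinearMap.zero_apply] at h5
    have h6 : (cyclotomic m k).eval a = 0 := by
      rcases smul_eq_zero.mp h5.symm with h | h
      · exact h
      · exact absurd h hv.2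
    haveI : NeZero (m : k) := ⟨by rw [Ne, CharP.cast_eq_zero_iff k p m]; exact hpm⟩
    exact isRoot_cyclotomic_iff.mp h6
  · have hker : Module.End.maxGenEigenspace (Lk ∘ₗ Wk) 0 = LinearMap.ker Lk := by
      ext x
      rw [Module.End.mem_maxGenEigenspace, LinearMap.mem_ker]
      constructor
      · rintro ⟨j, hj⟩
        have key : ∀ j : ℕ, ∀ x,
            (((Lk ∘ₗ Wk) - (0 : k) • (1 : Module.End k (TensorProduct ℤ k X))) ^ j) x = 0 →
              Lk x = 0 := by
          intro j
          induction j with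
          | zero =>
            intro x hx
            rw [pow_zero, Module.End.one_apply] at hx
            rw [hx, map_zero]
          | succ j ih =>
            intro x hx
            rw [pow_succ, Module.End.mul_apply] at hx
            have h1 := ih _ hx
            simp only [zero_smul, sub_zero, LinearMap.comp_apply] at h1
            have h2 : Lk (Lk (Wk x)) = Lk (Wk x) := by rw [← LinearMap.comp_apply, hLL]
            rw [h2] at h1
            have h3 : Wk (Lk x) = 0 := by
              rw [← LinearMap.comp_apply, ← hLW]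
              exact h1
            exact hWinj _ h3
        exact key j x hj
      · intro hx
        refine ⟨1, ?_⟩
        simp only [pow_one, zero_smul, sub_zero]
        rw [hLW, LinearMap.comp_apply, hx, map_zero]
    have h1 := LinearMap.finrank_maxGenEigenspace_eq (Lk ∘ₗ Wk) 0
    rw [hker, hchar] at h1
    have h2 := LinearMap.finrank_range_add_finrank_ker Lk
    have h3 := LinearMap.charpoly_natDegree (Lk ∘ₗ Wk)
    rw [hchar, (LinearMap.charpoly_monic (lam ∘ₗ wX)).natDegree_map] at h3
    omega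

end kside

/-- PIECE RM2 -/
theorem dvd_rank_refined {X : Type*} [AddCommGroup X] [Module.Free ℤ X] [Module.Finite ℤ X]
    (p : ℕ) [Fact p.Prime] (M : Ideal AlgInt) (hM : IsPModular p M)
    (lam mu wX : X →ₗ[ℤ] X) (hidem : lam ∘ₗ lam - lam = (p : ℤ) • mu)
    (hcomm : lam ∘ₗ wX = wX ∘ₗ lam) (m : ℕ) (hm : 0 < m) (hpm : ¬ p ∣ m)
    (hcyc : Polynomial.eval₂ (Int.castRingHom (X →ₗ[ℤ] X)) wX (Polynomial.cyclotomic m ℤ) = 0)
    (d : ℕ)
    (hmult : ∀ θ : ℂ,
      d ∣ ((LinearMap.charpoly (lam ∘ₗ wX)).map (algebraMap ℤ ℂ)).rootMultiplicity θ) :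
    d * orderOf ((p : ZMod m)) ∣
      Module.finrank (ZMod p) (LinearMap.range (lam.baseChange (ZMod p))) := by
  classical
  haveI : M.IsMaximal := hM.2.1
  letI : Field (AlgInt ⧸ M) := Ideal.Quotient.field M
  have hpk : ((p : ℕ) : AlgInt ⧸ M) = 0 := by
    have h1 := Ideal.Quotient.eq_zero_iff_mem.mpr hM.2.2
    simpa using h1
  haveI : CharP (AlgInt ⧸ M) p := (CharP.charP_iff_prime_eq_zero (Fact.out)).mpr hpk
  have hFm : (LinearMap.charpoly (lam ∘ₗ wX)).Monic := LinearMap.charpoly_monic _
  obtain ⟨hcard, hdvd⟩ := roots_mod (Ideal.Quotient.mk M) (LinearMap.charpoly (lam ∘ₗ wX)) hFm d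
    hmult
  obtain ⟨hprim, hrank⟩ := kside (k := AlgInt ⧸ M) p lam mu wX hidem hcomm m hm hpm hcyc
  have hr1 := kside_rank (k := ZMod p) p lam mu hidem
  have hr2 := kside_rank (k := AlgInt ⧸ M) p lam mu hidem
  have hB : ((LinearMap.charpoly lam).map (Int.castRingHom (ZMod p))).rootMultiplicity 1 =
      ((LinearMap.charpoly lam).map (Int.castRingHom (AlgInt ⧸ M))).rootMultiplicity 1 := by
    have hι : Function.Injective (ZMod.castHom (dvd_refl p) (AlgInt ⧸ M)) :=
      RingHom.injective _
    have h1 : (LinearMap.charpoly lam).map (Int.castRingHom (AlgInt ⧸ M)) =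
        ((LinearMap.charpoly lam).map (Int.castRingHom (ZMod p))).map
          (ZMod.castHom (dvd_refl p) (AlgInt ⧸ M)) := by
      rw [Polynomial.map_map]
      congr 1
      exact RingHom.ext_int _ _
    rw [h1, Polynomial.eq_rootMultiplicity_map hι 1, map_one]
  rw [hr1, hB, ← hr2]
  have hFb0 : (LinearMap.charpoly (lam ∘ₗ wX)).map (Int.castRingHom (AlgInt ⧸ M)) ≠ 0 :=
    (hFm.map _).ne_zero
  have hfrob : ∀ a : AlgInt ⧸ M,
      ((LinearMap.charpoly (lam ∘ₗ wX)).map (Int.castRingHom (AlgInt ⧸ M))).rootMultiplicity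
        (a ^ p) =
      ((LinearMap.charpoly (lam ∘ₗ wX)).map (Int.castRingHom (AlgInt ⧸ M))).rootMultiplicity
        a := by
    intro a
    have h1 : ((LinearMap.charpoly (lam ∘ₗ wX)).map (Int.castRingHom (AlgInt ⧸ M))).map
        (frobenius (AlgInt ⧸ M) p) =
        (LinearMap.charpoly (lam ∘ₗ wX)).map (Int.castRingHom (AlgInt ⧸ M)) := by
      rw [Polynomial.map_map]
      congr 1
      exact RingHom.ext_int _ _
    have h2 := Polynomial.eq_rootMultiplicity_map
      (p := (LinearMap.charpoly (lam ∘ₗ wX)).map (Int.castRingHom (AlgInt ⧸ M)))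
      (frobenius_inj (AlgInt ⧸ M) p) a
    rw [h1, frobenius_def] at h2
    exact h2.symm
  have hcnt := count_core p m hm hpm _ hFb0
    (by rw [hcard, hFm.natDegree_map]) d hdvd hfrob hprim
  rw [hFm.natDegree_map] at hcnt
  have hval := Nat.eq_sub_of_add_eq hrank
  rw [hval]
  exact hcnt

end Cfsg.Agent.Lib.Helper92.TG
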