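import Mathlib
import Cfsg.Agent.Lib.Helper45.MinIdxA

/-!
Job-board piece H5A (helper45's S2140 project): complement analysis, rank at least 5.
-/

set_option autoImplicit false

namespace Cfsg.Agent.Lib.Helper92.MinIdx

open Matrix Cfsg.Agent.Lib.Helper50 Cfsg.Agent.Lib.Helper45.MinIdx

theorem single_dot_single {ι : Type} [Fintype ι] [DecidableEq ι] {F : Type*} [Field F]
    (i j : ι) (h : i ≠ j) : (Pi.single i 1 : ι → F) ⬝ᵥ (Pi.single j 1 : ι → F) = 0 := by
  rw [single_dotProduct, one_mul, Pi.single_apply, if_neg h]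

/-! ### H5A -/
theorem compl_five {ι : Type} [Fintype ι] [DecidableEq ι] {F : Type*} [Field F]
    (f : Fin 5 ↪ ι) (H : Subgroup (Matrix.SpecialLinearGroup ι F))
    (hfree : ∀ a φ : ι → F, a ≠ 0 → φ ⬝ᵥ a = 0 → tL a φ 1 ∈ H → φ = 0)
    (hcompl : ∀ g : Matrix.SpecialLinearGroup ι F, ∃ φ : ι → F,
      φ ⬝ᵥ (Pi.single (f 0) 1 : ι → F) = 0 ∧ tL (Pi.single (f 0) 1) φ 1 * g ∈ H) : False := by
  have h01 : f 0 ≠ f 1 := f.injective.ne (by decide)
  have h02 : f 0 ≠ f 2 := f.injective.ne (by decide)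
  have h03 : f 0 ≠ f 3 := f.injective.ne (by decide)
  have h04 : f 0 ≠ f 4 := f.injective.ne (by decide)
  have h12 : f 1 ≠ f 2 := f.injective.ne (by decide)
  have h13 : f 1 ≠ f 3 := f.injective.ne (by decide)
  have h14 : f 1 ≠ f 4 := f.injective.ne (by decide)
  have h23 : f 2 ≠ f 3 := f.injective.ne (by decide)
  have h24 : f 2 ≠ f 4 := f.injective.ne (by decide)
  have h34 : f 3 ≠ f 4 := f.injective.ne (by decide)
  have he : (Pi.single (f 0) 1 : ι → F) ≠ 0 := by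
    intro h
    have := congrFun h (f 0)
    simp at this
  have hfree' : ∀ φ : ι → F, φ ⬝ᵥ (Pi.single (f 0) 1 : ι → F) = 0 →
      tL (Pi.single (f 0) 1) φ 1 ∈ H → φ = 0 := fun φ => hfree _ φ he
  obtain ⟨φ, hφ, hτ⟩ := hcompl (tL (Pi.single (f 1) 1) (Pi.single (f 2) 1) 1)
  have hψe : (Pi.single (f 2) 1 : ι → F) ⬝ᵥ (Pi.single (f 0) 1 : ι → F) = 0 :=
    single_dot_single _ _ h02.symm
  have hψb : (Pi.single (f 2) 1 : ι → F) ⬝ᵥ (Pi.single (f 1) 1 : ι → F) = 0 :=
    single_dot_single _ _ h12.symm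
  have key : ∀ j : ι, j ≠ f 2 → φ j = 0 := by
    intro j hj
    obtain ⟨m, hm0, hm1, hm2, hmj⟩ : ∃ m : ι, m ≠ f 0 ∧ m ≠ f 1 ∧ m ≠ f 2 ∧ m ≠ j := by
      by_cases hj3 : j = f 3
      · exact ⟨f 4, h04.symm, h14.symm, h24.symm, by rw [hj3]; exact h34.symm⟩
      · exact ⟨f 3, h03.symm, h13.symm, h23.symm, fun h => hj3 h.symm⟩
    obtain ⟨φ', hφ', hσ⟩ := hcompl (tL (Pi.single j 1) (Pi.single m 1) 1)
    have h := rel_tv H (Pi.single (f 0) 1) he hfree' (Pi.single (f 1) 1) (Pi.single (f 2) 1)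
      (Pi.single j 1) (Pi.single m 1) hψe hψb (single_dot_single _ _ hm0)
      (single_dot_single _ _ hmj) (single_dot_single _ _ (Ne.symm hj))
      (single_dot_single _ _ hm1) φ φ' hφ hφ' hτ hσ
    have h2 := congrFun h m
    rw [Pi.smul_apply, Pi.smul_apply, Pi.single_apply, if_neg hm2, Pi.single_apply,
      if_pos rfl, smul_zero, smul_eq_mul, mul_one, dotProduct_single, mul_one] at h2
    exact h2.symm
  have hφeq : φ = (φ (f 2)) • (Pi.single (f 2) 1 : ι → F) := by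
    funext i
    rw [Pi.smul_apply, Pi.single_apply]
    by_cases hi : i = f 2
    · rw [if_pos hi, smul_eq_mul, mul_one, hi]
    · rw [if_neg hi, smul_zero]
      exact key i hi
  rw [hφeq] at hτ
  refine no_prop H (Pi.single (f 0) 1) hfree (Pi.single (f 1) 1) (Pi.single (f 2) 1) ?_ ?_
    hψe hψb (φ (f 2)) hτ
  · intro c h
    have := congrFun h (f 1)
    rw [Pi.smul_apply, Pi.single_apply, if_pos rfl, Pi.single_apply, if_neg h01.symm,
      smul_zero] at this
    exact one_ne_zero this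
  · intro h
    have := congrFun h (f 2)
    simp at this

end Cfsg.Agent.Lib.Helper92.MinIdx
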