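import Mathlib
import Cfsg.Prelude.Def_GeometricClasses
import Cfsg.Prelude.Def_LieClassical

/-!
# Project SPP (helper71), piece TS0 (helper92)

Transport of a symplectic form `f` on `κ → F` along `e : κ ≃ Fin n`: it stays symplectic (`TS0a`)
and is fixed by the reindexed group (`TS0b`).
-/

set_option autoImplicit false
set_option linter.unusedSectionVars false

namespace Cfsg.Agent.Lib.Helper92.SPPTS0

open Matrix Cfsg.Geo

variable {n : ℕ} {F : Type*} [Field F] [Fintype F]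

section Transport

variable {κ : Type} [Fintype κ] [DecidableEq κ]

/-- the transported two-argument form on `Fin n → F` -/
def tf (e : κ ≃ Fin n) (f : (κ → F) → (κ → F) → F) : (Fin n → F) → (Fin n → F) → F :=
  fun u v => f (u ∘ e) (v ∘ e)

omit [Field F] [Fintype F] [Fintype κ] [DecidableEq κ] in
theorem TS0_comp (e : κ ≃ Fin n) (x : κ → F) : (x ∘ e.symm) ∘ e = x := by
  funext k
  simp

omit [Fintype F] in
theorem TS0_key (e : κ ≃ Fin n) (g : GL κ F) (v : Fin n → F) :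
    ((glReindex e g : GL (Fin n) F).1 *ᵥ v) ∘ e = g.1 *ᵥ (v ∘ e) := by
  have h : (glReindex e g : GL (Fin n) F).1 = g.1.submatrix e.symm e.symm := rfl
  rw [h, Matrix.submatrix_mulVec_equiv]
  funext k
  simp

/-- TS0a -/
theorem TS0a (e : κ ≃ Fin n) (f : (κ → F) → (κ → F) → F) (hf : IsSymplecticForm f) :
    IsSymplecticForm (tf e f) := by
  refine ⟨⟨?_, ?_, ?_, ?_⟩, ?_, ?_, ?_⟩
  · intro x y v
    exact hf.bilinear.add_left (x ∘ e) (y ∘ e) (v ∘ e)
  · intro c x v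
    exact hf.bilinear.smul_left c (x ∘ e) (v ∘ e)
  · intro v x y
    exact hf.bilinear.add_right (v ∘ e) (x ∘ e) (y ∘ e)
  · intro c v x
    exact hf.bilinear.smul_right c (v ∘ e) (x ∘ e)
  · intro v w
    exact hf.skew (v ∘ e) (w ∘ e)
  · intro v
    exact hf.alternating (v ∘ e)
  · intro v hv
    have hv' : v ∘ e ≠ 0 := by
      intro h0
      apply hv
      funext i
      have h1 := congrFun h0 (e.symm i)
      simpa using h1
    obtain ⟨⟨x, hx⟩, ⟨y, hy⟩⟩ := hf.nondegenerate (v ∘ e) hv'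
    refine ⟨⟨x ∘ e.symm, ?_⟩, ⟨y ∘ e.symm, ?_⟩⟩
    · show f ((x ∘ e.symm) ∘ e) (v ∘ e) ≠ 0
      rw [TS0_comp]
      exact hx
    · show f (v ∘ e) ((y ∘ e.symm) ∘ e) ≠ 0
      rw [TS0_comp]
      exact hy

/-- TS0b -/
theorem TS0b (e : κ ≃ Fin n) (f : (κ → F) → (κ → F) → F) (H : Subgroup (GL κ F))
    (hH : FixesForm (matrixSet H) f) :
    FixesForm (matrixSet (H.map (glReindex e).toMonoidHom)) (tf e f) := by
  rintro s ⟨g', ⟨g, hg, rfl⟩, rfl⟩ u v
  show f (((glReindex e g : GL (Fin n) F).1 *ᵥ u) ∘ e) (((glReindex e g : GL (Fin n) F).1 *ᵥ v) ∘ e)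
    = f (u ∘ e) (v ∘ e)
  rw [TS0_key, TS0_key]
  exact hH g.1 ⟨g, hg, rfl⟩ (u ∘ e) (v ∘ e)

end Transport

end Cfsg.Agent.Lib.Helper92.SPPTS0
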