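import Mathlib
import Cfsg.Prelude.Def_GeometricClasses
import Cfsg.Agent.Lib.Helper97.Transv
import Cfsg.Agent.Lib.Helper97.TransvM
import Cfsg.Agent.Lib.Helper71.TP0
import Cfsg.Agent.Lib.Helper71.TP1

/-!
# Piece A of S5637: elements of `NN` acting trivially on `V/(U ⊗ w)` and on `U ⊗ w`
are root elements `1 + 1 ⊗ w ψᵀ`.
-/

set_option autoImplicit false

namespace Cfsg.Agent.Lib.Helper92.TPA

open Matrix Cfsg.Agent.Lib.Helper71.TP Cfsg.Agent.Lib.Helper97
open scoped Kronecker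

variable {a b : ℕ} {F : Type*} [Field F]

theorem NN_InR_form (ha : 1 ≤ a) (g : GL (Fin a × Fin b) F) (hg : g ∈ NN a b F) (w : Fin b → F)
    (hw : w ≠ 0) (hR : InR g w) :
    ∃ ψ : Fin b → F, ψ ⬝ᵥ w = 0 ∧ g.1 = 1 + kv 1 w ψ := by
  obtain ⟨⟨A, B, hAB⟩, -⟩ := mem_NN.mp hg
  obtain ⟨hR1, hR2⟩ := hR
  obtain ⟨j₀, hj₀⟩ : ∃ j, w j ≠ 0 := by
    by_contra h
    push Not at h
    exact hw (funext h)
  have hAB' : g.1 = A.1 ⊗ₖ B.1 := hAB
  obtain ⟨i₀⟩ : Nonempty (Fin a) := ⟨⟨0, ha⟩⟩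
  -- step 1
  have h1 : ∀ (u : Fin a → F) (i : Fin a) (j : Fin b),
      (A.1 *ᵥ u) i * (B.1 *ᵥ w) j = u i * w j := by
    intro u i j
    have h := hR2 (pt u w) (pt_mem_fib u w)
    rw [hAB', kron_mulVec_pt] at h
    have h' := congrFun h (i, j)
    simpa only [pt_apply] using h'
  obtain ⟨d, hd⟩ : ∃ d : F, d = (A.1 *ᵥ (Pi.single i₀ (1 : F))) i₀ := ⟨_, rfl⟩
  have hdj : ∀ j, d * (B.1 *ᵥ w) j = w j := by
    intro j
    have h := h1 (Pi.single i₀ (1 : F)) i₀ j
    rw [← hd] at h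
    simpa using h
  have hd0 : d ≠ 0 := by
    intro h0
    have h := hdj j₀
    rw [h0, zero_mul] at h
    exact hj₀ h.symm
  have hAu : ∀ (u : Fin a → F) (i : Fin a), (A.1 *ᵥ u) i = d * u i := by
    intro u i
    have h := h1 u i j₀
    have h2 := hdj j₀
    have h3 : (B.1 *ᵥ w) j₀ = d⁻¹ * w j₀ := by
      rw [← h2, ← mul_assoc, inv_mul_cancel₀ hd0, one_mul]
    rw [h3] at h
    have h4 : (A.1 *ᵥ u) i * d⁻¹ = u i := by
      apply mul_right_cancel₀ hj₀
      rw [mul_assoc]; exact h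
    rw [← h4]
    field_simp
  have hA : A.1 = d • (1 : Matrix (Fin a) (Fin a) F) := by
    ext i j
    have h := hAu (Pi.single j (1 : F)) i
    rw [Matrix.mulVec_single_one] at h
    simp only [Matrix.col_apply] at h
    rw [h]
    simp [Matrix.one_apply, Pi.single_apply]
  -- step 2
  have h2 : ∀ w' : Fin b → F, ∃ c : F, ∀ j, d * (B.1 *ᵥ w') j - w' j = c * w j := by
    intro w'
    have h := hR1 (pt (Pi.single i₀ (1 : F)) w')
    rw [hAB', kron_mulVec_pt] at h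
    obtain ⟨u', hu'⟩ := mem_fib.mp h
    refine ⟨u' i₀, fun j => ?_⟩
    have h' := congrFun hu' (i₀, j)
    simp only [Pi.sub_apply, pt_apply] at h'
    rw [hAu] at h'
    simpa using h'
  have h2col : ∀ j' : Fin b, ∃ c : F, ∀ j, d * B.1 j j' - (1 : Matrix (Fin b) (Fin b) F) j j' = c * w j := by
    intro j'
    obtain ⟨c, hc⟩ := h2 (Pi.single j' (1 : F))
    refine ⟨c, fun j => ?_⟩
    have h := hc j
    rw [Matrix.mulVec_single_one] at h
    simp only [Matrix.col_apply] at h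
    rw [← h]
    simp [Matrix.one_apply, Pi.single_apply, eq_comm]
  choose ψ hψ using h2col
  have hM : d • B.1 - 1 = (vecMulVec w ψ : Matrix (Fin b) (Fin b) F) := by
    ext j j'
    simp only [Matrix.sub_apply, Matrix.smul_apply, smul_eq_mul, Matrix.vecMulVec_apply]
    rw [hψ j' j, mul_comm]
  have hψw : ψ ⬝ᵥ w = 0 := by
    have h : (d • B.1 - 1) *ᵥ w = 0 := by
      ext j
      rw [Matrix.sub_mulVec, Matrix.smul_mulVec, Matrix.one_mulVec]
      simp only [Pi.sub_apply, Pi.smul_apply, smul_eq_mul, Pi.zero_apply]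
      rw [hdj j, sub_self]
    rw [hM, Matrix.vecMulVec_mulVec] at h
    have h' := congrFun h j₀
    simp only [Pi.smul_apply, Pi.zero_apply, MulOpposite.smul_eq_mul_unop,
      MulOpposite.unop_op] at h'
    rcases mul_eq_zero.mp h' with h0 | h0
    · exact absurd h0 hj₀
    · exact h0
  refine ⟨ψ, hψw, ?_⟩
  have hB : d • B.1 = 1 + (vecMulVec w ψ : Matrix (Fin b) (Fin b) F) := by
    rw [← hM]; abel
  rw [hAB', hA, Matrix.smul_kronecker, ← Matrix.kronecker_smul, hB, Matrix.kronecker_add,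
    Matrix.one_kronecker_one, kv]

end Cfsg.Agent.Lib.Helper92.TPA
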