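import Mathlib
import Cfsg.Prelude.Def_GeometricClasses
import Cfsg.Agent.Lib.Helper71.OK1
import Cfsg.Agent.Lib.Helper52.Siegel

/-!
Job-board piece E2c (helper71's S5701 project): configuration (ii), good case, gives `ZW`.
-/

set_option autoImplicit false
set_option linter.unusedVariables false

namespace Cfsg.Agent.Lib.Helper92.OKE2c

open Matrix Cfsg.Agent.Lib.Helper71.SpK Cfsg.Agent.Lib.Helper71.OK

/-- E2c with the statements of E2a (`cfg2_comm`) and E2b (`comm_eich`) as hypotheses. -/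
theorem ZW_of_cfg2_good_of {ι : Type} [Fintype ι] [DecidableEq ι] {F : Type*} [Field F] [Finite F]
    {Q : QuadraticForm F (ι → F)} {L : Type*} [Field L] [Algebra F L] [FiniteDimensional F L]
    (S : KO (QuadraticMap.polar ⇑Q) L) (h2 : (2 : F) ≠ 0)
    (hQ : (QuadraticMap.polarBilin Q).Nondegenerate)
    (hr : (Module.finrank F L).Prime) (hd : 4 * Module.finrank F L ≤ Fintype.card ι) (M : Subgroup (GL ι F)) (hNM : S.NO Q ≤ M) (hMΩ : M ≤ Cfsg.Geo.omegaGL ⇑Q) {u : ι → F} {h : GL ι F} {c' : L} {z₀ : ι → F}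
    (hD : S.Cfg2D M u h c' z₀)
    (hcomm : ∀ {z z' : ι → F}, S.B z u = 0 →
      (∀ y ∈ gim (S.line u) h⁻¹, S.B y z = 0) → S.B z' u = 0 →
      ∃ g ∈ M, ∀ x : ι → F, S.B x u = 0 → (g : Matrix ι ι F) *ᵥ x = x +
        S.φ (algebraMap F L (QuadraticMap.polar ⇑Q x z₀) *
              (S.B ((h : Matrix ι ι F) *ᵥ z) z' - algebraMap F L (Q z) * S.B z₀ z') -
            algebraMap F L (QuadraticMap.polar ⇑Q x ((h : Matrix ι ι F) *ᵥ z)) * S.B z₀ z') *ᵥ u)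
    (heich : ∀ {g : GL ι F}, g ∈ M → ∀ {w₁ w₂ : ι → F} {c₁ c₂ : L}, S.B w₁ u = 0 →
      S.B w₂ u = 0 →
      (∀ x : ι → F, S.B x u = 0 → (g : Matrix ι ι F) *ᵥ x = x +
        S.φ (algebraMap F L (QuadraticMap.polar ⇑Q x w₁) * c₁ +
            algebraMap F L (QuadraticMap.polar ⇑Q x w₂) * c₂) *ᵥ u) →
      ∀ {z₁ : ι → F}, S.B z₁ u = 0 →
      ∃ γ ∈ M, (γ : Matrix ι ι F) =
        Cfsg.Agent.Lib.Helper52.eichMat Q (S.φ (S.B z₁ w₁) *ᵥ u) (S.φ c₁ *ᵥ u) *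
          Cfsg.Agent.Lib.Helper52.eichMat Q (S.φ (S.B z₁ w₂) *ᵥ u) (S.φ c₂ *ᵥ u))
    {z z' : ι → F} (hz : S.B z u = 0)
    (hzW : ∀ y ∈ gim (S.line u) h⁻¹, S.B y z = 0) (hz' : S.B z' u = 0)
    (hz'W : ∀ y ∈ gim (S.line u) h, S.B y z' = 0)
    (hne : S.B ((h : Matrix ι ι F) *ᵥ z) z' ≠ 0) : S.ZW M u := by
  intro a b
  obtain ⟨⟨hhM, hu0, huu, hperp, hfin⟩, hc', hz₀W, hz₀u, hk, hinv⟩ := id hD
  -- the scaled vector `z''`
  have hz'' : S.B (S.φ (b * (S.B ((h : Matrix ι ι F) *ᵥ z) z')⁻¹) *ᵥ z') u = 0 := by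
    rw [S.B_act, hz', mul_zero]
  have hz₀z'' : S.B z₀ (S.φ (b * (S.B ((h : Matrix ι ι F) *ᵥ z) z')⁻¹) *ᵥ z') = 0 := by
    rw [S.B_act_right, hz'W z₀ hz₀W, mul_zero]
  have hhz'' : S.B ((h : Matrix ι ι F) *ᵥ z)
      (S.φ (b * (S.B ((h : Matrix ι ι F) *ᵥ z) z')⁻¹) *ᵥ z') = b := by
    rw [S.B_act_right, mul_assoc, inv_mul_cancel₀ hne, mul_one]
  obtain ⟨g, hgM, hgx⟩ := hcomm hz hzW hz''
  rw [hz₀z'', hhz''] at hgx
  -- the dual vector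
  obtain ⟨z₁, hz₁u, hz₁z₀⟩ := S.exists_dual hQ hz₀u
  have hz₁ : S.B (S.φ a *ᵥ z₁) u = 0 := by
    rw [S.B_act, S.B_symm, hz₁u, mul_zero]
  have hz₁' : S.B (S.φ a *ᵥ z₁) z₀ = a := by
    rw [S.B_act, S.B_symm, hz₁z₀, mul_one]
  have hw₁ : S.B z₀ u = 0 := hperp z₀ hz₀W
  have hgx' : ∀ x : ι → F, S.B x u = 0 → (g : Matrix ι ι F) *ᵥ x = x +
      S.φ (algebraMap F L (QuadraticMap.polar ⇑Q x z₀) * b +
          algebraMap F L (QuadraticMap.polar ⇑Q x 0) * 0) *ᵥ u := by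
    intro x hx
    rw [hgx x hx]
    congr 3
    ring
  obtain ⟨γ, hγM, hγ⟩ := heich hgM hw₁ (S.B_zero_left u) hgx' hz₁
  refine ⟨γ, hγM, ?_⟩
  rw [hγ, hz₁', S.φ_zero_mulVec, Cfsg.Agent.Lib.Helper52.eichMat_zero, mul_one]

end Cfsg.Agent.Lib.Helper92.OKE2c
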