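import Mathlib
import Cfsg.Prelude.Def_GeometricClasses
import Cfsg.Agent.Lib.Helper71.OK1
import Cfsg.Agent.Lib.Helper52.Siegel
import Cfsg.Agent.Lib.Helper92.OKE2c
import Cfsg.Agent.Lib.Helper71.OKE2a
import Cfsg.Agent.Lib.Helper51.OKE2b

/-!
Job-board piece E2c (helper71's S5701 project): configuration (ii), good case, gives `ZW`;
exact skeleton statement, assembled from the hypothesis form and the landed pieces E2a, E2b.
-/

set_option autoImplicit false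
set_option linter.unusedVariables false

namespace Cfsg.Agent.Lib.Helper92.OKE2c

open Matrix Cfsg.Agent.Lib.Helper71.SpK Cfsg.Agent.Lib.Helper71.OK

theorem ZW_of_cfg2_good {ι : Type} [Fintype ι] [DecidableEq ι] {F : Type*} [Field F] [Finite F]
    {Q : QuadraticForm F (ι → F)} {L : Type*} [Field L] [Algebra F L] [FiniteDimensional F L]
    (S : KO (QuadraticMap.polar ⇑Q) L) (h2 : (2 : F) ≠ 0)
    (hQ : (QuadraticMap.polarBilin Q).Nondegenerate)
    (hr : (Module.finrank F L).Prime) (hd : 4 * Module.finrank F L ≤ Fintype.card ι) (M : Subgroup (GL ι F)) (hNM : S.NO Q ≤ M) (hMΩ : M ≤ Cfsg.Geo.omegaGL ⇑Q) {u : ι → F} {h : GL ι F} {c' : L} {z₀ : ι → F}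
    (hD : S.Cfg2D M u h c' z₀) {z z' : ι → F} (hz : S.B z u = 0)
    (hzW : ∀ y ∈ gim (S.line u) h⁻¹, S.B y z = 0) (hz' : S.B z' u = 0)
    (hz'W : ∀ y ∈ gim (S.line u) h, S.B y z' = 0)
    (hne : S.B ((h : Matrix ι ι F) *ᵥ z) z' ≠ 0) : S.ZW M u :=
  ZW_of_cfg2_good_of S h2 hQ hr hd M hNM hMΩ hD
    (fun hz hzW hz' =>
      Cfsg.Agent.Lib.Helper71.OKE2a.cfg2_comm S h2 hQ hr hd M hNM hMΩ hD hz hzW hz')
    (fun hg _ _ _ _ hw₁ hw₂ hgx _ hz₁ =>
      Cfsg.Agent.Lib.Helper51.OKE2b.comm_eich S h2 hQ hr hd M hNM hMΩ hD.1.2.2.1 hg hw₁ hw₂ hgx hz₁)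
    hz hzW hz' hz'W hne

end Cfsg.Agent.Lib.Helper92.OKE2c
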