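import Mathlib
import Cfsg.Prelude.Def_GeometricClasses
import Cfsg.Prelude.Def_LieClassical
import Cfsg.Agent.Lib.Helper18.Symp
import Cfsg.Agent.Lib.Helper97.SpGen
import Cfsg.Agent.Lib.Helper86.SPPNS2

/-! Project SP8 (helper71, S5823), piece NS6: `Sp_2m(q)`, `m ≥ 3`, does not normalise an absolutely
irreducible group whose elements commute or anticommute (transvection argument). -/

set_option autoImplicit false

namespace Cfsg.Agent.Lib.Helper92.SP8NS6

open Matrix Cfsg.Geo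

variable {n : ℕ} {F : Type*} [Field F] [Fintype F]

/-- The fixed space of a matrix. -/
def NS6Fix {m : ℕ} (g : Matrix (Fin m ⊕ Fin m) (Fin m ⊕ Fin m) F) :
    Submodule F (Fin m ⊕ Fin m → F) :=
  LinearMap.eqLocus (Matrix.toLin' g) LinearMap.id

omit [Fintype F] in
theorem NS6_mem_fix {m : ℕ} (g : Matrix (Fin m ⊕ Fin m) (Fin m ⊕ Fin m) F)
    (v : Fin m ⊕ Fin m → F) : v ∈ NS6Fix g ↔ g *ᵥ v = v := by
  unfold NS6Fix
  rw [LinearMap.mem_eqLocus, Matrix.toLin'_apply, LinearMap.id_apply]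

omit [Fintype F] in
theorem NS6_finrank (m : ℕ) : Module.finrank F (Fin m ⊕ Fin m → F) = 2 * m := by
  rw [Module.finrank_fintype_fun_eq_card, Fintype.card_sum, Fintype.card_fin]
  ring

/-- (i) a non-trivial element of `R` has a fixed space of dimension at most `m`. -/
theorem NS6_fix_le (m : ℕ) (h2 : (2 : F) ≠ 0) (R : Subgroup (GL (Fin m ⊕ Fin m) F))
    (hRa : ActsAbsolutelyIrreducibly (matrixSet R))
    (hac : ∀ x ∈ R, ∀ y ∈ R, x * y = y * x ∨ x.1 * y.1 = -(y.1 * x.1))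
    (r : GL (Fin m ⊕ Fin m) F) (hr : r ∈ R) (hr1 : r ≠ 1) :
    Module.finrank F (NS6Fix r.1) ≤ m := by
  classical
  by_cases hcomm : ∀ y ∈ R, r * y = y * r
  · obtain ⟨c, hc⟩ := hRa.2 r.1 (by
      intro s hs
      obtain ⟨y, hy, rfl⟩ := hs
      have := congrArg Units.val (hcomm y hy)
      rwa [Units.val_mul, Units.val_mul] at this)
    have hc1 : c ≠ 1 := by
      rintro rfl
      apply hr1
      apply Units.ext
      rw [hc, one_smul, Units.val_one]
    have hbot : NS6Fix r.1 = ⊥ := by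
      rw [eq_bot_iff]
      intro v hv
      rw [NS6_mem_fix, hc, Matrix.smul_mulVec, Matrix.one_mulVec] at hv
      have h3 : (c - 1) • v = 0 := by rw [sub_smul, one_smul, hv, sub_self]
      rcases smul_eq_zero.mp h3 with h4 | h4
      · exact absurd (sub_eq_zero.mp h4) hc1
      · rw [Submodule.mem_bot]
        exact h4
    rw [hbot, finrank_bot]
    exact Nat.zero_le m
  · push Not at hcomm
    obtain ⟨y, hy, hne⟩ := hcomm
    have hanti : r.1 * y.1 = -(y.1 * r.1) := (hac r hr y hy).resolve_left hne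
    have hinj : Function.Injective (Matrix.toLin' y.1) := by
      intro a b hab
      have h3 := congrArg (fun z => (y⁻¹ : GL (Fin m ⊕ Fin m) F).1 *ᵥ z) hab
      simp only [Matrix.toLin'_apply, Matrix.mulVec_mulVec, ← Units.val_mul, inv_mul_cancel,
        Units.val_one, Matrix.one_mulVec] at h3
      exact h3
    have hdisj : NS6Fix r.1 ⊓ (NS6Fix r.1).map (Matrix.toLin' y.1) = ⊥ := by
      rw [eq_bot_iff]
      rintro v ⟨hv1, hv2⟩
      obtain ⟨u, hu, rfl⟩ := Submodule.mem_map.mp hv2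
      have hu' : r.1 *ᵥ u = u := (NS6_mem_fix r.1 u).mp hu
      have hv1' : r.1 *ᵥ (y.1 *ᵥ u) = y.1 *ᵥ u := by
        have := (NS6_mem_fix r.1 _).mp hv1
        rwa [Matrix.toLin'_apply] at this
      have h3 : r.1 *ᵥ (y.1 *ᵥ u) = -(y.1 *ᵥ u) := by
        rw [Matrix.mulVec_mulVec, hanti, Matrix.neg_mulVec, ← Matrix.mulVec_mulVec, hu']
      rw [hv1'] at h3
      have h4 : (2 : F) • (y.1 *ᵥ u) = 0 := by
        rw [two_smul]
        nth_rewrite 1 [h3]
        exact neg_add_cancel _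
      rw [Submodule.mem_bot, Matrix.toLin'_apply]
      rcases smul_eq_zero.mp h4 with h5 | h5
      · exact absurd h5 h2
      · exact h5
    have hsum := Submodule.finrank_sup_add_finrank_inf_eq (NS6Fix r.1)
      ((NS6Fix r.1).map (Matrix.toLin' y.1))
    rw [hdisj, finrank_bot, add_zero] at hsum
    have hmap : Module.finrank F ((NS6Fix r.1).map (Matrix.toLin' y.1)) =
        Module.finrank F (NS6Fix r.1) :=
      (Submodule.equivMapOfInjective _ hinj _).finrank_eq.symm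
    have hle := Submodule.finrank_le (NS6Fix r.1 ⊔ (NS6Fix r.1).map (Matrix.toLin' y.1))
    have hdim := NS6_finrank (F := F) m
    omega

/-- NS6 -/
theorem NS6 (m : ℕ) (hm : 3 ≤ m) (h2 : (2 : F) ≠ 0) (R : Subgroup (GL (Fin m ⊕ Fin m) F))
    (hRa : ActsAbsolutelyIrreducibly (matrixSet R))
    (hac : ∀ x ∈ R, ∀ y ∈ R, x * y = y * x ∨ x.1 * y.1 = -(y.1 * x.1)) :
    ¬ Cfsg.spGL m F ≤ subgroupNormalizer R := by
  classical
  intro hle
  have hm0 : 0 < m := by omega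
  have hdim := NS6_finrank (F := F) m
  -- (a) a vector `w` and `x ∈ R` with `x w ∉ ⟨w⟩`
  obtain ⟨w, hwdef⟩ : ∃ w : Fin m ⊕ Fin m → F, w = Pi.single (Sum.inl ⟨0, hm0⟩) 1 := ⟨_, rfl⟩
  have hw0 : w ≠ 0 := by
    intro h
    have := congrFun h (Sum.inl ⟨0, hm0⟩)
    rw [hwdef] at this
    simp at this
  have hspan1 : Submodule.span F ({w} : Set (Fin m ⊕ Fin m → F)) ≠ ⊤ := by
    intro h
    have h3 := finrank_span_singleton (K := F) hw0
    rw [h, finrank_top, hdim] at h3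
    omega
  obtain ⟨x, hxR, hxu⟩ :
      ∃ x ∈ R, x.1 *ᵥ w ∉ Submodule.span F ({w} : Set (Fin m ⊕ Fin m → F)) := by
    by_contra hcon
    have hall : ∀ x ∈ R, x.1 *ᵥ w ∈ Submodule.span F ({w} : Set (Fin m ⊕ Fin m → F)) := by
      intro x hx
      by_contra h
      exact hcon ⟨x, hx, h⟩
    have h := hRa.1 (Submodule.span F ({w} : Set (Fin m ⊕ Fin m → F))) (by
      intro s hs y hy
      obtain ⟨x, hx, rfl⟩ := hs
      obtain ⟨v, hv, rfl⟩ := Submodule.mem_map.mp hy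
      obtain ⟨l, rfl⟩ := Submodule.mem_span_singleton.mp hv
      rw [Matrix.toLin'_apply, Matrix.mulVec_smul]
      exact Submodule.smul_mem _ l (hall x hx))
    rcases h with h | h
    · exact hw0 (Submodule.span_singleton_eq_bot.mp h)
    · exact hspan1 h
  have hxxinv : ∀ v : Fin m ⊕ Fin m → F,
      x.1 *ᵥ ((x⁻¹ : GL (Fin m ⊕ Fin m) F).1 *ᵥ v) = v := by
    intro v
    rw [Matrix.mulVec_mulVec, ← Units.val_mul, mul_inv_cancel, Units.val_one, Matrix.one_mulVec]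
  have hxinvx : ∀ v : Fin m ⊕ Fin m → F,
      (x⁻¹ : GL (Fin m ⊕ Fin m) F).1 *ᵥ (x.1 *ᵥ v) = v := by
    intro v
    rw [Matrix.mulVec_mulVec, ← Units.val_mul, inv_mul_cancel, Units.val_one, Matrix.one_mulVec]
  -- (b) the transvection
  obtain ⟨t, ht, htv⟩ := Cfsg.Agent.Lib.Helper86.SPPNS2.NS2_transv_exists (F := F) m w (1 : F)
  have htv' : ∀ v : Fin m ⊕ Fin m → F,
      t.1 *ᵥ v = v + (Cfsg.Agent.Lib.Helper18.sympB m v w) • w := by
    intro v
    rw [htv, one_mul]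
  have hBww : Cfsg.Agent.Lib.Helper18.sympB m w w = 0 :=
    (Cfsg.Agent.Lib.Helper18.sympB_isAlt (F := F) m).self_eq_zero w
  have htinv : ∀ v : Fin m ⊕ Fin m → F, (t⁻¹ : GL (Fin m ⊕ Fin m) F).1 *ᵥ v =
      v - (Cfsg.Agent.Lib.Helper18.sympB m v w) • w := by
    intro v
    have h3 : t.1 *ᵥ (v - (Cfsg.Agent.Lib.Helper18.sympB m v w) • w) = v := by
      rw [htv', map_sub, map_smul, LinearMap.sub_apply, LinearMap.smul_apply, hBww, smul_zero,
        sub_zero]
      abel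
    have h4 := congrArg (fun z => (t⁻¹ : GL (Fin m ⊕ Fin m) F).1 *ᵥ z) h3
    simp only [Matrix.mulVec_mulVec, ← Units.val_mul, inv_mul_cancel, Units.val_one,
      Matrix.one_mulVec] at h4
    exact h4.symm
  have hg : t ∈ Subgroup.normalizer (R : Set (GL (Fin m ⊕ Fin m) F)) := hle ht
  have hgx : t * x * t⁻¹ ∈ R := (Subgroup.mem_normalizer_iff.mp hg x).mp hxR
  obtain ⟨c, hcdef⟩ : ∃ c : GL (Fin m ⊕ Fin m) F, c = t * x * t⁻¹ * x⁻¹ := ⟨_, rfl⟩
  have hcR : c ∈ R := by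
    rw [hcdef]
    exact R.mul_mem hgx (R.inv_mem hxR)
  -- (c) the action of `c`
  have hcv : ∀ v : Fin m ⊕ Fin m → F, c.1 *ᵥ v =
      v - (Cfsg.Agent.Lib.Helper18.sympB m ((x⁻¹ : GL (Fin m ⊕ Fin m) F).1 *ᵥ v) w) • (x.1 *ᵥ w)
        + (Cfsg.Agent.Lib.Helper18.sympB m v w
            - Cfsg.Agent.Lib.Helper18.sympB m ((x⁻¹ : GL (Fin m ⊕ Fin m) F).1 *ᵥ v) w
              * Cfsg.Agent.Lib.Helper18.sympB m (x.1 *ᵥ w) w) • w := by
    intro v
    rw [hcdef, Units.val_mul, Units.val_mul, Units.val_mul, ← Matrix.mulVec_mulVec,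
      ← Matrix.mulVec_mulVec, ← Matrix.mulVec_mulVec, htinv, Matrix.mulVec_sub,
      Matrix.mulVec_smul, hxxinv, htv', map_sub, map_smul, LinearMap.sub_apply,
      LinearMap.smul_apply, smul_eq_mul]
  -- (d) `c = 1`
  have hc1 : c = 1 := by
    by_contra hc1
    have hfix := NS6_fix_le m h2 R hRa hac c hcR hc1
    obtain ⟨ψ, hψ⟩ : ∃ ψ : (Fin m ⊕ Fin m → F) →ₗ[F] F × F, ∀ v, ψ v =
        (Cfsg.Agent.Lib.Helper18.sympB m ((x⁻¹ : GL (Fin m ⊕ Fin m) F).1 *ᵥ v) w,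
          Cfsg.Agent.Lib.Helper18.sympB m v w) :=
      ⟨LinearMap.prod (((Cfsg.Agent.Lib.Helper18.sympB m).flip w).comp
          (Matrix.toLin' (x⁻¹ : GL (Fin m ⊕ Fin m) F).1))
        ((Cfsg.Agent.Lib.Helper18.sympB m).flip w), fun v => by
        rw [LinearMap.prod_apply]
        rfl⟩
    have hker : LinearMap.ker ψ ≤ NS6Fix c.1 := by
      intro v hv
      rw [LinearMap.mem_ker, hψ, Prod.mk_eq_zero] at hv
      rw [NS6_mem_fix, hcv, hv.1, hv.2]
      simp
    have h3 := LinearMap.finrank_range_add_finrank_ker ψ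
    have h4 : Module.finrank F (LinearMap.range ψ) ≤ 2 := by
      have := Submodule.finrank_le (LinearMap.range ψ)
      rw [Module.finrank_prod, Module.finrank_self] at this
      exact this
    have h5 := Submodule.finrank_mono hker
    omega
  -- (e) contradiction
  have hB0 : ∀ u : Fin m ⊕ Fin m → F, Cfsg.Agent.Lib.Helper18.sympB m u w = 0 := by
    intro u
    by_contra hne
    have h3 := hcv (x.1 *ᵥ u)
    rw [hc1, Units.val_one, Matrix.one_mulVec, hxinvx] at h3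
    apply hxu
    rw [Submodule.mem_span_singleton]
    obtain ⟨a, ha⟩ : ∃ a : F, a = Cfsg.Agent.Lib.Helper18.sympB m u w := ⟨_, rfl⟩
    obtain ⟨b, hb⟩ : ∃ b : F, b = Cfsg.Agent.Lib.Helper18.sympB m (x.1 *ᵥ u) w
        - Cfsg.Agent.Lib.Helper18.sympB m u w * Cfsg.Agent.Lib.Helper18.sympB m (x.1 *ᵥ w) w :=
      ⟨_, rfl⟩
    rw [← hb, ← ha] at h3
    rw [← ha] at hne
    have h7 := sub_eq_zero.mpr h3.symm
    have h8 : b • w - a • (x.1 *ᵥ w) =
        x.1 *ᵥ u - a • (x.1 *ᵥ w) + b • w - x.1 *ᵥ u := by abel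
    rw [h7] at h8
    have h9 : a • (x.1 *ᵥ w) = b • w := (sub_eq_zero.mp h8).symm
    refine ⟨a⁻¹ * b, ?_⟩
    rw [mul_smul, ← h9, smul_smul, inv_mul_cancel₀ hne, one_smul]
  exact hw0 ((Cfsg.Agent.Lib.Helper18.sympB_nondegenerate (F := F) m).2 w hB0)

end Cfsg.Agent.Lib.Helper92.SP8NS6
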