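import Mathlib
import Cfsg.Agent.Lib.Helper91.PslU

/-!
Job-board piece B8 (helper91's S5163 project): `diag2n` normalizes the upper unitriangular group.
-/

set_option autoImplicit false

namespace Cfsg.Agent.Lib.Helper92.PslB8

open Matrix Matrix.SpecialLinearGroup Cfsg.Agent.Lib.Helper91.PslU

theorem diag2n_normalizes (n : ℕ) (K : Type*) [Field K] (i j : Fin n) (hij : i ≠ j) (a : K)
    (ha : a ≠ 0) (u : SpecialLinearGroup (Fin n) K) (hu : u ∈ UU n K) :
    diag2n hij a ha * u * (diag2n hij a ha)⁻¹ ∈ UU n K := by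
  rw [mem_UU_iff] at hu ⊢
  obtain ⟨D, hD⟩ : ∃ D : Fin n → K,
      D = fun k => if k = i then a else if k = j then a⁻¹ else 1 := ⟨_, rfl⟩
  have hDne : ∀ k, D k ≠ 0 := by
    intro k
    rw [hD]
    simp only
    split_ifs
    · exact ha
    · exact inv_ne_zero ha
    · exact one_ne_zero
  have hd : (diag2n hij a ha).1 = diagonal D := by
    rw [hD]
    exact diag2n_coe hij a ha
  have hw : (diag2n hij a ha * u * (diag2n hij a ha)⁻¹) * diag2n hij a ha =
      diag2n hij a ha * u := by group
  have hw' : ∀ r s, (diag2n hij a ha * u * (diag2n hij a ha)⁻¹).1 r s * D s = D r * u.1 r s := by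
    intro r s
    have h1 : ((diag2n hij a ha * u * (diag2n hij a ha)⁻¹) * diag2n hij a ha).1 r s =
        (diag2n hij a ha * u).1 r s := by rw [hw]
    have e1 : ((diag2n hij a ha * u * (diag2n hij a ha)⁻¹) * diag2n hij a ha).1 =
        (diag2n hij a ha * u * (diag2n hij a ha)⁻¹).1 * diagonal D := by
      rw [← hd]
      rfl
    have e2 : (diag2n hij a ha * u).1 = diagonal D * u.1 := by
      rw [← hd]
      rfl
    rw [e1, e2, Matrix.mul_diagonal, Matrix.diagonal_mul] at h1
    exact h1
  constructor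
  · intro r s hsr
    have h1 := hw' r s
    rw [hu.1 r s hsr, mul_zero] at h1
    exact (mul_eq_zero.mp h1).resolve_right (hDne s)
  · intro r
    have h1 := hw' r r
    rw [hu.2 r, mul_one] at h1
    exact mul_right_cancel₀ (hDne r) (by rw [h1, one_mul])

end Cfsg.Agent.Lib.Helper92.PslB8
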