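-- Every class of the Leech lattice modulo twice the lattice has a representative of squared
-- length at most 64 (counting argument).
import Mathlib
import Cfsg.Prelude.Def_SporadicCombinatorics
import Cfsg.Agent.S0391
import Cfsg.Agent.S0393
import Cfsg.Agent.S0394
import Cfsg.Agent.S0395
import Cfsg.Agent.S0396
import Cfsg.Agent.S5592
import Cfsg.Agent.Lib.Helper10.Co0Order

set_option autoImplicit false
open Cfsg

namespace Cfsg.Agent.Lib.Helper92

/-- a counting lemma: bounded fibres give a lower bound for the image -/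
theorem ncard_le_mul_ncard_image {α β : Type*} (f : α → β) (s : Set α) (hs : s.Finite) (n : ℕ)
    (h : ∀ a ∈ s, {x | x ∈ s ∧ f x = f a}.ncard ≤ n) : s.ncard ≤ n * (f '' s).ncard := by
  classical
  have h1 := Finset.card_le_mul_card_image (f := f) hs.toFinset n (by
    intro b hb
    rw [Finset.mem_image] at hb
    obtain ⟨a, ha, rfl⟩ := hb
    have h2 := h a ((Set.Finite.mem_toFinset hs).mp ha)
    have h3 : ((hs.toFinset.filter fun x => f x = f a : Finset α) : Set α) =
        {x | x ∈ s ∧ f x = f a} := by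
      ext x
      simp
    rw [← Set.ncard_coe_finset, h3]
    exact h2)
  have h2 : (f '' s).ncard = (hs.toFinset.image f).card := by
    rw [← Set.ncard_coe_finset]
    congr 1
    ext y
    simp
  rw [Set.ncard_eq_toFinset_card s hs, h2]
  exact h1

/-- doubling on integer vectors -/
def dbl2 : (GolayPt → ℤ) →+ (GolayPt → ℤ) where
  toFun x := x + x
  map_zero' := add_zero 0
  map_add' x y := by abel

theorem dbl2_apply (x : GolayPt → ℤ) : dbl2 x = x + x := rfl

theorem dbl2_inj : Function.Injective dbl2 := by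
  intro x y h
  funext i
  have h1 := congrFun h i
  simp only [dbl2_apply, Pi.add_apply] at h1
  omega

/-- reduction modulo 2 -/
def red2 : (GolayPt → ℤ) →+ (GolayPt → ZMod 2) where
  toFun x := fun i => ((x i : ℤ) : ZMod 2)
  map_zero' := by funext i; simp
  map_add' x y := by funext i; simp

theorem red2_surj : Function.Surjective red2 := by
  intro c
  refine ⟨fun i => ((c i).val : ℤ), ?_⟩
  funext i
  show ((((c i).val : ℕ) : ℤ) : ZMod 2) = c i
  simp

theorem ker_red2 : red2.ker = dbl2.range := by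
  ext x
  rw [AddMonoidHom.mem_ker, AddMonoidHom.mem_range]
  constructor
  · intro h
    refine ⟨fun i => x i / 2, ?_⟩
    funext i
    have h1 : ((x i : ℤ) : ZMod 2) = 0 := congrFun h i
    rw [ZMod.intCast_zmod_eq_zero_iff_dvd] at h1
    simp only [dbl2_apply, Pi.add_apply]
    push_cast at h1
    omega
  · rintro ⟨y, rfl⟩
    funext i
    show (((y i + y i : ℤ)) : ZMod 2) = 0
    push_cast
    exact CharTwo.add_self_eq_zero _

theorem dbl2_range_index : dbl2.range.index = 2 ^ 24 := by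
  rw [← ker_red2, AddSubgroup.index_ker, AddMonoidHom.range_eq_top.mpr red2_surj,
    AddSubgroup.card_top, Nat.card_eq_fintype_card, Fintype.card_fun]
  rfl

/-- twice the lattice -/
def L2 : AddSubgroup (GolayPt → ℤ) := leechLattice.map dbl2

theorem mem_L2 (x : GolayPt → ℤ) : x ∈ L2 ↔ ∃ w ∈ leechLattice, x = w + w := by
  constructor
  · rintro ⟨w, hw, rfl⟩
    exact ⟨w, hw, rfl⟩
  · rintro ⟨w, hw, rfl⟩
    exact ⟨w, hw, rfl⟩

theorem L2_le : L2 ≤ leechLattice := by
  rintro _ ⟨w, hw, rfl⟩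
  exact add_mem hw hw

theorem L2_index : L2.index = 2 ^ 36 * 2 ^ 24 := by
  unfold L2
  rw [AddSubgroup.index_map_of_injective leechLattice dbl2_inj, Cfsg.Agent.S0393.result, dbl2_range_index]

theorem L2_relIndex : L2.relIndex leechLattice = 2 ^ 24 := by
  have h := AddSubgroup.relIndex_mul_index L2_le
  rw [Cfsg.Agent.S0393.result, L2_index] at h
  exact Nat.eq_of_mul_eq_mul_right (by norm_num) (h.trans (mul_comm _ _))

/-- twice the lattice, inside the lattice -/
def H2 : AddSubgroup leechLattice := L2.addSubgroupOf leechLattice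

theorem H2_index : H2.index = 2 ^ 24 := L2_relIndex

theorem mk_eq_iff (v w : leechLattice) :
    (QuotientAddGroup.mk v : leechLattice ⧸ H2) = QuotientAddGroup.mk w ↔
      ∃ z ∈ leechLattice, (v : GolayPt → ℤ) - (w : GolayPt → ℤ) = 2 • z := by
  rw [QuotientAddGroup.eq]
  show ((-v + w : leechLattice) : GolayPt → ℤ) ∈ L2 ↔ _
  rw [mem_L2]
  constructor
  · rintro ⟨u, hu, h⟩
    refine ⟨-u, neg_mem hu, ?_⟩
    rw [two_nsmul]
    have h1 : -(v : GolayPt → ℤ) + (w : GolayPt → ℤ) = u + u := h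
    have h2 : (w : GolayPt → ℤ) = (v : GolayPt → ℤ) + (u + u) := by rw [← h1]; abel
    rw [h2]; abel
  · rintro ⟨z, hz, h⟩
    refine ⟨-z, neg_mem hz, ?_⟩
    rw [two_nsmul] at h
    show -(v : GolayPt → ℤ) + (w : GolayPt → ℤ) = -z + -z
    have h2 : (v : GolayPt → ℤ) = (w : GolayPt → ℤ) + (z + z) := by rw [← h]; abel
    rw [h2]; abel

theorem sqNorm_neg (x : GolayPt → ℤ) : sqNorm (-x) = sqNorm x := by
  simp [sqNorm]

/-- Every class of the lattice modulo twice the lattice contains a vector of squared length at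
most 64. -/
theorem short_rep (x : GolayPt → ℤ) (hx : x ∈ leechLattice) :
    ∃ y ∈ leechLattice, sqNorm y ≤ 64 ∧ ∃ z ∈ leechLattice, x - y = 2 • z := by
  classical
  have : H2.FiniteIndex := ⟨by rw [H2_index]; norm_num⟩
  have : Finite (leechLattice ⧸ H2) := AddSubgroup.finite_quotient_of_finiteIndex
  have hcard : Nat.card (leechLattice ⧸ H2) = 2 ^ 24 := by
    rw [← AddSubgroup.index_eq_card, H2_index]
  obtain ⟨p, hp⟩ : ∃ p : leechLattice → leechLattice ⧸ H2, ∀ v, p v = QuotientAddGroup.mk v :=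
    ⟨_, fun _ => rfl⟩
  have hpe : ∀ v w : leechLattice, p v = p w ↔
      ∃ z ∈ leechLattice, (v : GolayPt → ℤ) - (w : GolayPt → ℤ) = 2 • z := by
    intro v w
    rw [hp, hp]
    exact mk_eq_iff v w
  obtain ⟨T, hTdef⟩ : ∃ T : ℤ → Set leechLattice,
      ∀ k v, v ∈ T k ↔ sqNorm (v : GolayPt → ℤ) = k := ⟨fun k => {v | sqNorm (v : GolayPt → ℤ) = k},
        fun _ _ => Iff.rfl⟩
  have hT : ∀ k, (T k).ncard = {x : GolayPt → ℤ | x ∈ leechLattice ∧ sqNorm x = k}.ncard := by
    intro k
    rw [← Set.ncard_image_of_injective (T k) Subtype.val_injective]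
    congr 1
    ext y
    constructor
    · rintro ⟨v, hv, rfl⟩
      exact ⟨v.2, (hTdef k v).mp hv⟩
    · rintro ⟨hy, hn⟩
      exact ⟨⟨y, hy⟩, (hTdef k _).mpr hn, rfl⟩
  have c32 : (T 32).ncard = 196560 := (hT 32).trans Cfsg.Agent.S0394.result
  have c48 : (T 48).ncard = 16773120 := (hT 48).trans Cfsg.Agent.S0395.result
  have c64 : (T 64).ncard = 398034000 := (hT 64).trans Cfsg.Agent.S0396.result
  have fin32 : (T 32).Finite := Set.finite_of_ncard_ne_zero (by rw [c32]; norm_num)
  have fin48 : (T 48).Finite := Set.finite_of_ncard_ne_zero (by rw [c48]; norm_num)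
  have fin64 : (T 64).Finite := Set.finite_of_ncard_ne_zero (by rw [c64]; norm_num)
  -- fibres
  have f2 : ∀ k : ℤ, k = 32 ∨ k = 48 → ∀ a ∈ T k, {w | w ∈ T k ∧ p w = p a}.ncard ≤ 2 := by
    intro k hk a ha
    have hsub : {w | w ∈ T k ∧ p w = p a} ⊆ {a, -a} := by
      rintro w ⟨hw, hpw⟩
      by_cases hwa : w = a
      · left; exact hwa
      · right
        have hw' := (hTdef k w).mp hw
        have ha' := (hTdef k a).mp ha
        rcases Cfsg.Agent.S5592.result w.1 a.1 w.2 a.2 (fun h => hwa (Subtype.ext h))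
          (by rw [hw']; rcases hk with rfl | rfl <;> norm_num)
          (by rw [ha']; rcases hk with rfl | rfl <;> norm_num)
          ((hpe w a).mp hpw) with h | ⟨h, -, -⟩
        · exact Subtype.ext h
        · exfalso
          rw [hw'] at h
          rcases hk with rfl | rfl <;> norm_num at h
    calc {w | w ∈ T k ∧ p w = p a}.ncard ≤ ({a, -a} : Set leechLattice).ncard :=
          Set.ncard_le_ncard hsub (Set.toFinite _)
      _ ≤ ({-a} : Set leechLattice).ncard + 1 := Set.ncard_insert_le _ _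
      _ = 2 := by rw [Set.ncard_singleton]
  have f48 : ∀ a ∈ T 64, {w | w ∈ T 64 ∧ p w = p a}.ncard ≤ 48 := by
    intro a ha
    have ha' := (hTdef 64 a).mp ha
    have h1 : {w | w ∈ T 64 ∧ p w = p a} = Cfsg.Agent.Lib.Helper10.crossL a := by
      ext w
      constructor
      · rintro ⟨hw, hpw⟩
        exact ⟨w.2, ((hTdef 64 w).mp hw).trans ha'.symm, (hpe a w).mp hpw.symm⟩
      · rintro ⟨-, hn, hz⟩
        exact ⟨(hTdef 64 w).mpr (hn.trans ha'), ((hpe a w).mpr hz).symm⟩
    rw [h1, Cfsg.Agent.Lib.Helper10.ncard_crossL, Cfsg.Agent.Lib.Helper10.cross_ncard a.2 ha']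
  have i32 : 98280 ≤ (p '' T 32).ncard := by
    have h := ncard_le_mul_ncard_image p (T 32) fin32 2 (f2 32 (Or.inl rfl))
    rw [c32] at h
    omega
  have i48 : 8386560 ≤ (p '' T 48).ncard := by
    have h := ncard_le_mul_ncard_image p (T 48) fin48 2 (f2 48 (Or.inr rfl))
    rw [c48] at h
    omega
  have i64 : 8292375 ≤ (p '' T 64).ncard := by
    have h := ncard_le_mul_ncard_image p (T 64) fin64 48 f48
    rw [c64] at h
    omega
  have i0 : 1 ≤ (p '' T 0).ncard := by
    have hne : (p '' T 0).Nonempty := ⟨p 0, 0, (hTdef 0 0).mpr (by simp [sqNorm]), rfl⟩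
    exact (Set.ncard_pos (Set.toFinite _)).mpr hne
  have hdisj : ∀ k k' : ℤ, k ≤ 64 → k' ≤ 64 → k ≠ k' → Disjoint (p '' T k) (p '' T k') := by
    intro k k' hk hk' hne
    rw [Set.disjoint_left]
    rintro _ ⟨v, hv, rfl⟩ ⟨w, hw, hpw⟩
    have hv' := (hTdef k v).mp hv
    have hw' := (hTdef k' w).mp hw
    have hvw : v ≠ w := by
      rintro rfl
      exact hne (hv'.symm.trans hw')
    rcases Cfsg.Agent.S5592.result v.1 w.1 v.2 w.2 (fun h => hvw (Subtype.ext h))
      (by rw [hv']; exact hk) (by rw [hw']; exact hk') ((hpe v w).mp hpw.symm) with h | ⟨h1, h2, -⟩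
    · apply hne
      rw [← hv', ← hw', h, sqNorm_neg]
    · exact hne (hv'.symm.trans (h1.trans (h2.symm.trans hw')))
  have hU : (p '' T 0 ∪ p '' T 32 ∪ p '' T 48 ∪ p '' T 64) = Set.univ := by
    rw [Set.eq_univ_iff_ncard, hcard]
    have d1 : Disjoint (p '' T 0) (p '' T 32) := hdisj 0 32 (by norm_num) (by norm_num) (by norm_num)
    have d2 : Disjoint (p '' T 0 ∪ p '' T 32) (p '' T 48) :=
      Set.disjoint_union_left.mpr ⟨hdisj 0 48 (by norm_num) (by norm_num) (by norm_num),
        hdisj 32 48 (by norm_num) (by norm_num) (by norm_num)⟩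
    have d3 : Disjoint (p '' T 0 ∪ p '' T 32 ∪ p '' T 48) (p '' T 64) :=
      Set.disjoint_union_left.mpr ⟨Set.disjoint_union_left.mpr
        ⟨hdisj 0 64 (by norm_num) (by norm_num) (by norm_num),
          hdisj 32 64 (by norm_num) (by norm_num) (by norm_num)⟩,
        hdisj 48 64 (by norm_num) (by norm_num) (by norm_num)⟩
    have e3 := Set.ncard_union_eq d3 (Set.toFinite _) (Set.toFinite _)
    have e2 := Set.ncard_union_eq d2 (Set.toFinite _) (Set.toFinite _)
    have e1 := Set.ncard_union_eq d1 (Set.toFinite _) (Set.toFinite _)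
    have hle := Set.ncard_le_card (p '' T 0 ∪ p '' T 32 ∪ p '' T 48 ∪ p '' T 64)
    rw [hcard] at hle
    norm_num at hle ⊢
    omega
  have hmem : p ⟨x, hx⟩ ∈ (p '' T 0 ∪ p '' T 32 ∪ p '' T 48 ∪ p '' T 64) := by
    rw [hU]; exact Set.mem_univ _
  have hfin : ∀ k : ℤ, k ≤ 64 → p ⟨x, hx⟩ ∈ p '' T k →
      ∃ y ∈ leechLattice, sqNorm y ≤ 64 ∧ ∃ z ∈ leechLattice, x - y = 2 • z := by
    rintro k hk ⟨y, hy, hpy⟩
    refine ⟨y.1, y.2, ?_, (hpe ⟨x, hx⟩ y).mp hpy.symm⟩
    rw [(hTdef k y).mp hy]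
    exact hk
  rcases hmem with ((h | h) | h) | h
  · exact hfin 0 (by norm_num) h
  · exact hfin 32 (by norm_num) h
  · exact hfin 48 (by norm_num) h
  · exact hfin 64 (by norm_num) h

end Cfsg.Agent.Lib.Helper92
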