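-- The stabiliser in the automorphism group of the rank-24 lattice of a minimal vector has no
-- non-trivial normal 2-subgroup.
import Mathlib
import Cfsg.Agent.Lib.Helper10.OrthPairs
import Cfsg.Agent.Lib.Helper10.Co0Center
import Cfsg.Agent.S0391
import Cfsg.Agent.S0397
import Cfsg.Agent.S5392

set_option autoImplicit false
open Cfsg

namespace Cfsg.Agent.Lib.Helper92

open Cfsg.Agent.Lib.Helper10 Cfsg.Agent.S5408 Cfsg.Agent.S5392 Cfsg.Agent.S5552

/-- The sign changes (diagonal lattice automorphisms) fixing the vector `(4, 4, 0, …)`. -/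
def sgnT : Subgroup Co0 where
  carrier := {f | f • Spor.leechU = Spor.leechU ∧ ∃ s : GolayPt → ℤ, (∀ i, s i * s i = 1) ∧
      ∀ (v : leechLattice) (i : GolayPt),
        ((f • v : leechLattice) : GolayPt → ℤ) i = s i * (v : GolayPt → ℤ) i}
  one_mem' := ⟨one_smul _ _, fun _ => 1, fun _ => one_mul 1, fun v i => by rw [one_smul, one_mul]⟩
  mul_mem' := by
    rintro f g ⟨hf, s, hs, hfs⟩ ⟨hg, s', hs', hgs⟩
    refine ⟨by rw [mul_smul, hg, hf], fun i => s i * s' i, fun i => ?_, fun v i => ?_⟩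
    · calc s i * s' i * (s i * s' i) = (s i * s i) * (s' i * s' i) := by ring
        _ = 1 := by rw [hs, hs', one_mul]
    · rw [mul_smul, hfs, hgs]; ring
  inv_mem' := by
    rintro f ⟨hf, s, hs, hfs⟩
    refine ⟨?_, s, hs, fun v i => ?_⟩
    · rw [inv_smul_eq_iff, hf]
    · have h := hfs (f⁻¹ • v) i
      rw [smul_inv_smul] at h
      rw [h, ← mul_assoc, hs, one_mul]

theorem sgnT_sq (f : Co0) (hf : f ∈ sgnT) : f * f = 1 := by
  obtain ⟨_, s, hs, hfs⟩ := hf
  apply Subtype.ext
  apply Equiv.ext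
  intro v
  apply Subtype.ext
  funext i
  show ((f • (f • v) : leechLattice) : GolayPt → ℤ) i = (v : GolayPt → ℤ) i
  rw [hfs, hfs, ← mul_assoc, hs, one_mul]

theorem signPerm_mem_sgnT (c : Finset GolayPt) (hc : c ∈ gsup) (h1 : none ∉ c) (h2 : some 0 ∉ c) :
    (⟨signPerm c hc, signPerm_mem c hc⟩ : Co0) ∈ sgnT := by
  refine ⟨?_, fun i => if i ∈ c then -1 else 1, fun i => ?_, fun v i => ?_⟩
  · apply Subtype.ext
    show signVec c Spor.vecU = Spor.vecU
    funext i
    rw [signVec_apply]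
    split_ifs with h
    · have h0 : Spor.vecU i = 0 := by
        unfold Spor.vecU
        rw [if_neg]
        rintro (rfl | rfl)
        · exact h1 h
        · exact h2 h
      rw [h0, neg_zero]
    · rfl
  · show (if i ∈ c then (-1 : ℤ) else 1) * (if i ∈ c then (-1 : ℤ) else 1) = 1
    split_ifs <;> norm_num
  · show signVec c v.1 i = (if i ∈ c then (-1 : ℤ) else 1) * v.1 i
    rw [signVec_apply]
    split_ifs <;> ring

set_option maxRecDepth 1000000 in
theorem sep0 : ∀ i j : GolayPt, i ≠ none → i ≠ some 0 → j ≠ i →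
    ∃ t : ZMod 23, qrWord t (some 0) = 0 ∧ qrWord t i = 1 ∧ qrWord t j = 0 := by
  decide

theorem nU' : sqNorm Spor.vecU' = 32 := by decide +kernel

theorem dUU' : dotInt Spor.vecU Spor.vecU' = 0 := by decide +kernel

/-- The only minimal vectors orthogonal to `(4, 4, 0, …)` that every sign change fixing it maps
to themselves or their opposites are `±(4, -4, 0, …)`. -/
theorem sgnT_unique (w : leechLattice) (hn : sqNorm (w : GolayPt → ℤ) = 32)
    (hd : dotInt (Spor.leechU : GolayPt → ℤ) (w : GolayPt → ℤ) = 0)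
    (hT : ∀ f ∈ sgnT, f • w = w ∨ f • w = -w) : w = Spor.leechU' ∨ w = -Spor.leechU' := by
  have hzero : ∀ i : GolayPt, i ≠ none → i ≠ some 0 → (w : GolayPt → ℤ) i = 0 := by
    intro i hi1 hi2
    by_contra hwi
    have hall : ∀ j, j ≠ i → (w : GolayPt → ℤ) j = 0 := by
      intro j hj
      obtain ⟨t, ht0, hti, htj⟩ := sep0 i j hi1 hi2 hj
      have hc : support₂ (qrWord t) ∈ gsup :=
        ⟨qrWord t, Submodule.subset_span (Set.mem_union_left _ ⟨t, rfl⟩), rfl⟩
      have hmem : ∀ p : GolayPt, p ∈ support₂ (qrWord t) ↔ qrWord t p ≠ 0 := by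
        intro p
        simp [support₂]
      have hn1 : none ∉ support₂ (qrWord t) := by
        rw [hmem]
        simp [qrWord]
      have hn2 : some 0 ∉ support₂ (qrWord t) := by
        rw [hmem, ht0]
        simp
      have hic : i ∈ support₂ (qrWord t) := by
        rw [hmem, hti]
        decide
      have hjc : j ∉ support₂ (qrWord t) := by
        rw [hmem, htj]
        simp
      have hf := hT _ (signPerm_mem_sgnT _ hc hn1 hn2)
      have hval : ∀ p, (((⟨signPerm _ hc, signPerm_mem _ hc⟩ : Co0) • w : leechLattice) :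
          GolayPt → ℤ) p = signVec (support₂ (qrWord t)) w.1 p := fun p => rfl
      rcases hf with h | h
      · exfalso
        have h1 := congrFun (congrArg Subtype.val h) i
        rw [hval, signVec_apply, if_pos hic] at h1
        omega
      · have h1 := congrFun (congrArg Subtype.val h) j
        rw [hval, signVec_apply, if_neg hjc] at h1
        simp only [AddSubgroup.coe_neg, Pi.neg_apply] at h1
        omega
    have hsq : sqNorm (w : GolayPt → ℤ) = (w : GolayPt → ℤ) i ^ 2 := by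
      unfold sqNorm
      rw [Finset.sum_eq_single i]
      · intro b _ hb
        rw [hall b hb]
        norm_num
      · intro h
        exact absurd (Finset.mem_univ i) h
    rw [hn] at hsq
    obtain ⟨x, hx⟩ : ∃ x : ℤ, x = (w : GolayPt → ℤ) i := ⟨_, rfl⟩
    rw [← hx] at hsq
    have h1 : x ≤ 5 := by nlinarith
    have h2 : -5 ≤ x := by nlinarith
    interval_cases x <;> norm_num at hsq
  have hdot : 4 * (w : GolayPt → ℤ) none + 4 * (w : GolayPt → ℤ) (some 0) = 0 := by
    have h1 := dot_eS (w : GolayPt → ℤ) 0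
    have h2 : dotInt (w : GolayPt → ℤ) (eS 0) = 0 := by
      rw [dot_comm]
      exact hd
    rw [h2] at h1
    exact h1.symm
  have hnorm : (w : GolayPt → ℤ) none ^ 2 + (w : GolayPt → ℤ) (some 0) ^ 2 = 32 := by
    rw [← hn]
    unfold sqNorm
    rw [Fintype.sum_option, Finset.sum_eq_single (0 : ZMod 23)]
    · intro b _ hb
      rw [hzero (some b) (by simp) (by simpa using hb)]
      norm_num
    · intro h
      exact absurd (Finset.mem_univ _) h
  obtain ⟨p, hp⟩ : ∃ p : ℤ, p = (w : GolayPt → ℤ) none := ⟨_, rfl⟩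
  obtain ⟨q, hq⟩ : ∃ q : ℤ, q = (w : GolayPt → ℤ) (some 0) := ⟨_, rfl⟩
  rw [← hp, ← hq] at hdot hnorm
  have hqp : q = -p := by omega
  rw [hqp] at hnorm
  have h1 : p ≤ 4 := by nlinarith
  have h2 : -4 ≤ p := by nlinarith
  have hp4 : p = 4 ∨ p = -4 := by
    interval_cases p <;> norm_num at hnorm <;> simp
  rcases hp4 with h | h
  · left
    apply Subtype.ext
    funext k
    show (w : GolayPt → ℤ) k = Spor.vecU' k
    unfold Spor.vecU'
    by_cases hk1 : k = none
    · rw [if_pos hk1, hk1, ← hp, h]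
    · rw [if_neg hk1]
      by_cases hk2 : k = some 0
      · rw [if_pos hk2, hk2, ← hq, hqp, h]
      · rw [if_neg hk2]
        exact hzero k hk1 hk2
  · right
    apply Subtype.ext
    funext k
    show (w : GolayPt → ℤ) k = -Spor.vecU' k
    unfold Spor.vecU'
    by_cases hk1 : k = none
    · rw [if_pos hk1, hk1, ← hp, h]
    · rw [if_neg hk1]
      by_cases hk2 : k = some 0
      · rw [if_pos hk2, hk2, ← hq, hqp, h]
      · rw [if_neg hk2]
        rw [hzero k hk1 hk2]
        norm_num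

/-- The stabiliser of the pair `±(4, -4, 0, …)`. -/
def pairStab : Subgroup Co0 where
  carrier := {p | p • Spor.leechU' = Spor.leechU' ∨ p • Spor.leechU' = -Spor.leechU'}
  one_mem' := Or.inl (one_smul _ _)
  mul_mem' := by
    rintro f g (hf | hf) (hg | hg)
    · left; rw [mul_smul, hg, hf]
    · right; rw [mul_smul, hg, co0_neg, hf]
    · right; rw [mul_smul, hg, hf]
    · left; rw [mul_smul, hg, co0_neg, hf, neg_neg]
  inv_mem' := by
    rintro f (hf | hf)
    · left; rw [inv_smul_eq_iff, hf]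
    · right; rw [inv_smul_eq_iff, co0_neg, hf, neg_neg]

theorem sgnT_le_pairStab : sgnT ≤ pairStab := by
  rintro f ⟨hfu, s, hs, hfs⟩
  left
  have e1 := hfs Spor.leechU none
  have e2 := hfs Spor.leechU (some 0)
  rw [hfu] at e1 e2
  have v1 : (Spor.leechU : GolayPt → ℤ) none = 4 := rfl
  have v2 : (Spor.leechU : GolayPt → ℤ) (some 0) = 4 := rfl
  rw [v1] at e1
  rw [v2] at e2
  apply Subtype.ext
  funext k
  rw [hfs]
  show s k * Spor.vecU' k = Spor.vecU' k
  unfold Spor.vecU'
  by_cases hk1 : k = none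
  · rw [if_pos hk1, hk1]; omega
  · rw [if_neg hk1]
    by_cases hk2 : k = some 0
    · rw [if_pos hk2, hk2]; omega
    · rw [if_neg hk2, mul_zero]

theorem nUvec : sqNorm Spor.vecU = 32 := by decide +kernel

theorem co0_finite : Finite Co0 :=
  Nat.finite_of_card_ne_zero (by rw [Cfsg.Agent.S0397.result]; norm_num)

/-- A normal 2-subgroup of the stabiliser of `(4, 4, 0, …)` fixes the pair `±(4, -4, 0, …)`. -/
theorem pair_fixed (N : Subgroup Co0) (h1 : ∀ γ ∈ N, γ • Spor.leechU = Spor.leechU)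
    (h2 : ∀ σ : Co0, σ • Spor.leechU = Spor.leechU → ∀ γ ∈ N, σ * γ * σ⁻¹ ∈ N)
    (h3 : IsPGroup 2 N) :
    ∀ γ ∈ N, γ • Spor.leechU' = Spor.leechU' ∨ γ • Spor.leechU' = -Spor.leechU' := by
  have := co0_finite
  have hT2 : IsPGroup 2 sgnT := by
    intro f
    refine ⟨1, Subtype.ext ?_⟩
    show (f : Co0) ^ 2 ^ 1 = 1
    rw [pow_one, pow_two]
    exact sgnT_sq f f.2
  have hnorm : sgnT ≤ Subgroup.normalizer N := by
    intro f hf
    rw [Subgroup.mem_normalizer_iff]
    intro γ
    constructor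
    · intro hγ
      exact h2 f hf.1 γ hγ
    · intro hγ
      have hfi : f⁻¹ • Spor.leechU = Spor.leechU := by rw [inv_smul_eq_iff, hf.1]
      have h := h2 f⁻¹ hfi _ hγ
      have e : f⁻¹ * (f * γ * f⁻¹) * f⁻¹⁻¹ = γ := by group
      rwa [e] at h
  have hP : IsPGroup 2 ↥(N ⊔ sgnT) := IsPGroup.to_sup_of_normal_left' h3 hT2 hnorm
  have hfixu : ∀ p ∈ N ⊔ sgnT, p • Spor.leechU = Spor.leechU := by
    have hle : N ⊔ sgnT ≤ MulAction.stabilizer Co0 Spor.leechU :=
      sup_le (fun γ hγ => h1 γ hγ) (fun f hf => hf.1)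
    exact fun p hp => hle hp
  by_contra hcon
  push Not at hcon
  obtain ⟨γ₀, hγ₀N, hγ₀1, hγ₀2⟩ := hcon
  have hlt : pairStab.subgroupOf (N ⊔ sgnT) < ⊤ := by
    rw [lt_top_iff_ne_top]
    intro htop
    have hm : (⟨γ₀, (le_sup_left : N ≤ N ⊔ sgnT) hγ₀N⟩ : ↥(N ⊔ sgnT)) ∈
        pairStab.subgroupOf (N ⊔ sgnT) := by
      rw [htop]
      trivial
    rw [Subgroup.mem_subgroupOf] at hm
    rcases hm with h | h
    · exact hγ₀1 h
    · exact hγ₀2 h
  have : Group.IsNilpotent ↥(N ⊔ sgnT) := hP.isNilpotent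
  have hnc := Group.normalizerCondition_of_isNilpotent (G := ↥(N ⊔ sgnT)) _ hlt
  obtain ⟨n, hn, hnB⟩ := SetLike.exists_of_lt hnc
  apply hnB
  rw [Subgroup.mem_subgroupOf]
  have hω : (n : Co0) • Spor.leechU' = Spor.leechU' ∨ (n : Co0) • Spor.leechU' = -Spor.leechU' := by
    apply sgnT_unique
    · rw [co0_norm]
      exact nU'
    · have h := co0_dot (n : Co0) Spor.leechU Spor.leechU'
      rw [hfixu _ n.2] at h
      rw [h]
      exact dUU'
    · intro f hf
      have hfB : (⟨f, (le_sup_right : sgnT ≤ N ⊔ sgnT) hf⟩ : ↥(N ⊔ sgnT)) ∈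
          pairStab.subgroupOf (N ⊔ sgnT) := by
        rw [Subgroup.mem_subgroupOf]
        exact sgnT_le_pairStab hf
      have h := (Subgroup.mem_normalizer_iff''.mp hn _).mp hfB
      rw [Subgroup.mem_subgroupOf] at h
      have h' : ((n : Co0)⁻¹ * f * (n : Co0)) • Spor.leechU' = Spor.leechU' ∨
          ((n : Co0)⁻¹ * f * (n : Co0)) • Spor.leechU' = -Spor.leechU' := h
      rcases h' with h | h
      · left
        rw [mul_smul, mul_smul, inv_smul_eq_iff] at h
        exact h
      · right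
        rw [mul_smul, mul_smul, inv_smul_eq_iff, co0_neg] at h
        exact h
  exact hω

/-- `4(e_a + e_b)` -/
def eP (a b : ZMod 23) : GolayPt → ℤ := fun x => if x = some a ∨ x = some b then 4 else 0

/-- `4(e_a - e_b)` -/
def eM (a b : ZMod 23) : GolayPt → ℤ := fun x => if x = some a then 4 else if x = some b then -4 else 0

theorem eP_mem (a b : ZMod 23) (hab : a ≠ b) : eP a b ∈ leechLattice := by
  apply AddSubgroup.subset_closure
  have h4 : ∀ x : GolayPt, eP a b x ≡ 0 [ZMOD 4] := by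
    intro x
    unfold eP
    split_ifs <;> decide
  have hs : ∀ a b : ZMod 23, a ≠ b → ∑ x, eP a b x ≡ 4 * 0 [ZMOD 8] := by decide +kernel
  exact Spor.mem_leechSet_of_const_mod_four _ 0 0 (by decide) h4 (hs a b hab)

theorem eM_mem (a b : ZMod 23) (hab : a ≠ b) : eM a b ∈ leechLattice := by
  apply AddSubgroup.subset_closure
  have h4 : ∀ x : GolayPt, eM a b x ≡ 0 [ZMOD 4] := by
    intro x
    unfold eM
    split_ifs <;> decide
  have hs : ∀ a b : ZMod 23, a ≠ b → ∑ x, eM a b x ≡ 4 * 0 [ZMOD 8] := by decide +kernel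
  exact Spor.mem_leechSet_of_const_mod_four _ 0 0 (by decide) h4 (hs a b hab)

theorem nP : ∀ a b : ZMod 23, a ≠ b → sqNorm (eP a b) = 32 := by decide +kernel

theorem nM : ∀ a b : ZMod 23, a ≠ b → sqNorm (eM a b) = 32 := by decide +kernel

theorem dUP : ∀ a b : ZMod 23, a ≠ 0 → b ≠ 0 → dotInt Spor.vecU (eP a b) = 0 := by decide +kernel

theorem dUM : ∀ a b : ZMod 23, a ≠ 0 → b ≠ 0 → dotInt Spor.vecU (eM a b) = 0 := by decide +kernel

theorem dPP : ∀ c : ZMod 23, dotInt (eP 1 2) (eP 1 c) ≠ 0 := by decide +kernel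

theorem dPP' : ∀ a b : ZMod 23, dotInt (eP 1 a) (eP a b) ≠ 0 := by decide +kernel

/-- a third index -/
def thirdIdx (a c : ZMod 23) : ZMod 23 :=
  if 1 ≠ a ∧ 1 ≠ c then 1 else if 2 ≠ a ∧ 2 ≠ c then 2 else 3

theorem thirdIdx_spec : ∀ a c : ZMod 23, a ≠ c → thirdIdx a c ≠ 0 ∧ thirdIdx a c ≠ a ∧
    dotInt (eP a (thirdIdx a c)) (eM a c) ≠ 0 := by decide +kernel

theorem ePM_add : ∀ a b : ZMod 23, a ≠ b → ∀ x : GolayPt,
    eP a b x + eM a b x = if x = some a then 8 else 0 := by decide +kernel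

end Cfsg.Agent.Lib.Helper92
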