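-- The stabiliser in the automorphism group of the rank-24 lattice of a minimal vector has no
-- non-trivial normal 2-subgroup (second part).
import Mathlib
import Cfsg.Agent.Lib.Helper92.Co2Core

set_option autoImplicit false
open Cfsg

namespace Cfsg.Agent.Lib.Helper92

open Cfsg.Agent.Lib.Helper10 Cfsg.Agent.S5408 Cfsg.Agent.S5392 Cfsg.Agent.S5552

theorem dot_vecU (m : GolayPt → ℤ) : dotInt m Spor.vecU = 4 * m none + 4 * m (some 0) :=
  dot_eS m 0

theorem dot_vecU' (m : GolayPt → ℤ) : dotInt m Spor.vecU' = 4 * m none - 4 * m (some 0) := by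
  unfold dotInt
  rw [Fintype.sum_option]
  have h1 : ∀ j : ZMod 23, m (some j) * Spor.vecU' (some j) =
      if j = 0 then -4 * m (some j) else 0 := by
    intro j
    unfold Spor.vecU'
    by_cases h : j = 0
    · subst h
      rw [if_neg (by simp), if_pos rfl, if_pos rfl]
      ring
    · have h' : (some j : GolayPt) ≠ some 0 := fun h' => h (Option.some.inj h')
      rw [if_neg (by simp), if_neg h', if_neg h, mul_zero]
  rw [Finset.sum_congr rfl (fun j _ => h1 j), Finset.sum_ite_eq' Finset.univ 0,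
    if_pos (Finset.mem_univ _)]
  show m none * 4 + -4 * m (some 0) = 4 * m none - 4 * m (some 0)
  ring

theorem dot_axis (m : GolayPt → ℤ) (j : GolayPt) :
    dotInt m (axisVec j : GolayPt → ℤ) = m j * 8 :=
  dotInt_single m j 8

/-- `4(e_a + e_b)` as a lattice vector -/
def vP (a b : ZMod 23) (hab : a ≠ b) : leechLattice := ⟨eP a b, eP_mem a b hab⟩

/-- `4(e_a - e_b)` as a lattice vector -/
def vM (a b : ZMod 23) (hab : a ≠ b) : leechLattice := ⟨eM a b, eM_mem a b hab⟩

/-- the vector with all coordinates 1 except one coordinate -3 -/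
def eY0 : GolayPt → ℤ := fun x => if x = some 1 then -3 else 1

theorem eY0_mem : eY0 ∈ leechLattice := by
  apply AddSubgroup.subset_closure
  exact Spor.mem_leechSet_of_const_mod_four _ 1 1 (by decide) (by decide) (by decide)

theorem qr0_mem : support₂ (qrWord 0) ∈ gsup :=
  ⟨qrWord 0, Submodule.subset_span (Set.mem_union_left _ ⟨0, rfl⟩), rfl⟩

/-- an odd minimal vector orthogonal to `(4, 4, 0, …)` -/
def vY : leechLattice := signPerm (support₂ (qrWord 0)) qr0_mem ⟨eY0, eY0_mem⟩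

theorem vY_coe : (vY : GolayPt → ℤ) = signVec (support₂ (qrWord 0)) eY0 := rfl

theorem nY : sqNorm (signVec (support₂ (qrWord 0)) eY0) = 32 := by decide +kernel

theorem dUY : dotInt Spor.vecU (signVec (support₂ (qrWord 0)) eY0) = 0 := by decide +kernel

theorem dYU' : dotInt (signVec (support₂ (qrWord 0)) eY0) Spor.vecU' ≠ 0 := by decide +kernel

theorem dPY : dotInt (eP 1 2) (signVec (support₂ (qrWord 0)) eY0) ≠ 0 := by decide +kernel

theorem other_idx : ∀ a : ZMod 23, ∃ b : ZMod 23, b ≠ 0 ∧ a ≠ b := by decide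

theorem dWU : dotInt (Spor.vecV + eR) Spor.vecU = 8 := by decide +kernel

/-- A normal 2-subgroup of the stabiliser of `(4, 4, 0, …)` is trivial. -/
theorem no_normal_two_U (N : Subgroup Co0) (h1 : ∀ γ ∈ N, γ • Spor.leechU = Spor.leechU)
    (h2 : ∀ σ : Co0, σ • Spor.leechU = Spor.leechU → ∀ γ ∈ N, σ * γ * σ⁻¹ ∈ N)
    (h3 : IsPGroup 2 N) : ∀ γ ∈ N, γ = 1 := by
  intro γ hγ
  have hγu := h1 γ hγ
  have hpm : ∀ w : leechLattice, sqNorm (w : GolayPt → ℤ) = 32 →
      dotInt (Spor.leechU : GolayPt → ℤ) (w : GolayPt → ℤ) = 0 → γ • w = w ∨ γ • w = -w := by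
    intro w hw hd
    obtain ⟨σ, hσu, hσw⟩ := orth_pair_trans Spor.leechU Spor.leechU' w nUvec nU' hw dUU' hd
    have hσi : σ⁻¹ • Spor.leechU = Spor.leechU := by rw [inv_smul_eq_iff, hσu]
    have hmem := h2 σ⁻¹ hσi γ hγ
    rw [inv_inv] at hmem
    rcases pair_fixed N h1 h2 h3 _ hmem with h | h
    · left
      rw [mul_smul, mul_smul, hσw, inv_smul_eq_iff, hσw] at h
      exact h
    · right
      rw [mul_smul, mul_smul, hσw, inv_smul_eq_iff, co0_neg, hσw] at h
      exact h
  have hprop : ∀ a c : leechLattice, sqNorm (c : GolayPt → ℤ) = 32 →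
      dotInt (Spor.leechU : GolayPt → ℤ) (c : GolayPt → ℤ) = 0 →
      dotInt (a : GolayPt → ℤ) (c : GolayPt → ℤ) ≠ 0 → ∀ s : ℤ, s = 1 ∨ s = -1 →
      γ • a = s • a → γ • c = s • c := by
    intro a c hc hdc hd s hs hγa
    have h1 := co0_dot γ a c
    rcases hpm c hc hdc with h | h <;> rcases hs with rfl | rfl
    · rw [one_smul]
      exact h
    · exfalso
      rw [neg_smul, one_smul] at hγa
      rw [hγa, h, AddSubgroup.coe_neg, dotInt_neg_left] at h1
      omega
    · exfalso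
      rw [one_smul] at hγa
      rw [hγa, h, AddSubgroup.coe_neg, dot_neg_right] at h1
      omega
    · rw [neg_smul, one_smul]
      exact h
  have h12 : (1 : ZMod 23) ≠ 2 := by decide
  obtain ⟨s, hs, hr0⟩ : ∃ s : ℤ, (s = 1 ∨ s = -1) ∧ γ • vP 1 2 h12 = s • vP 1 2 h12 := by
    rcases hpm (vP 1 2 h12) (nP 1 2 h12) (dUP 1 2 (by decide) (by decide)) with h | h
    · exact ⟨1, Or.inl rfl, by rw [one_smul]; exact h⟩
    · exact ⟨-1, Or.inr rfl, by rw [neg_smul, one_smul]; exact h⟩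
  have hP1 : ∀ (c : ZMod 23) (hc : (1 : ZMod 23) ≠ c), c ≠ 0 → γ • vP 1 c hc = s • vP 1 c hc := by
    intro c hc hc0
    exact hprop (vP 1 2 h12) (vP 1 c hc) (nP 1 c hc) (dUP 1 c (by decide) hc0) (dPP c) s hs hr0
  have hP : ∀ (a b : ZMod 23) (hab : a ≠ b), a ≠ 0 → b ≠ 0 → γ • vP a b hab = s • vP a b hab := by
    intro a b hab ha0 hb0
    by_cases ha1 : (1 : ZMod 23) = a
    · subst ha1
      exact hP1 b hab hb0
    · exact hprop (vP 1 a ha1) (vP a b hab) (nP a b hab) (dUP a b ha0 hb0) (dPP' a b) s hs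
        (hP1 a ha1 ha0)
  have hMn : ∀ (a c : ZMod 23) (hac : a ≠ c), a ≠ 0 → c ≠ 0 → γ • vM a c hac = s • vM a c hac := by
    intro a c hac ha0 hc0
    obtain ⟨hb0, hba, hd⟩ := thirdIdx_spec a c hac
    exact hprop (vP a (thirdIdx a c) (Ne.symm hba)) (vM a c hac) (nM a c hac) (dUM a c ha0 hc0) hd s hs
      (hP a (thirdIdx a c) (Ne.symm hba) ha0 hb0)
  have haxis : ∀ a : ZMod 23, a ≠ 0 → γ • axisVec (some a) = s • axisVec (some a) := by
    intro a ha0
    obtain ⟨b, hb0, hab⟩ := other_idx a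
    have e : axisVec (some a) = vP a b hab + vM a b hab := by
      apply Subtype.ext
      funext x
      show (axisVec (some a) : GolayPt → ℤ) x = eP a b x + eM a b x
      rw [axisVec_apply, ePM_add a b hab x]
    rw [e, co0_add, hP a b hab ha0 hb0, hMn a b hab ha0 hb0, smul_add]
  have hY : γ • vY = s • vY :=
    hprop (vP 1 2 h12) vY nY dUY dPY s hs hr0
  have hU' : γ • Spor.leechU' = s • Spor.leechU' :=
    hprop vY Spor.leechU' nU' dUU' dYU' s hs hY
  rcases hs with rfl | rfl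
  · -- γ is the identity
    apply Subtype.ext
    apply Equiv.ext
    intro v
    apply Subtype.ext
    show ((γ • v : leechLattice) : GolayPt → ℤ) = (v : GolayPt → ℤ)
    rw [one_smul] at hU'
    have hc : ∀ a : ZMod 23, a ≠ 0 →
        ((γ • v : leechLattice) : GolayPt → ℤ) (some a) = (v : GolayPt → ℤ) (some a) := by
      intro a ha0
      have h := co0_dot γ v (axisVec (some a))
      rw [haxis a ha0, one_smul, dot_axis, dot_axis] at h
      omega
    have hu := co0_dot γ v Spor.leechU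
    rw [hγu] at hu
    have hu' := co0_dot γ v Spor.leechU'
    rw [hU'] at hu'
    have e1 : (Spor.leechU : GolayPt → ℤ) = Spor.vecU := rfl
    have e2 : (Spor.leechU' : GolayPt → ℤ) = Spor.vecU' := rfl
    rw [e1, dot_vecU, dot_vecU] at hu
    rw [e2, dot_vecU', dot_vecU'] at hu'
    funext k
    cases k with
    | none => omega
    | some a =>
      by_cases ha : a = 0
      · subst ha
        omega
      · exact hc a ha
  · -- γ would negate the orthogonal complement: impossible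
    exfalso
    rw [neg_smul, one_smul] at hU'
    obtain ⟨W, hW⟩ : ∃ W : leechLattice, W = Spor.leechV + R := ⟨_, rfl⟩
    have hWc : (W : GolayPt → ℤ) = Spor.vecV + eR := by rw [hW]; rfl
    obtain ⟨d, hd⟩ : ∃ d : leechLattice, d = γ • W + W := ⟨_, rfl⟩
    have hdc : (d : GolayPt → ℤ) = ((γ • W : leechLattice) : GolayPt → ℤ) + (W : GolayPt → ℤ) := by
      rw [hd]; rfl
    have hc : ∀ a : ZMod 23, a ≠ 0 → (d : GolayPt → ℤ) (some a) = 0 := by
      intro a ha0
      have h := co0_dot γ W (axisVec (some a))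
      rw [haxis a ha0, neg_smul, one_smul, AddSubgroup.coe_neg, dot_neg_right, dot_axis, dot_axis] at h
      rw [hdc, Pi.add_apply]
      omega
    have hu := co0_dot γ W Spor.leechU
    rw [hγu] at hu
    have hu' := co0_dot γ W Spor.leechU'
    rw [hU', AddSubgroup.coe_neg, dot_neg_right] at hu'
    have e1 : (Spor.leechU : GolayPt → ℤ) = Spor.vecU := rfl
    have e2 : (Spor.leechU' : GolayPt → ℤ) = Spor.vecU' := rfl
    have hWU : dotInt (W : GolayPt → ℤ) Spor.vecU = 8 := by rw [hWc]; exact dWU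
    have hWU' := dot_vecU (W : GolayPt → ℤ)
    rw [hWU] at hWU'
    rw [e1, hWU, dot_vecU] at hu
    rw [e2, dot_vecU', dot_vecU'] at hu'
    have hd1 : (d : GolayPt → ℤ) none = 2 := by
      rw [hdc, Pi.add_apply]
      omega
    have hd2 : (d : GolayPt → ℤ) (some 0) = 2 := by
      rw [hdc, Pi.add_apply]
      omega
    have hdn : sqNorm (d : GolayPt → ℤ) = 8 := by
      unfold sqNorm
      rw [Fintype.sum_option, Finset.sum_eq_single (0 : ZMod 23), hd1, hd2]
      · norm_num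
      · intro b _ hb
        rw [hc b hb]
        norm_num
      · intro h
        exact absurd (Finset.mem_univ _) h
    have hd0 : (d : GolayPt → ℤ) ≠ 0 := by
      intro h
      rw [h] at hd1
      simp at hd1
    have := Cfsg.Agent.S0391.result _ d.2 hd0
    omega

/-- A normal 2-subgroup of the stabiliser of a minimal vector of the rank-24 lattice, in the
automorphism group of the lattice, is trivial. -/
theorem no_normal_two (v : leechLattice) (hv : sqNorm (v : GolayPt → ℤ) = 32) (N : Subgroup Co0)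
    (h1 : ∀ γ ∈ N, γ • v = v) (h2 : ∀ σ : Co0, σ • v = v → ∀ γ ∈ N, σ * γ * σ⁻¹ ∈ N)
    (h3 : ∀ γ ∈ N, ∃ k : ℕ, γ ^ 2 ^ k = 1) : ∀ γ ∈ N, γ = 1 := by
  obtain ⟨g, hg⟩ := trans_norm32 v Spor.leechU hv nUvec
  have key := no_normal_two_U (N.map (MulAut.conj g).toMonoidHom) ?_ ?_ ?_
  · intro γ hγ
    have hm : g * γ * g⁻¹ ∈ N.map (MulAut.conj g).toMonoidHom := ⟨γ, hγ, rfl⟩
    exact conj_eq_one_iff.mp (key _ hm)
  · rintro _ ⟨γ, hγ, rfl⟩
    show (g * γ * g⁻¹) • Spor.leechU = Spor.leechU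
    rw [mul_smul, mul_smul, ← hg, inv_smul_smul, h1 γ hγ]
  · rintro σ hσ _ ⟨γ, hγ, rfl⟩
    refine ⟨(g⁻¹ * σ * g) * γ * (g⁻¹ * σ * g)⁻¹, h2 _ ?_ γ hγ, ?_⟩
    · rw [mul_smul, mul_smul, hg, hσ, ← hg, inv_smul_smul]
    · show g * (g⁻¹ * σ * g * γ * (g⁻¹ * σ * g)⁻¹) * g⁻¹ = σ * (g * γ * g⁻¹) * σ⁻¹
      group
  · rintro ⟨_, γ, hγ, rfl⟩
    obtain ⟨k, hk⟩ := h3 γ hγ
    refine ⟨k, Subtype.ext ?_⟩
    show (g * γ * g⁻¹) ^ 2 ^ k = 1
    rw [conj_pow, hk]
    group

end Cfsg.Agent.Lib.Helper92
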