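-- The common setting of the statements on groups of Monster type: the extraspecial group `Q`,
-- its quadratic form, and the action of the centralizer on `Q / Z(Q)` as on the Leech lattice mod 2.
import Mathlib
import Cfsg.Agent.S5411
import Cfsg.Agent.S5592

set_option autoImplicit false
open Cfsg
open scoped commutatorElement

namespace Cfsg.Agent.Lib.Helper92

open Cfsg.Agent.S5408 Cfsg.Agent.S5552 Cfsg.Agent.Lib.Helper10 Cfsg.Agent.S5553

/-- The data of a group of Monster type at `(z, Q)` with chosen identifications `e`, `ψ` and the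
central involution `ζ` of `Q`. -/
structure MS {G : Type*} [Group G] (z : G) (Q : Subgroup (Subgroup.centralizer ({z} : Set G)))
    [Q.Normal] (e : (Subgroup.centralizer ({z} : Set G)) ⧸ Q ≃* Spor.Co1)
    (ψ : leechLattice → Q ⧸ Subgroup.center Q) (ζ : Q) : Prop where
  xs : XS Q ζ
  card : Nat.card Q = 2 ^ 25
  zz : z * z = 1
  z1 : z ≠ 1
  ζz : ((ζ : Subgroup.centralizer ({z} : Set G)) : G) = z
  ψ1 : ∀ v w : leechLattice, ψ (v + w) = ψ v * ψ w
  ψ2 : Function.Surjective ψ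
  ψ3 : ∀ v : leechLattice, ψ v = 1 ↔ ∃ w : leechLattice, v = w + w
  ψ4 : ∀ (h : Subgroup.centralizer ({z} : Set G)) (g : Co0),
    (QuotientGroup.mk g : Spor.Co1) = e (QuotientGroup.mk h) →
    ∀ (v : leechLattice) (q : Q), ψ v = QuotientGroup.mk q →
      ψ (g • v) = QuotientGroup.mk ⟨h * q * h⁻¹,
        (inferInstance : Q.Normal).conj_mem (q : Subgroup.centralizer ({z} : Set G)) q.2 h⟩
  qeq : ∀ v : leechLattice, qf ψ v = q0 v

/-- The setting holds in a group of Monster type, for every identification. -/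
theorem ms_of_setting {G : Type*} [Group G] [Finite G] (z : G)
    (Q : Subgroup (Subgroup.centralizer ({z} : Set G))) [Q.Normal]
    (hS : Cfsg.IsExtraspecialCentralizerSetting z Q 12)
    (e : (Subgroup.centralizer ({z} : Set G)) ⧸ Q ≃* Spor.Co1)
    (ψ : leechLattice → Q ⧸ Subgroup.center Q) (hψ : Cfsg.IsLeechModTwoIso Q e ψ) :
    ∃ ζ : Q, MS z Q e ψ ζ := by
  obtain ⟨hz, hF, hE, hcard, g0, ⟨hg0c, hg0Q⟩, hg0ne⟩ := hS
  obtain ⟨hψ1, hψ2, hψ3, hψ4⟩ := hψ
  obtain ⟨ζ, hX⟩ := xs_of_isExtraspecial hE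
  have hQ : QForm (qf ψ) (bf ψ) := qform_of_xs hX ψ hψ1
  have hinv : ∀ (g : Co0) (v : leechLattice), qf ψ (g • v) = qf ψ v := by
    intro g v
    obtain ⟨hbar, hh⟩ := e.surjective (QuotientGroup.mk g)
    obtain ⟨h, rfl⟩ := QuotientGroup.mk_surjective hbar
    have h1 := hψ4 h g hh.symm v (lift ψ v) (mk_lift ψ v).symm
    rw [← sqv_of_mk hX ψ (g • v) _ h1]
    unfold qf sqv
    apply ind_congr
    have h2 : ∀ a : Q, (⟨h * a * h⁻¹, (inferInstance : Q.Normal).conj_mem a a.2 h⟩ : Q) *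
        ⟨h * a * h⁻¹, (inferInstance : Q.Normal).conj_mem a a.2 h⟩ = 1 ↔ a * a = 1 := by
      intro a
      constructor
      · intro h3
        have h4 : h * (a : Subgroup.centralizer ({z} : Set G)) * h⁻¹ *
            (h * (a : Subgroup.centralizer ({z} : Set G)) * h⁻¹) = 1 := congrArg Subtype.val h3
        apply Subtype.ext
        have h5 : h * ((a : Subgroup.centralizer ({z} : Set G)) * a) * h⁻¹ = 1 := by
          rw [← h4]; group
        exact conj_eq_one_iff.mp h5
      · intro h3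
        apply Subtype.ext
        have h4 : (a : Subgroup.centralizer ({z} : Set G)) * a = 1 := congrArg Subtype.val h3
        show h * (a : Subgroup.centralizer ({z} : Set G)) * h⁻¹ *
            (h * (a : Subgroup.centralizer ({z} : Set G)) * h⁻¹) = 1
        calc h * (a : Subgroup.centralizer ({z} : Set G)) * h⁻¹ *
            (h * (a : Subgroup.centralizer ({z} : Set G)) * h⁻¹)
            = h * ((a : Subgroup.centralizer ({z} : Set G)) * a) * h⁻¹ := by group
          _ = 1 := by rw [h4]; group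
    exact h2 _
  have hu := qform_unique (qf ψ) (bf ψ) hQ hinv
  have hβ : qf ψ Spor.leechV = 1 := by
    rcases zmod2_cases (qf ψ Spor.leechV) with h | h
    · exfalso
      have hsq : ∀ x : Q, x * x = 1 := by
        intro x
        obtain ⟨v, hv⟩ := hψ2 (QuotientGroup.mk x)
        have h2 := sqv_of_mk hX ψ v x hv
        rw [hu v, h, zero_mul] at h2
        exact ind_eq_zero_iff.mp h2
      have hab : ∀ x y : Q, x * y = y * x := by
        intro x y
        have i1 : x⁻¹ = x := inv_eq_of_mul_eq_one_right (hsq x)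
        have i2 : y⁻¹ = y := inv_eq_of_mul_eq_one_right (hsq y)
        have i3 : (x * y)⁻¹ = x * y := inv_eq_of_mul_eq_one_right (hsq (x * y))
        rw [mul_inv_rev, i1, i2] at i3
        exact i3.symm
      have hall : ∀ x : Q, x = 1 ∨ x = ζ := fun x =>
        hX.ctr x (Subgroup.mem_center_iff.mpr (fun g => hab g x))
      have hle : Nat.card Q ≤ 2 := by
        have hsub : (Set.univ : Set Q) ⊆ {1, ζ} := fun x _ => hall x
        calc Nat.card Q = (Set.univ : Set Q).ncard := (Set.ncard_univ _).symm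
          _ ≤ ({1, ζ} : Set Q).ncard := Set.ncard_le_ncard hsub (Set.toFinite _)
          _ ≤ ({ζ} : Set Q).ncard + 1 := Set.ncard_insert_le _ _
          _ = 2 := by rw [Set.ncard_singleton]
      rw [hcard] at hle
      norm_num at hle
    · exact h
  have hq0 : ∀ v, qf ψ v = q0 v := fun v => by rw [hu v, hβ, one_mul]
  have hzC : z ∈ Subgroup.centralizer ({z} : Set G) :=
    Subgroup.mem_centralizer_iff.mpr (fun y hy => by rw [Set.mem_singleton_iff.mp hy])
  obtain ⟨zC, hzCdef⟩ : ∃ zC : Subgroup.centralizer ({z} : Set G), zC = ⟨z, hzC⟩ := ⟨_, rfl⟩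
  have hzcen : ∀ c : Subgroup.centralizer ({z} : Set G), c * zC = zC * c := by
    intro c
    apply Subtype.ext
    rw [hzCdef]
    show (c : G) * z = z * c
    exact (Subgroup.mem_centralizer_iff.mp c.2 z rfl).symm
  have hzQ : zC ∈ Q := by
    rw [← hF]
    apply Cfsg.Agent.Lib.Helper30.centralizer_genFitting_le
    rw [Subgroup.mem_centralizer_iff]
    intro y _
    exact hzcen y
  have hz1 : z ≠ 1 := by
    intro h
    rw [h, orderOf_one] at hz
    exact absurd hz (by norm_num)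
  have hζ : (ζ : Subgroup.centralizer ({z} : Set G)) = zC := by
    have h1 : (⟨zC, hzQ⟩ : Q) ∈ Subgroup.center Q :=
      Subgroup.mem_center_iff.mpr (fun g => Subtype.ext (hzcen g))
    rcases hX.ctr _ h1 with h | h
    · exfalso
      have h2 : zC = 1 := congrArg Subtype.val h
      rw [hzCdef] at h2
      exact hz1 (congrArg Subtype.val h2)
    · rw [← h]
  have hzz : z * z = 1 := by
    have := pow_orderOf_eq_one z
    rwa [hz, pow_two] at this
  exact ⟨ζ, hX, hcard, hzz, hz1, by rw [hζ, hzCdef], hψ1, hψ2, hψ3, hψ4, hq0⟩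

section MSLemmas
variable {G : Type*} [Group G] {z : G} {Q : Subgroup (Subgroup.centralizer ({z} : Set G))}
  [Q.Normal] {e : (Subgroup.centralizer ({z} : Set G)) ⧸ Q ≃* Spor.Co1}
  {ψ : leechLattice → Q ⧸ Subgroup.center Q} {ζ : Q}

theorem MS.ψ0 (hM : MS z Q e ψ ζ) : ψ 0 = 1 := (hM.ψ3 0).mpr ⟨0, (add_zero 0).symm⟩

theorem MS.ψ_double (hM : MS z Q e ψ ζ) (a w : leechLattice) : ψ (a + (w + w)) = ψ a := by
  rw [hM.ψ1, (hM.ψ3 _).mpr ⟨w, rfl⟩, mul_one]

theorem MS.ψ_eq (hM : MS z Q e ψ ζ) (a b : leechLattice) (hab : ψ a = ψ b) :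
    ∃ w ∈ leechLattice, (a : GolayPt → ℤ) - (b : GolayPt → ℤ) = 2 • w := by
  have h1 : ψ (-b) * ψ b = 1 := by rw [← hM.ψ1, neg_add_cancel, hM.ψ0]
  have h2 : ψ (a + -b) = 1 := by
    rw [hM.ψ1, hab, ← hM.ψ1, add_neg_cancel, hM.ψ0]
  obtain ⟨w, hw⟩ := (hM.ψ3 _).mp h2
  refine ⟨w, w.2, ?_⟩
  have h3 : (a : GolayPt → ℤ) + -(b : GolayPt → ℤ) = (w : GolayPt → ℤ) + (w : GolayPt → ℤ) :=
    congrArg Subtype.val hw
  rw [two_nsmul, ← h3]
  abel

theorem MS.center_iff (hM : MS z Q e ψ ζ) (x : Q) : x ∈ Subgroup.center Q ↔ x = 1 ∨ x = ζ := by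
  constructor
  · exact hM.xs.ctr x
  · rintro (rfl | rfl)
    · exact one_mem _
    · rw [Subgroup.mem_center_iff]
      intro g
      exact hM.xs.cen g

theorem MS.mk_eq_one_iff (hM : MS z Q e ψ ζ) (x : Q) :
    (QuotientGroup.mk x : Q ⧸ Subgroup.center Q) = 1 ↔ x = 1 ∨ x = ζ := by
  rw [QuotientGroup.eq_one_iff, hM.center_iff]

theorem sqNorm_double (w : GolayPt → ℤ) : sqNorm (w + w) = 4 * sqNorm w := by
  rw [sqNorm_add, dot_self]
  ring

theorem MS.noncentral (hM : MS z Q e ψ ζ) (v : leechLattice) (x : Q)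
    (hv : ψ v = QuotientGroup.mk x)
    (hn : sqNorm (v : GolayPt → ℤ) = 32 ∨ sqNorm (v : GolayPt → ℤ) = 64) :
    x ∉ Subgroup.center Q := by
  intro hc
  rw [(QuotientGroup.eq_one_iff x).mpr hc] at hv
  obtain ⟨w, hw⟩ := (hM.ψ3 v).mp hv
  have h1 : sqNorm (v : GolayPt → ℤ) = 4 * sqNorm (w : GolayPt → ℤ) := by
    rw [hw]
    exact sqNorm_double _
  have hw0 : (w : GolayPt → ℤ) ≠ 0 := by
    intro h0
    rw [h0] at h1
    have h2 : sqNorm (0 : GolayPt → ℤ) = 0 := by simp [sqNorm]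
    rw [h2] at h1
    omega
  have h32 := Cfsg.Agent.S0391.result w.1 w.2 hw0
  omega

theorem MS.sq_iff (hM : MS z Q e ψ ζ) (v : leechLattice) (x : Q)
    (hv : ψ v = QuotientGroup.mk x) : x * x = 1 ↔ q0 v = 0 := by
  rw [← hM.qeq, ← sqv_of_mk hM.xs ψ v x hv]
  exact ind_eq_zero_iff.symm

theorem MS.short (hM : MS z Q e ψ ζ) (y : Q ⧸ Subgroup.center Q) :
    ∃ v : leechLattice, sqNorm (v : GolayPt → ℤ) ≤ 64 ∧ ψ v = y := by
  obtain ⟨v, hv⟩ := hM.ψ2 y
  obtain ⟨y', hy', hn, w, hw, hvw⟩ := short_rep v.1 v.2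
  refine ⟨⟨y', hy'⟩, hn, ?_⟩
  have h1 : v = ⟨y', hy'⟩ + ((⟨w, hw⟩ : leechLattice) + ⟨w, hw⟩) := by
    apply Subtype.ext
    show (v : GolayPt → ℤ) = y' + (w + w)
    rw [two_nsmul] at hvw
    rw [← hvw]
    abel
  rw [← hv, h1, hM.ψ_double]

/-- A non-central involution of `Q` is the image of a vector of squared length 32 or 64. -/
theorem MS.type (hM : MS z Q e ψ ζ) (x : Q) (hx : x * x = 1) (hxc : x ∉ Subgroup.center Q) :
    ∃ v : leechLattice, (sqNorm (v : GolayPt → ℤ) = 32 ∨ sqNorm (v : GolayPt → ℤ) = 64) ∧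
      ψ v = QuotientGroup.mk x := by
  obtain ⟨v, hn, hv⟩ := hM.short (QuotientGroup.mk x)
  refine ⟨v, ?_, hv⟩
  have hv0 : (v : GolayPt → ℤ) ≠ 0 := by
    intro h0
    have h1 : v = 0 := Subtype.ext h0
    rw [h1, hM.ψ0] at hv
    exact hxc ((QuotientGroup.eq_one_iff x).mp hv.symm)
  have h32 := Cfsg.Agent.S0391.result v.1 v.2 hv0
  have h16 := dvd_sqNorm v
  have hq : q0 v = 0 := (hM.sq_iff v x hv).mp hx
  have h48 : sqNorm (v : GolayPt → ℤ) ≠ 48 := by
    intro h
    unfold q0 at hq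
    rw [h, c3] at hq
    exact absurd hq (by decide)
  omega

/-- Conjugation inside the centralizer realizes the action of the lattice automorphisms. -/
theorem MS.conj_e (hM : MS z Q e ψ ζ) (x x' : Q) (v v' : leechLattice) (g : Co0)
    (hv : ψ v = QuotientGroup.mk x) (hv' : ψ v' = QuotientGroup.mk x') (hg : ψ (g • v) = ψ v')
    (hx' : x' ∉ Subgroup.center Q) :
    ∃ h : Subgroup.centralizer ({z} : Set G), e (QuotientGroup.mk h) = QuotientGroup.mk g ∧
      h * (x : Subgroup.centralizer ({z} : Set G)) * h⁻¹ =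
        (x' : Subgroup.centralizer ({z} : Set G)) := by
  have hX := hM.xs
  obtain ⟨hbar, hh⟩ := e.surjective (QuotientGroup.mk g)
  obtain ⟨h, rfl⟩ := QuotientGroup.mk_surjective hbar
  have h1 := hM.ψ4 h g hh.symm v x hv
  rw [hg, hv', QuotientGroup.eq] at h1
  rcases hX.ctr _ h1 with h2 | h2
  · refine ⟨h, hh, ?_⟩
    have h3 := congrArg Subtype.val (inv_mul_eq_one.mp h2)
    exact h3.symm
  · have hnc : ∃ y : Q, y * x' ≠ x' * y := by
      by_contra hcon
      push Not at hcon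
      exact hx' (Subgroup.mem_center_iff.mpr hcon)
    obtain ⟨y, hy⟩ := hnc
    have hcm : ⁅y, x'⁆ = ζ := by
      rcases hX.comm y x' with h4 | h4
      · exfalso
        exact hy (commutatorElement_eq_one_iff_mul_comm.mp h4)
      · exact h4
    have h5 : (⟨h * x * h⁻¹, (inferInstance : Q.Normal).conj_mem x x.2 h⟩ : Q) = x' * ζ := by
      rw [← h2]; group
    have h6 : y * x' * y⁻¹ = x' * ζ := by
      rw [hX.cen x', ← hcm, commutatorElement_def]; group
    have h7 : h * (x : Subgroup.centralizer ({z} : Set G)) * h⁻¹ =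
        (x' : Subgroup.centralizer ({z} : Set G)) * ζ := congrArg Subtype.val h5
    have h8 : (y : Subgroup.centralizer ({z} : Set G)) * x' * (y : Subgroup.centralizer ({z} : Set G))⁻¹ =
        (x' : Subgroup.centralizer ({z} : Set G)) * ζ := congrArg Subtype.val h6
    refine ⟨(y : Subgroup.centralizer ({z} : Set G))⁻¹ * h, ?_, ?_⟩
    · rw [← hh]
      congr 1
      rw [QuotientGroup.eq]
      have e1 : ((y : Subgroup.centralizer ({z} : Set G))⁻¹ * h)⁻¹ * h =
          h⁻¹ * (y : Subgroup.centralizer ({z} : Set G)) * h⁻¹⁻¹ := by group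
      rw [e1]
      exact (inferInstance : Q.Normal).conj_mem _ y.2 h⁻¹
    · calc (y : Subgroup.centralizer ({z} : Set G))⁻¹ * h * x *
            ((y : Subgroup.centralizer ({z} : Set G))⁻¹ * h)⁻¹
          = (y : Subgroup.centralizer ({z} : Set G))⁻¹ * (h * x * h⁻¹) * y := by group
        _ = (y : Subgroup.centralizer ({z} : Set G))⁻¹ *
            ((y : Subgroup.centralizer ({z} : Set G)) * x' *
              (y : Subgroup.centralizer ({z} : Set G))⁻¹) * y := by rw [h7, h8]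
        _ = x' := by group

/-- The centralizer of `z` is transitive on the lifts of the vectors of squared length 32, and on
the lifts of the vectors of squared length 64. -/
theorem MS.conj' (hM : MS z Q e ψ ζ) (x x' : Q) (v v' : leechLattice)
    (hv : ψ v = QuotientGroup.mk x) (hv' : ψ v' = QuotientGroup.mk x')
    (hx' : x' ∉ Subgroup.center Q)
    (hn : sqNorm (v : GolayPt → ℤ) = 32 ∧ sqNorm (v' : GolayPt → ℤ) = 32 ∨
      sqNorm (v : GolayPt → ℤ) = 64 ∧ sqNorm (v' : GolayPt → ℤ) = 64) :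
    ∃ h : Subgroup.centralizer ({z} : Set G),
      h * (x : Subgroup.centralizer ({z} : Set G)) * h⁻¹ =
        (x' : Subgroup.centralizer ({z} : Set G)) := by
  rcases hn with ⟨h1, h2⟩ | ⟨h1, h2⟩
  · obtain ⟨g, hg⟩ := trans_norm32 v v' h1 h2
    obtain ⟨h, -, hh⟩ := hM.conj_e x x' v v' g hv hv' (by rw [hg]) hx'
    exact ⟨h, hh⟩
  · obtain ⟨g, hg⟩ := trans_norm64 v v' h1 h2
    obtain ⟨h, -, hh⟩ := hM.conj_e x x' v v' g hv hv' (by rw [hg]) hx'
    exact ⟨h, hh⟩

end MSLemmas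

end Cfsg.Agent.Lib.Helper92
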