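-- Counting lemmas in extraspecial 2-groups (in the `XS` form of `Cfsg.Agent.S5408`).
import Mathlib
import Cfsg.Agent.S5408
import Cfsg.Agent.Lib.Helper92.ShortRep

set_option autoImplicit false
open Cfsg
open scoped commutatorElement

namespace Cfsg.Agent.Lib.Helper92

open Cfsg.Agent.S5408

section XSLemmas
variable {X : Type*} [Group X]

theorem cmv_eq_zero_iff (x y : X) : cmv x y = 0 ↔ x * y = y * x := by
  unfold cmv
  rw [ind_eq_zero_iff, commutatorElement_eq_one_iff_mul_comm]

theorem cmv_eq_one_iff {ζ : X} (h : XS X ζ) (x y : X) : cmv x y = 1 ↔ ⁅x, y⁆ = ζ := by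
  unfold cmv
  constructor
  · intro h1
    rcases h.comm x y with h2 | h2
    · rw [h2, ind_one] at h1
      exact absurd h1 (by decide)
    · exact h2
  · intro h1
    rw [h1, ind_of_ne h.ne]

theorem cmv_mul_left {ζ : X} (h : XS X ζ) (x x' y : X) : cmv (x * x') y = cmv x y + cmv x' y := by
  rw [cmv_symm, cmv_mul h, cmv_symm y x, cmv_symm y x']

theorem zmod2_01 (a : ZMod 2) : a = 0 ∨ a = 1 := by
  revert a
  decide

/-- In an extraspecial 2-group with more than 8 elements, the centralizer of any element is not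
abelian. -/
theorem exists_comm_pair [Finite X] {ζ : X} (h : XS X ζ) (hcard : 8 < Nat.card X) (b : X) :
    ∃ y₁ y₂ : X, y₁ * b = b * y₁ ∧ y₂ * b = b * y₂ ∧ ⁅y₁, y₂⁆ = ζ := by
  by_contra hcon
  push Not at hcon
  have hA : ∀ y₁ y₂ : X, cmv y₁ b = 0 → cmv y₂ b = 0 → cmv y₁ y₂ = 0 := by
    intro y₁ y₂ h1 h2
    rcases zmod2_01 (cmv y₁ y₂) with h3 | h3
    · exact h3
    · exact absurd ((cmv_eq_one_iff h _ _).mp h3)
        (hcon y₁ y₂ ((cmv_eq_zero_iff _ _).mp h1) ((cmv_eq_zero_iff _ _).mp h2))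
  obtain ⟨y₀, hy₀⟩ : ∃ y₀ : X, ∀ t : X, cmv t b = 1 → cmv y₀ b = 1 := by
    by_cases hex : ∃ y : X, cmv y b = 1
    · obtain ⟨y, hy⟩ := hex
      exact ⟨y, fun _ _ => hy⟩
    · exact ⟨1, fun t ht => absurd ⟨t, ht⟩ hex⟩
  have hcen : ∀ w : X, cmv w b = 0 → cmv w y₀ = 0 → w = 1 ∨ w = ζ := by
    intro w hw1 hw2
    apply h.ctr
    rw [Subgroup.mem_center_iff]
    intro t
    apply ((cmv_eq_zero_iff w t).mp _).symm
    rcases zmod2_01 (cmv t b) with ht | ht
    · exact hA w t hw1 ht
    · have h1 : cmv (y₀ * t) b = 0 := by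
        rw [cmv_mul_left h, hy₀ t ht, ht]
        decide
      have h2 := hA w (y₀ * t) hw1 h1
      rw [cmv_mul h, hw2, zero_add] at h2
      exact h2
  have hfib : ∀ a : X, {x | x ∈ (Set.univ : Set X) ∧
      (cmv x b, cmv x y₀) = (cmv a b, cmv a y₀)}.ncard ≤ 2 := by
    intro a
    have hsub : {x | x ∈ (Set.univ : Set X) ∧ (cmv x b, cmv x y₀) = (cmv a b, cmv a y₀)} ⊆
        {a, a * ζ} := by
      rintro x ⟨-, hx⟩
      have hx1 : cmv x b = cmv a b := congrArg Prod.fst hx
      have hx2 : cmv x y₀ = cmv a y₀ := congrArg Prod.snd hx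
      have e1 : cmv (a⁻¹ * x) b = 0 := by
        have h0 : cmv (a⁻¹ * a) b = 0 := by
          rw [inv_mul_cancel, cmv_eq_zero_iff, one_mul, mul_one]
        rw [cmv_mul_left h] at h0 ⊢
        rw [hx1]
        exact h0
      have e2 : cmv (a⁻¹ * x) y₀ = 0 := by
        have h0 : cmv (a⁻¹ * a) y₀ = 0 := by
          rw [inv_mul_cancel, cmv_eq_zero_iff, one_mul, mul_one]
        rw [cmv_mul_left h] at h0 ⊢
        rw [hx2]
        exact h0
      rcases hcen _ e1 e2 with h3 | h3
      · left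
        exact (inv_mul_eq_one.mp h3).symm
      · right
        rw [Set.mem_singleton_iff, ← h3]
        group
    calc _ ≤ ({a, a * ζ} : Set X).ncard := Set.ncard_le_ncard hsub (Set.toFinite _)
      _ ≤ ({a * ζ} : Set X).ncard + 1 := Set.ncard_insert_le _ _
      _ = 2 := by rw [Set.ncard_singleton]
  have h1 := ncard_le_mul_ncard_image (fun x : X => (cmv x b, cmv x y₀)) Set.univ
    (Set.toFinite _) 2 (fun a _ => hfib a)
  have h2 : ((fun x : X => (cmv x b, cmv x y₀)) '' Set.univ).ncard ≤ 4 := by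
    calc _ ≤ (Set.univ : Set (ZMod 2 × ZMod 2)).ncard :=
          Set.ncard_le_ncard (Set.subset_univ _) (Set.toFinite _)
      _ = 4 := by
          rw [Set.ncard_univ, Nat.card_eq_fintype_card]
          decide
  rw [Set.ncard_univ] at h1
  omega

/-- An element commuting with the whole centralizer of `x` is `1`, `ζ`, `x` or `x ζ`. -/
theorem double_centralizer {ζ : X} (h : XS X ζ) (x y : X)
    (hy : ∀ t : X, t * x = x * t → t * y = y * t) :
    y = 1 ∨ y = ζ ∨ y = x ∨ y = x * ζ := by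
  by_cases hc : y ∈ Subgroup.center X
  · rcases h.ctr y hc with h1 | h1
    · exact Or.inl h1
    · exact Or.inr (Or.inl h1)
  · right; right
    have hex : ∃ t₀ : X, cmv t₀ y = 1 := by
      by_contra hne
      push Not at hne
      apply hc
      rw [Subgroup.mem_center_iff]
      intro t
      rcases zmod2_01 (cmv t y) with h1 | h1
      · exact (cmv_eq_zero_iff t y).mp h1
      · exact absurd h1 (hne t)
    obtain ⟨t₀, ht₀⟩ := hex
    have ht₀x : cmv t₀ x = 1 := by
      rcases zmod2_01 (cmv t₀ x) with h1 | h1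
      · have h2 := (cmv_eq_zero_iff t₀ y).mpr (hy t₀ ((cmv_eq_zero_iff t₀ x).mp h1))
        rw [h2] at ht₀
        exact absurd ht₀ (by decide)
      · exact h1
    have hall : ∀ t : X, cmv t (y * x) = 0 := by
      intro t
      rw [cmv_mul h]
      rcases zmod2_01 (cmv t x) with h1 | h1
      · rw [h1, (cmv_eq_zero_iff t y).mpr (hy t ((cmv_eq_zero_iff t x).mp h1))]
        decide
      · have h2 : cmv (t₀ * t) x = 0 := by
          rw [cmv_mul_left h, ht₀x, h1]
          decide
        have h3 := (cmv_eq_zero_iff (t₀ * t) y).mpr (hy _ ((cmv_eq_zero_iff _ x).mp h2))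
        rw [cmv_mul_left h, ht₀] at h3
        rw [h1]
        rcases zmod2_01 (cmv t y) with h4 | h4
        · rw [h4] at h3
          exact absurd h3 (by decide)
        · rw [h4]
          decide
    have hyx : y * x ∈ Subgroup.center X := by
      rw [Subgroup.mem_center_iff]
      intro t
      exact (cmv_eq_zero_iff t (y * x)).mp (hall t)
    rcases h.ctr _ hyx with h1 | h1 <;> rcases h.sqm x with h2 | h2
    · -- y = x⁻¹ = x
      left
      have : y = x⁻¹ := eq_inv_of_mul_eq_one_left h1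
      rw [this]
      exact inv_eq_of_mul_eq_one_right h2
    · -- y = x⁻¹ = x ζ
      right
      have : y = x⁻¹ := eq_inv_of_mul_eq_one_left h1
      rw [this]
      apply inv_eq_of_mul_eq_one_right
      calc x * (x * ζ) = (x * x) * ζ := by group
        _ = 1 := by rw [h2, h.sq]
    · -- y = ζ x⁻¹ = ζ x = x ζ
      right
      have hx : x⁻¹ = x := inv_eq_of_mul_eq_one_right h2
      calc y = (y * x) * x⁻¹ := by group
        _ = ζ * x := by rw [h1, hx]
        _ = x * ζ := (h.cen x).symm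
    · -- y = ζ x⁻¹ = ζ x ζ = x
      left
      have hx : x⁻¹ = x * ζ := by
        apply inv_eq_of_mul_eq_one_right
        calc x * (x * ζ) = (x * x) * ζ := by group
          _ = 1 := by rw [h2, h.sq]
      calc y = (y * x) * x⁻¹ := by group
        _ = ζ * (x * ζ) := by rw [h1, hx]
        _ = x * (ζ * ζ) := by rw [← mul_assoc, ← h.cen x, mul_assoc]
        _ = x := by rw [h.sq, mul_one]

end XSLemmas

/-- An involution acting on a normal extraspecial 2-subgroup with more than 8 elements centralizes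
an element outside the centre of that subgroup. -/
theorem exists_fixed_noncentral {C : Type*} [Group C] (Q : Subgroup C) [hQn : Q.Normal] [Finite Q]
    {ζ : Q} (h : XS Q ζ) (hcard : 8 < Nat.card Q) (b : C) (hbb : b * b = 1) :
    ∃ y : Q, (y : C) * b = b * y ∧ y ≠ 1 ∧ y ≠ ζ := by
  by_contra hcon
  push Not at hcon
  have hbinv : b⁻¹ = b := inv_eq_of_mul_eq_one_right hbb
  obtain ⟨τ, hτ⟩ : ∃ τ : Q → Q, ∀ y : Q, ((τ y : Q) : C) = b * y * b⁻¹ :=
    ⟨fun y => ⟨b * y * b⁻¹, hQn.conj_mem y y.2 b⟩, fun y => rfl⟩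
  have hττ : ∀ y, τ (τ y) = y := by
    intro y
    apply Subtype.ext
    rw [hτ, hτ, hbinv]
    calc b * (b * (y : C) * b) * b = (b * b) * y * (b * b) := by group
      _ = y := by rw [hbb]; group
  have hτmul : ∀ y y' : Q, τ (y * y') = τ y * τ y' := by
    intro y y'
    apply Subtype.ext
    rw [Subgroup.coe_mul, hτ, hτ, hτ, Subgroup.coe_mul]
    group
  have hτinv : ∀ y : Q, τ y⁻¹ = (τ y)⁻¹ := by
    intro y
    apply Subtype.ext
    rw [Subgroup.coe_inv, hτ, hτ, Subgroup.coe_inv]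
    group
  have hfix : ∀ w : Q, τ w = w → w = 1 ∨ w = ζ := by
    intro w hw
    by_cases h1 : w = 1
    · exact Or.inl h1
    · right
      apply hcon w _ h1
      have h2 := congrArg Subtype.val hw
      rw [hτ] at h2
      calc (w : C) * b = (b * w * b⁻¹) * b := by rw [h2]
        _ = b * w := by group
  obtain ⟨c, hc⟩ : ∃ c : Q → Q, ∀ y, c y = y⁻¹ * τ y := ⟨fun y => y⁻¹ * τ y, fun _ => rfl⟩
  have hceq : ∀ y y' : Q, c y = c y' → y' = y ∨ y' = ζ * y := by
    intro y y' hyy
    rw [hc, hc] at hyy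
    have h1 : τ (y' * y⁻¹) = y' * y⁻¹ := by
      rw [hτmul, hτinv]
      have e : τ y' = y' * (y⁻¹ * τ y) := by rw [hyy]; group
      rw [e]
      group
    rcases hfix _ h1 with h2 | h2
    · left
      exact mul_inv_eq_one.mp h2
    · right
      rw [← h2]
      group
  have hfib : ∀ (s : Set Q) (a : Q), {x | x ∈ s ∧ c x = c a}.ncard ≤ 2 := by
    intro s a
    have hsub : {x | x ∈ s ∧ c x = c a} ⊆ {a, ζ * a} := by
      rintro x ⟨-, hx⟩
      rcases hceq a x hx.symm with h1 | h1
      · left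
        exact h1
      · right
        exact h1
    calc _ ≤ ({a, ζ * a} : Set Q).ncard := Set.ncard_le_ncard hsub (Set.toFinite _)
      _ ≤ ({ζ * a} : Set Q).ncard + 1 := Set.ncard_insert_le _ _
      _ = 2 := by rw [Set.ncard_singleton]
  have hW : ∀ y : Q, c (c y) = 1 ∨ c (c y) = ζ := by
    intro y
    have e : c (c y) = ((τ y)⁻¹ * y) * ((τ y)⁻¹ * y) := by
      rw [hc (c y), hc y, hτmul, hτinv, hττ]
      group
    rw [e]
    exact h.sqm _
  have h1 := ncard_le_mul_ncard_image c Set.univ (Set.toFinite _) 2 (fun a _ => hfib _ a)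
  have h2 : (c '' Set.univ).ncard ≤ {u : Q | c u = 1 ∨ c u = ζ}.ncard := by
    apply Set.ncard_le_ncard _ (Set.toFinite _)
    rintro _ ⟨y, -, rfl⟩
    exact hW y
  have h3 := ncard_le_mul_ncard_image c {u : Q | c u = 1 ∨ c u = ζ} (Set.toFinite _) 2
    (fun a _ => hfib _ a)
  have h4 : (c '' {u : Q | c u = 1 ∨ c u = ζ}).ncard ≤ 2 := by
    have hsub : c '' {u : Q | c u = 1 ∨ c u = ζ} ⊆ {1, ζ} := by
      rintro _ ⟨u, hu, rfl⟩
      rcases hu with hu | hu
      · left
        exact hu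
      · right
        exact hu
    calc _ ≤ ({1, ζ} : Set Q).ncard := Set.ncard_le_ncard hsub (Set.toFinite _)
      _ ≤ ({ζ} : Set Q).ncard + 1 := Set.ncard_insert_le _ _
      _ = 2 := by rw [Set.ncard_singleton]
  rw [Set.ncard_univ] at h1
  omega

/-- For an involution `b` normalizing an extraspecial 2-group `Q` with more than 8 elements: either
two elements of `C_Q(b)` have commutator `ζ`, or `b ∉ Q` and `b` centralizes a non-central element
of `Q`. -/
theorem invol_dichotomy {C : Type*} [Group C] (Q : Subgroup C) [Q.Normal] [Finite Q]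
    {ζ : Q} (h : XS Q ζ) (hcard : 8 < Nat.card Q) (b : C) (hbb : b * b = 1) :
    (∃ y₁ y₂ : Q, (y₁ : C) * b = b * y₁ ∧ (y₂ : C) * b = b * y₂ ∧ ⁅y₁, y₂⁆ = ζ) ∨
      (b ∉ Q ∧ ∃ y : Q, (y : C) * b = b * y ∧ y ≠ 1 ∧ y ≠ ζ) := by
  by_cases hb : b ∈ Q
  · left
    obtain ⟨y₁, y₂, h1, h2, h3⟩ := exists_comm_pair h hcard ⟨b, hb⟩
    exact ⟨y₁, y₂, congrArg Subtype.val h1, congrArg Subtype.val h2, h3⟩
  · right
    exact ⟨hb, exists_fixed_noncentral Q h hcard b hbb⟩

end Cfsg.Agent.Lib.Helper92
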