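-- In a group of Monster type, the lifts to `Q` of the vectors of squared length 32 (type 2) are
-- not conjugate to `z`.
import Mathlib
import Cfsg.Agent.Lib.Helper92.MonsterSetup
import Cfsg.Agent.Lib.Helper92.MonsterXS
import Cfsg.Agent.Lib.Helper92.Co2Core2

set_option autoImplicit false
open Cfsg
open scoped commutatorElement

namespace Cfsg.Agent.Lib.Helper92

open Cfsg.Agent.S5408 Cfsg.Agent.S5552 Cfsg.Agent.Lib.Helper10 Cfsg.Agent.S5392

/-- the central element `-1` of the automorphism group of the lattice -/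
def negC : Co0 := ⟨negPerm, negPerm_mem⟩

theorem negC_smul (v : leechLattice) : negC • v = -v := rfl

theorem negC_mem_center : negC ∈ Subgroup.center Co0 := by
  rw [Subgroup.mem_center_iff]
  intro g
  apply Subtype.ext
  apply Equiv.ext
  intro v
  show (g : Equiv.Perm leechLattice) (negPerm v) = negPerm ((g : Equiv.Perm leechLattice) v)
  rw [negPerm_apply, negPerm_apply, co0_map_neg g.2]

theorem center_co0_cases (c : Co0) (hc : c ∈ Subgroup.center Co0) : c = 1 ∨ c = negC := by
  rw [Subgroup.mem_center_iff] at hc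
  have hc' : ∀ g ∈ Co0, (c : Equiv.Perm leechLattice) * g = g * (c : Equiv.Perm leechLattice) := by
    intro g hg
    exact (congrArg Subtype.val (hc ⟨g, hg⟩)).symm
  rcases center_cases c.2 hc' with h | h
  · left
    exact Subtype.ext h
  · right
    exact Subtype.ext h

section NC
variable {G : Type*} [Group G] {z : G} {Q : Subgroup (Subgroup.centralizer ({z} : Set G))}
  [Q.Normal] {e : (Subgroup.centralizer ({z} : Set G)) ⧸ Q ≃* Spor.Co1}
  {ψ : leechLattice → Q ⧸ Subgroup.center Q} {ζ : Q}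

/-- The lattice automorphisms fixing `v` that are induced by elements of `R`. -/
def indSub (e : (Subgroup.centralizer ({z} : Set G)) ⧸ Q ≃* Spor.Co1) (v : leechLattice)
    (R : Subgroup G) : Subgroup Co0 where
  carrier := {γ | γ • v = v ∧ ∃ r ∈ R, ∃ hr : r ∈ Subgroup.centralizer ({z} : Set G),
      (QuotientGroup.mk γ : Spor.Co1) =
        e (QuotientGroup.mk (⟨r, hr⟩ : Subgroup.centralizer ({z} : Set G)))}
  one_mem' := ⟨one_smul _ _, 1, one_mem _, one_mem _, (map_one e).symm⟩
  mul_mem' := by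
    rintro a b ⟨ha, r, hr, hrc, hra⟩ ⟨hb, s, hs, hsc, hsb⟩
    refine ⟨by rw [mul_smul, hb, ha], r * s, mul_mem hr hs, mul_mem hrc hsc, ?_⟩
    rw [QuotientGroup.mk_mul, hra, hsb, ← map_mul]
    rfl
  inv_mem' := by
    rintro a ⟨ha, r, hr, hrc, hra⟩
    refine ⟨by rw [inv_smul_eq_iff, ha], r⁻¹, inv_mem hr, inv_mem hrc, ?_⟩
    rw [QuotientGroup.mk_inv, hra, ← map_inv]
    rfl

/-- A 2-subgroup of `G` normalized by `C_G(z) ∩ C_G(a)`, for `a` the lift to `Q` of a vector of
squared length 32, and contained in `C_G(z) ∩ C_G(a)`, lies in `Q`. -/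
theorem normal_two_le (hM : MS z Q e ψ ζ) (x : Q) (v : leechLattice)
    (hv : sqNorm (v : GolayPt → ℤ) = 32) (hxv : ψ v = QuotientGroup.mk x) (R : Subgroup G)
    (hR1 : ∀ r ∈ R, r * z = z * r ∧
      r * ((x : Subgroup.centralizer ({z} : Set G)) : G) =
        ((x : Subgroup.centralizer ({z} : Set G)) : G) * r)
    (hR2 : ∀ d : G, d * z = z * d →
      d * ((x : Subgroup.centralizer ({z} : Set G)) : G) =
        ((x : Subgroup.centralizer ({z} : Set G)) : G) * d → ∀ r ∈ R, d * r * d⁻¹ ∈ R)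
    (hR3 : ∀ r ∈ R, ∃ k : ℕ, r ^ 2 ^ k = 1) :
    ∀ r ∈ R, ∃ hr : r ∈ Subgroup.centralizer ({z} : Set G),
      (⟨r, hr⟩ : Subgroup.centralizer ({z} : Set G)) ∈ Q := by
  have hxc : x ∉ Subgroup.center Q := hM.noncentral v x hxv (Or.inl hv)
  have hcent : ∀ r : G, r * z = z * r → r ∈ Subgroup.centralizer ({z} : Set G) := by
    intro r hr
    rw [Subgroup.mem_centralizer_iff]
    intro y hy
    rw [Set.mem_singleton_iff.mp hy]
    exact hr.symm
  have hv0 : v ≠ -v := by
    intro h
    have h1 : (v : GolayPt → ℤ) = 0 := by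
      have h2 : (v : GolayPt → ℤ) = -(v : GolayPt → ℤ) := congrArg Subtype.val h
      funext p
      have h3 := congrFun h2 p
      simp only [Pi.neg_apply, Pi.zero_apply] at h3 ⊢
      omega
    rw [h1] at hv
    simp [sqNorm] at hv
  have hNfix : ∀ γ ∈ indSub e v R, γ • v = v := fun γ hγ => hγ.1
  have hNnorm : ∀ σ : Co0, σ • v = v → ∀ γ ∈ indSub e v R, σ * γ * σ⁻¹ ∈ indSub e v R := by
    rintro σ hσ γ ⟨hγ, r, hr, hrc, hrγ⟩
    refine ⟨by rw [mul_smul, mul_smul, inv_smul_eq_iff.mpr hσ.symm, hγ, hσ], ?_⟩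
    obtain ⟨h, hh, hhx⟩ := hM.conj_e x x v v σ hxv hxv (by rw [hσ]) hxc
    have hd1 : (h : G) * z = z * h := (Subgroup.mem_centralizer_iff.mp h.2 z rfl).symm
    have hd2 : (h : G) * ((x : Subgroup.centralizer ({z} : Set G)) : G) =
        ((x : Subgroup.centralizer ({z} : Set G)) : G) * h := by
      have h1 : (h : G) * ((x : Subgroup.centralizer ({z} : Set G)) : G) * (h : G)⁻¹ =
          ((x : Subgroup.centralizer ({z} : Set G)) : G) := congrArg Subtype.val hhx
      calc (h : G) * ((x : Subgroup.centralizer ({z} : Set G)) : G)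
          = ((h : G) * ((x : Subgroup.centralizer ({z} : Set G)) : G) * (h : G)⁻¹) * h := by group
        _ = ((x : Subgroup.centralizer ({z} : Set G)) : G) * h := by rw [h1]
    refine ⟨(h : G) * r * (h : G)⁻¹, hR2 _ hd1 hd2 r hr, mul_mem (mul_mem h.2 hrc) (inv_mem h.2), ?_⟩
    rw [QuotientGroup.mk_mul, QuotientGroup.mk_mul, QuotientGroup.mk_inv, hrγ, ← hh, ← map_mul,
      ← map_inv, ← map_mul]
    rfl
  have hN2 : ∀ γ ∈ indSub e v R, ∃ k : ℕ, γ ^ 2 ^ k = 1 := by
    rintro γ ⟨hγ, r, hr, hrc, hrγ⟩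
    obtain ⟨k, hk⟩ := hR3 r hr
    refine ⟨k, ?_⟩
    have h1 : (QuotientGroup.mk (γ ^ 2 ^ k) : Spor.Co1) = 1 := by
      rw [QuotientGroup.mk_pow, hrγ, ← map_pow]
      have h2 : (QuotientGroup.mk (⟨r, hrc⟩ : Subgroup.centralizer ({z} : Set G)) :
          (Subgroup.centralizer ({z} : Set G)) ⧸ Q) ^ 2 ^ k = 1 := by
        rw [← QuotientGroup.mk_pow]
        have h3 : (⟨r, hrc⟩ : Subgroup.centralizer ({z} : Set G)) ^ 2 ^ k = 1 := by
          apply Subtype.ext
          rw [Subgroup.coe_pow]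
          exact hk
        rw [h3]
        rfl
      rw [h2, map_one]
    rcases center_co0_cases _ ((QuotientGroup.eq_one_iff _).mp h1) with h2 | h2
    · exact h2
    · exfalso
      have h3 : γ ∈ MulAction.stabilizer Co0 v := hγ
      have h4 : (γ ^ 2 ^ k) • v = v := pow_mem h3 _
      rw [h2, negC_smul] at h4
      exact hv0 h4.symm
  have hN1 := no_normal_two v hv (indSub e v R) hNfix hNnorm hN2
  intro r hr
  have hrc := hcent r (hR1 r hr).1
  refine ⟨hrc, ?_⟩
  obtain ⟨γ₀, hγ₀⟩ := QuotientGroup.mk_surjective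
    (e (QuotientGroup.mk (⟨r, hrc⟩ : Subgroup.centralizer ({z} : Set G))))
  have h1 := hM.ψ4 ⟨r, hrc⟩ γ₀ hγ₀ v x hxv
  have h2 : (⟨(⟨r, hrc⟩ : Subgroup.centralizer ({z} : Set G)) * x *
      (⟨r, hrc⟩ : Subgroup.centralizer ({z} : Set G))⁻¹,
      (inferInstance : Q.Normal).conj_mem (x : Subgroup.centralizer ({z} : Set G)) x.2 _⟩ : Q) = x := by
    apply Subtype.ext
    apply Subtype.ext
    show r * ((x : Subgroup.centralizer ({z} : Set G)) : G) * r⁻¹ =
      ((x : Subgroup.centralizer ({z} : Set G)) : G)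
    rw [(hR1 r hr).2]
    group
  rw [h2, ← hxv] at h1
  have hpm : γ₀ • v = v ∨ γ₀ • v = -v := by
    by_cases hne : ((γ₀ • v : leechLattice) : GolayPt → ℤ) = (v : GolayPt → ℤ)
    · exact Or.inl (Subtype.ext hne)
    · right
      have hn : sqNorm ((γ₀ • v : leechLattice) : GolayPt → ℤ) = 32 := by rw [co0_norm, hv]
      rcases Cfsg.Agent.S5592.result _ _ (γ₀ • v).2 v.2 hne (by rw [hn]; norm_num)
        (by rw [hv]; norm_num) (hM.ψ_eq _ _ h1) with h3 | ⟨h3, -, -⟩
      · exact Subtype.ext h3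
      · rw [hn] at h3
        exact absurd h3 (by norm_num)
  have hone : (QuotientGroup.mk γ₀ : Spor.Co1) = 1 := by
    rcases hpm with h3 | h3
    · have hmem : γ₀ ∈ indSub e v R := ⟨h3, r, hr, hrc, hγ₀⟩
      rw [hN1 γ₀ hmem]
      rfl
    · have hmem : negC * γ₀ ∈ indSub e v R := by
        refine ⟨by rw [mul_smul, h3, negC_smul, neg_neg], r, hr, hrc, ?_⟩
        rw [QuotientGroup.mk_mul, (QuotientGroup.eq_one_iff _).mpr negC_mem_center, one_mul, hγ₀]
      have h4 := hN1 _ hmem
      have h5 : (QuotientGroup.mk (negC * γ₀) : Spor.Co1) = 1 := by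
        rw [h4]
        rfl
      rwa [QuotientGroup.mk_mul, (QuotientGroup.eq_one_iff _).mpr negC_mem_center, one_mul] at h5
  rw [hγ₀] at hone
  have h6 := (MulEquiv.map_eq_one_iff e).mp hone
  exact (QuotientGroup.eq_one_iff _).mp h6

/-- In a group of Monster type, the lift to `Q` of a lattice vector of squared length 32 is not
conjugate to `z`. -/
theorem not_conj_of_norm32 [Finite G] (hM : MS z Q e ψ ζ) (x : Q) (v : leechLattice)
    (hv : sqNorm (v : GolayPt → ℤ) = 32) (hxv : ψ v = QuotientGroup.mk x) :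
    ¬ IsConj z ((x : Subgroup.centralizer ({z} : Set G)) : G) := by
  intro hconj
  obtain ⟨g, hg⟩ := isConj_iff.mp hconj
  have hX := hM.xs
  have hxc := hM.noncentral v x hxv (Or.inl hv)
  obtain ⟨a, ha⟩ : ∃ a : G, a = ((x : Subgroup.centralizer ({z} : Set G)) : G) := ⟨_, rfl⟩
  rw [← ha] at hg
  have hcent : ∀ r : G, r * z = z * r → r ∈ Subgroup.centralizer ({z} : Set G) := by
    intro r hr
    rw [Subgroup.mem_centralizer_iff]
    intro y hy
    rw [Set.mem_singleton_iff.mp hy]
    exact hr.symm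
  have hcomz : ∀ c : Subgroup.centralizer ({z} : Set G), (c : G) * z = z * c :=
    fun c => (Subgroup.mem_centralizer_iff.mp c.2 z rfl).symm
  have haz : a * z = z * a := by
    rw [ha]
    exact hcomz _
  -- conjugating back by `g`
  have hback : ∀ d : G, d * a = a * d → (g⁻¹ * d * g) * z = z * (g⁻¹ * d * g) := by
    intro d hd
    have h1 : g * ((g⁻¹ * d * g) * z) * g⁻¹ = g * (z * (g⁻¹ * d * g)) * g⁻¹ := by
      calc g * ((g⁻¹ * d * g) * z) * g⁻¹ = d * (g * z * g⁻¹) := by group
        _ = (g * z * g⁻¹) * d := by rw [hg, hd]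
        _ = g * (z * (g⁻¹ * d * g)) * g⁻¹ := by group
    exact mul_left_cancel (mul_right_cancel h1)
  have hforth : ∀ q : G, q * (g⁻¹ * z * g) = (g⁻¹ * z * g) * q →
      (g * q * g⁻¹) * z = z * (g * q * g⁻¹) := by
    intro q hq
    calc (g * q * g⁻¹) * z = g * (q * (g⁻¹ * z * g)) * g⁻¹ := by group
      _ = g * ((g⁻¹ * z * g) * q) * g⁻¹ := by rw [hq]
      _ = z * (g * q * g⁻¹) := by group
  obtain ⟨R, hRdef⟩ : ∃ R : Subgroup G,
      R = (Q.map (Subgroup.centralizer ({z} : Set G)).subtype).map (MulAut.conj g).toMonoidHom ⊓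
        Subgroup.centralizer ({z} : Set G) := ⟨_, rfl⟩
  have hRmem : ∀ r : G, r ∈ R ↔
      (∃ q : Q, r = g * ((q : Subgroup.centralizer ({z} : Set G)) : G) * g⁻¹) ∧ r * z = z * r := by
    intro r
    rw [hRdef, Subgroup.mem_inf, Subgroup.mem_map, Subgroup.mem_centralizer_iff]
    constructor
    · rintro ⟨⟨y, hy, rfl⟩, h2⟩
      obtain ⟨q, hq, rfl⟩ := Subgroup.mem_map.mp hy
      exact ⟨⟨⟨q, hq⟩, rfl⟩, (h2 z rfl).symm⟩
    · rintro ⟨⟨q, rfl⟩, h2⟩
      refine ⟨⟨((q : Subgroup.centralizer ({z} : Set G)) : G),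
        Subgroup.mem_map.mpr ⟨q, q.2, rfl⟩, rfl⟩, ?_⟩
      intro y hy
      rw [Set.mem_singleton_iff.mp hy]
      exact h2.symm
  have hR1 : ∀ r ∈ R, r * z = z * r ∧
      r * ((x : Subgroup.centralizer ({z} : Set G)) : G) =
        ((x : Subgroup.centralizer ({z} : Set G)) : G) * r := by
    intro r hr
    obtain ⟨⟨q, rfl⟩, h2⟩ := (hRmem r).mp hr
    refine ⟨h2, ?_⟩
    rw [← ha, ← hg]
    calc g * ((q : Subgroup.centralizer ({z} : Set G)) : G) * g⁻¹ * (g * z * g⁻¹)
        = g * (((q : Subgroup.centralizer ({z} : Set G)) : G) * z) * g⁻¹ := by group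
      _ = g * (z * ((q : Subgroup.centralizer ({z} : Set G)) : G)) * g⁻¹ := by rw [hcomz]
      _ = g * z * g⁻¹ * (g * ((q : Subgroup.centralizer ({z} : Set G)) : G) * g⁻¹) := by group
  have hR2 : ∀ d : G, d * z = z * d →
      d * ((x : Subgroup.centralizer ({z} : Set G)) : G) =
        ((x : Subgroup.centralizer ({z} : Set G)) : G) * d → ∀ r ∈ R, d * r * d⁻¹ ∈ R := by
    intro d hdz hda r hr
    rw [← ha] at hda
    obtain ⟨⟨q, rfl⟩, h2⟩ := (hRmem r).mp hr
    rw [hRmem]
    constructor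
    · obtain ⟨d', hd'⟩ : ∃ d' : Subgroup.centralizer ({z} : Set G), (d' : G) = g⁻¹ * d * g :=
        ⟨⟨g⁻¹ * d * g, hcent _ (hback d hda)⟩, rfl⟩
      refine ⟨⟨d' * q * d'⁻¹, (inferInstance : Q.Normal).conj_mem _ q.2 d'⟩, ?_⟩
      show _ = g * ((d' : G) * ((q : Subgroup.centralizer ({z} : Set G)) : G) * (d' : G)⁻¹) * g⁻¹
      rw [hd']
      group
    · have hdz' : d⁻¹ * z = z * d⁻¹ := by
        calc d⁻¹ * z = d⁻¹ * (z * d) * d⁻¹ := by group
          _ = d⁻¹ * (d * z) * d⁻¹ := by rw [hdz]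
          _ = z * d⁻¹ := by group
      calc d * (g * ((q : Subgroup.centralizer ({z} : Set G)) : G) * g⁻¹) * d⁻¹ * z
          = d * (g * ((q : Subgroup.centralizer ({z} : Set G)) : G) * g⁻¹) * (d⁻¹ * z) := by group
        _ = d * ((g * ((q : Subgroup.centralizer ({z} : Set G)) : G) * g⁻¹) * z) * d⁻¹ := by
            rw [hdz']; group
        _ = (d * z) * (g * ((q : Subgroup.centralizer ({z} : Set G)) : G) * g⁻¹) * d⁻¹ := by
            rw [h2]; group
        _ = z * (d * (g * ((q : Subgroup.centralizer ({z} : Set G)) : G) * g⁻¹) * d⁻¹) := by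
            rw [hdz]; group
  have hR3 : ∀ r ∈ R, ∃ k : ℕ, r ^ 2 ^ k = 1 := by
    intro r hr
    obtain ⟨⟨q, rfl⟩, -⟩ := (hRmem r).mp hr
    refine ⟨2, ?_⟩
    have h4 : (q * q) * (q * q) = 1 := by
      rcases hX.sqm q with h | h
      · rw [h, one_mul]
      · rw [h, hX.sq]
    have h5 : ((q : Subgroup.centralizer ({z} : Set G)) : G) ^ 2 ^ 2 = 1 := by
      have h6 : (((q * q) * (q * q) : Q) : Subgroup.centralizer ({z} : Set G)) = 1 := by
        rw [h4]; rfl
      have h7 : ((q : Subgroup.centralizer ({z} : Set G)) : G) *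
            ((q : Subgroup.centralizer ({z} : Set G)) : G) *
            (((q : Subgroup.centralizer ({z} : Set G)) : G) *
            ((q : Subgroup.centralizer ({z} : Set G)) : G)) = 1 := congrArg Subtype.val h6
      rw [show (2 : ℕ) ^ 2 = 2 * 2 from rfl, pow_mul, pow_two, pow_two]
      exact h7
    show (g * ((q : Subgroup.centralizer ({z} : Set G)) : G) * g⁻¹) ^ 2 ^ 2 = 1
    rw [conj_pow, h5]
    group
  have hY := normal_two_le hM x v hv hxv R hR1 hR2 hR3
  -- the conjugate `b` of `z`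
  obtain ⟨b, hb⟩ : ∃ b : G, b = g⁻¹ * z * g := ⟨_, rfl⟩
  have hbz : b * z = z * b := by
    rw [hb]
    apply hback z
    exact haz.symm
  obtain ⟨bC, hbC⟩ : ∃ bC : Subgroup.centralizer ({z} : Set G), (bC : G) = b :=
    ⟨⟨b, hcent b hbz⟩, rfl⟩
  have hbb : bC * bC = 1 := by
    apply Subtype.ext
    show (bC : G) * (bC : G) = 1
    rw [hbC, hb]
    calc g⁻¹ * z * g * (g⁻¹ * z * g) = g⁻¹ * (z * z) * g := by group
      _ = 1 := by rw [hM.zz]; group
  have hx1 : a ≠ 1 := by
    intro h
    apply hxc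
    rw [hM.center_iff]
    left
    apply Subtype.ext
    apply Subtype.ext
    rw [← ha, h]
    rfl
  have hxz : a ≠ z := by
    intro h
    apply hxc
    rw [hM.center_iff]
    right
    apply Subtype.ext
    apply Subtype.ext
    rw [← ha, h, hM.ζz]
  have hcard8 : 8 < Nat.card Q := by
    rw [hM.card]
    norm_num
  rcases invol_dichotomy Q hX hcard8 bC hbb with ⟨y₁, y₂, h1, h2, h3⟩ | ⟨hbQ, y, h1, hy1, hyζ⟩
  · -- first case: two elements of `C_Q(b)` with commutator `ζ`
    have hmemR : ∀ y : Q, (y : Subgroup.centralizer ({z} : Set G)) * bC = bC * y →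
        g * ((y : Subgroup.centralizer ({z} : Set G)) : G) * g⁻¹ ∈ R := by
      intro y hy
      rw [hRmem]
      refine ⟨⟨y, rfl⟩, ?_⟩
      apply hforth
      have h4 : ((y : Subgroup.centralizer ({z} : Set G)) : G) * (bC : G) =
          (bC : G) * ((y : Subgroup.centralizer ({z} : Set G)) : G) := congrArg Subtype.val hy
      rw [hbC, hb] at h4
      exact h4
    obtain ⟨hr₁, hq₁⟩ := hY _ (hmemR y₁ h1)
    obtain ⟨hr₂, hq₂⟩ := hY _ (hmemR y₂ h2)
    obtain ⟨q₁, hq₁'⟩ : ∃ q₁ : Q, ((q₁ : Subgroup.centralizer ({z} : Set G)) : G) =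
        g * ((y₁ : Subgroup.centralizer ({z} : Set G)) : G) * g⁻¹ := ⟨⟨⟨_, hr₁⟩, hq₁⟩, rfl⟩
    obtain ⟨q₂, hq₂'⟩ : ∃ q₂ : Q, ((q₂ : Subgroup.centralizer ({z} : Set G)) : G) =
        g * ((y₂ : Subgroup.centralizer ({z} : Set G)) : G) * g⁻¹ := ⟨⟨⟨_, hr₂⟩, hq₂⟩, rfl⟩
    have hcoe : ∀ p q : Q, (((⁅p, q⁆ : Q) : Subgroup.centralizer ({z} : Set G)) : G) =
        ⁅((p : Subgroup.centralizer ({z} : Set G)) : G),
          ((q : Subgroup.centralizer ({z} : Set G)) : G)⁆ := by
      intro p q
      rw [commutatorElement_def, commutatorElement_def]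
      rfl
    have h5 : (((⁅q₁, q₂⁆ : Q) : Subgroup.centralizer ({z} : Set G)) : G) = a := by
      rw [hcoe, hq₁', hq₂', ← hg]
      have h6 := hcoe y₁ y₂
      rw [h3, hM.ζz] at h6
      calc ⁅g * ((y₁ : Subgroup.centralizer ({z} : Set G)) : G) * g⁻¹,
            g * ((y₂ : Subgroup.centralizer ({z} : Set G)) : G) * g⁻¹⁆
          = g * ⁅((y₁ : Subgroup.centralizer ({z} : Set G)) : G),
              ((y₂ : Subgroup.centralizer ({z} : Set G)) : G)⁆ * g⁻¹ := by
            simp only [commutatorElement_def]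
            group
        _ = g * z * g⁻¹ := by rw [h6.symm]
    rcases hX.comm q₁ q₂ with h6 | h6
    · rw [h6] at h5
      exact hx1 h5.symm
    · rw [h6, hM.ζz] at h5
      exact hxz h5.symm
  · -- second case: `b ∉ Q` centralizes a non-central element of `Q`
    have hmemR : g * ((y : Subgroup.centralizer ({z} : Set G)) : G) * g⁻¹ ∈ R := by
      rw [hRmem]
      refine ⟨⟨y, rfl⟩, ?_⟩
      apply hforth
      have h4 : ((y : Subgroup.centralizer ({z} : Set G)) : G) * (bC : G) =
          (bC : G) * ((y : Subgroup.centralizer ({z} : Set G)) : G) := congrArg Subtype.val h1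
      rw [hbC, hb] at h4
      exact h4
    obtain ⟨hr, hq⟩ := hY _ hmemR
    obtain ⟨yq, hyq⟩ : ∃ yq : Q, ((yq : Subgroup.centralizer ({z} : Set G)) : G) =
        g * ((y : Subgroup.centralizer ({z} : Set G)) : G) * g⁻¹ := ⟨⟨⟨_, hr⟩, hq⟩, rfl⟩
    have hcomm : ∀ t : Q, t * x = x * t → t * yq = yq * t := by
      intro t ht
      rcases hX.comm t yq with h | h
      · exact commutatorElement_eq_one_iff_mul_comm.mp h
      · exfalso
        apply hbQ
        have hta : ((t : Subgroup.centralizer ({z} : Set G)) : G) * a =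
            a * ((t : Subgroup.centralizer ({z} : Set G)) : G) := by
          rw [ha]
          exact congrArg (fun u : Q => ((u : Subgroup.centralizer ({z} : Set G)) : G)) ht
        obtain ⟨t', ht'⟩ : ∃ t' : Subgroup.centralizer ({z} : Set G),
            (t' : G) = g⁻¹ * ((t : Subgroup.centralizer ({z} : Set G)) : G) * g :=
          ⟨⟨_, hcent _ (hback _ hta)⟩, rfl⟩
        have hmem : t' * (y : Subgroup.centralizer ({z} : Set G)) * t'⁻¹ *
            (y : Subgroup.centralizer ({z} : Set G))⁻¹ ∈ Q :=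
          mul_mem ((inferInstance : Q.Normal).conj_mem _ y.2 t') (inv_mem y.2)
        have heq : t' * (y : Subgroup.centralizer ({z} : Set G)) * t'⁻¹ *
            (y : Subgroup.centralizer ({z} : Set G))⁻¹ = bC := by
          apply Subtype.ext
          show (t' : G) * ((y : Subgroup.centralizer ({z} : Set G)) : G) * (t' : G)⁻¹ *
            ((y : Subgroup.centralizer ({z} : Set G)) : G)⁻¹ = (bC : G)
          have h7 : (((⁅t, yq⁆ : Q) : Subgroup.centralizer ({z} : Set G)) : G) = z := by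
            rw [h, hM.ζz]
          have h8 : (((⁅t, yq⁆ : Q) : Subgroup.centralizer ({z} : Set G)) : G) =
              ((t : Subgroup.centralizer ({z} : Set G)) : G) *
              ((yq : Subgroup.centralizer ({z} : Set G)) : G) *
              ((t : Subgroup.centralizer ({z} : Set G)) : G)⁻¹ *
              ((yq : Subgroup.centralizer ({z} : Set G)) : G)⁻¹ := by
            rw [commutatorElement_def]
            rfl
          rw [h8, hyq] at h7
          rw [ht', hbC, hb]
          calc g⁻¹ * ((t : Subgroup.centralizer ({z} : Set G)) : G) * g *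
                ((y : Subgroup.centralizer ({z} : Set G)) : G) *
                (g⁻¹ * ((t : Subgroup.centralizer ({z} : Set G)) : G) * g)⁻¹ *
                ((y : Subgroup.centralizer ({z} : Set G)) : G)⁻¹
              = g⁻¹ * (((t : Subgroup.centralizer ({z} : Set G)) : G) *
                (g * ((y : Subgroup.centralizer ({z} : Set G)) : G) * g⁻¹) *
                ((t : Subgroup.centralizer ({z} : Set G)) : G)⁻¹ *
                (g * ((y : Subgroup.centralizer ({z} : Set G)) : G) * g⁻¹)⁻¹) * g := by group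
            _ = g⁻¹ * z * g := by rw [h7]
        rw [← heq]
        exact hmem
    rcases double_centralizer hX x yq hcomm with h | h | h | h
    · -- yq = 1
      apply hy1
      have h4 : g * ((y : Subgroup.centralizer ({z} : Set G)) : G) * g⁻¹ = 1 := by
        rw [← hyq, h]
        rfl
      apply Subtype.ext
      apply Subtype.ext
      exact conj_eq_one_iff.mp h4
    · -- yq = ζ
      apply hbQ
      have h4 : g * ((y : Subgroup.centralizer ({z} : Set G)) : G) * g⁻¹ = z := by
        rw [← hyq, h, hM.ζz]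
      have h5 : (y : Subgroup.centralizer ({z} : Set G)) = bC := by
        apply Subtype.ext
        rw [hbC, hb]
        calc ((y : Subgroup.centralizer ({z} : Set G)) : G)
            = g⁻¹ * (g * ((y : Subgroup.centralizer ({z} : Set G)) : G) * g⁻¹) * g := by group
          _ = g⁻¹ * z * g := by rw [h4]
      rw [← h5]
      exact y.2
    · -- yq = x
      apply hyζ
      have h4 : g * ((y : Subgroup.centralizer ({z} : Set G)) : G) * g⁻¹ = g * z * g⁻¹ := by
        rw [← hyq, h, hg, ha]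
      apply Subtype.ext
      apply Subtype.ext
      rw [hM.ζz]
      exact mul_left_cancel (mul_right_cancel h4)
    · -- yq = x ζ
      apply hbQ
      have h4 : g * ((y : Subgroup.centralizer ({z} : Set G)) : G) * g⁻¹ = g * z * g⁻¹ * z := by
        rw [← hyq, h, hg, ha]
        show ((x : Subgroup.centralizer ({z} : Set G)) : G) *
          ((ζ : Subgroup.centralizer ({z} : Set G)) : G) = _
        rw [hM.ζz]
      have h5 : (ζ : Subgroup.centralizer ({z} : Set G))⁻¹ *
          (y : Subgroup.centralizer ({z} : Set G)) = bC := by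
        apply Subtype.ext
        show ((ζ : Subgroup.centralizer ({z} : Set G)) : G)⁻¹ *
          ((y : Subgroup.centralizer ({z} : Set G)) : G) = (bC : G)
        rw [hM.ζz, hbC, hb]
        have h6 : ((y : Subgroup.centralizer ({z} : Set G)) : G) = z * (g⁻¹ * z * g) := by
          calc ((y : Subgroup.centralizer ({z} : Set G)) : G)
              = g⁻¹ * (g * ((y : Subgroup.centralizer ({z} : Set G)) : G) * g⁻¹) * g := by group
            _ = g⁻¹ * (g * z * g⁻¹ * z) * g := by rw [h4]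
            _ = z * (g⁻¹ * z * g) := by group
        rw [h6]
        group
      rw [← h5]
      exact mul_mem (inv_mem ζ.2) y.2

/-- In a group of Monster type, a conjugate of `z` in `Q` other than `z` is the lift of a lattice
vector of squared length 64. -/
theorem type4_of_conj [Finite G] (hM : MS z Q e ψ ζ) (x : Q)
    (hc : IsConj z ((x : Subgroup.centralizer ({z} : Set G)) : G))
    (hne : ((x : Subgroup.centralizer ({z} : Set G)) : G) ≠ z) :
    ∃ v : leechLattice, sqNorm (v : GolayPt → ℤ) = 64 ∧ ψ v = QuotientGroup.mk x := by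
  obtain ⟨g, hg⟩ := isConj_iff.mp hc
  have hxx : x * x = 1 := by
    apply Subtype.ext
    apply Subtype.ext
    show ((x : Subgroup.centralizer ({z} : Set G)) : G) *
      ((x : Subgroup.centralizer ({z} : Set G)) : G) = 1
    rw [← hg]
    calc g * z * g⁻¹ * (g * z * g⁻¹) = g * (z * z) * g⁻¹ := by group
      _ = 1 := by rw [hM.zz]; group
  have hxc : x ∉ Subgroup.center Q := by
    rw [hM.center_iff]
    rintro (h | h)
    · have h1 : g * z * g⁻¹ = 1 := by
        rw [hg, h]
        rfl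
      exact hM.z1 (conj_eq_one_iff.mp h1)
    · apply hne
      rw [h, hM.ζz]
  obtain ⟨v, hn, hv⟩ := hM.type x hxx hxc
  rcases hn with h32 | h64
  · exact absurd hc (not_conj_of_norm32 hM x v h32 hv)
  · exact ⟨v, h64, hv⟩

end NC

end Cfsg.Agent.Lib.Helper92
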