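-- Blocks of a normal subgroup of the automorphism group of the rank-24 lattice on the minimal
-- vectors: the orbit of a minimal vector `v` is `{v, -v}` or everything.
import Mathlib
import Cfsg.Agent.S0391
import Cfsg.Agent.S5392
import Cfsg.Agent.Lib.Helper92.MonsterNC
import Cfsg.Agent.Lib.Helper10.PairTrans8
import Cfsg.Agent.Lib.Helper10.OrthPairs
import Cfsg.Agent.Lib.Helper10.DotCountNum
import Cfsg.Agent.Lib.Helper10.LeechCountNum

set_option autoImplicit false
open Cfsg

namespace Cfsg.Agent.Lib.Helper92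

open Cfsg.Agent.S5552 Cfsg.Agent.Lib.Helper10 Cfsg.Agent.S5392

/-- The orbit of a point under a normal subgroup has size dividing the size of its orbit under
the whole group. -/
theorem normal_orbit_dvd {G X : Type*} [Group G] [MulAction G X] (N : Subgroup G) [N.Normal]
    (x0 : X) :
    {w : X | ∃ n ∈ N, n • x0 = w}.ncard ∣ (MulAction.orbit G x0).ncard := by
  have h1 : MulAction.orbit ↥(N ⊔ MulAction.stabilizer G x0) x0 =
      {w : X | ∃ n ∈ N, n • x0 = w} := by
    ext w
    constructor
    · rintro ⟨⟨s, hs⟩, rfl⟩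
      obtain ⟨n, hn, k, hk, rfl⟩ := Subgroup.mem_sup_of_normal_left.mp hs
      refine ⟨n, hn, ?_⟩
      show n • x0 = (n * k) • x0
      rw [mul_smul, MulAction.mem_stabilizer_iff.mp hk]
    · rintro ⟨n, hn, rfl⟩
      exact ⟨⟨n, Subgroup.mem_sup_left hn⟩, rfl⟩
  have h2 : MulAction.stabilizer ↥(N ⊔ MulAction.stabilizer G x0) x0 =
      (MulAction.stabilizer G x0).subgroupOf (N ⊔ MulAction.stabilizer G x0) := by
    ext s
    rw [MulAction.mem_stabilizer_iff, Subgroup.mem_subgroupOf, MulAction.mem_stabilizer_iff]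
    rfl
  rw [← h1, ← MulAction.index_stabilizer, h2, ← MulAction.index_stabilizer]
  exact Dvd.intro _ (Subgroup.relIndex_mul_index le_sup_right)

theorem sqNorm_neg' (x : GolayPt → ℤ) : sqNorm (-x) = sqNorm x := by
  simp only [sqNorm, Pi.neg_apply, neg_sq]

/-- The possible inner products of two minimal vectors. -/
theorem min_dot_cases (v w : leechLattice) (hv : sqNorm (v : GolayPt → ℤ) = 32)
    (hw : sqNorm (w : GolayPt → ℤ) = 32) :
    w = v ∨ w = -v ∨ dotInt (v : GolayPt → ℤ) (w : GolayPt → ℤ) = 16 ∨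
      dotInt (v : GolayPt → ℤ) (w : GolayPt → ℤ) = 8 ∨
      dotInt (v : GolayPt → ℤ) (w : GolayPt → ℤ) = 0 ∨
      dotInt (v : GolayPt → ℤ) (w : GolayPt → ℤ) = -8 ∨
      dotInt (v : GolayPt → ℤ) (w : GolayPt → ℤ) = -16 := by
  have h8 := dvd_dot v w
  by_cases h1 : w = v
  · exact Or.inl h1
  by_cases h2 : w = -v
  · exact Or.inr (Or.inl h2)
  have h3 : 32 ≤ sqNorm ((v : GolayPt → ℤ) - (w : GolayPt → ℤ)) := by
    apply Cfsg.Agent.S0391.result _ (leechLattice.sub_mem v.2 w.2)
    intro h
    apply h1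
    apply Subtype.ext
    exact (sub_eq_zero.mp h).symm
  have h4 : 32 ≤ sqNorm ((v : GolayPt → ℤ) + (w : GolayPt → ℤ)) := by
    apply Cfsg.Agent.S0391.result _ (leechLattice.add_mem v.2 w.2)
    intro h
    apply h2
    apply Subtype.ext
    show (w : GolayPt → ℤ) = -(v : GolayPt → ℤ)
    exact (neg_eq_of_add_eq_zero_right h).symm
  rw [Cfsg.Agent.Lib.Helper10.sqNorm_sub, hv, hw] at h3
  rw [Cfsg.Agent.Lib.Helper10.sqNorm_add, hv, hw] at h4
  omega

theorem dot_self_min (v : leechLattice) (hv : sqNorm (v : GolayPt → ℤ) = 32) :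
    dotInt (v : GolayPt → ℤ) (v : GolayPt → ℤ) = 32 := by
  rw [dot_self, hv]

theorem dot_neg_min (v : leechLattice) (hv : sqNorm (v : GolayPt → ℤ) = 32) :
    dotInt (v : GolayPt → ℤ) ((-v : leechLattice) : GolayPt → ℤ) = -32 := by
  rw [AddSubgroup.coe_neg, dot_neg_right, dot_self, hv]

/-- The stabiliser of a minimal vector `v` is transitive on the minimal vectors having a given
inner product with `v`. -/
theorem stab_trans (v w w' : leechLattice) (hv : sqNorm (v : GolayPt → ℤ) = 32)
    (hw : sqNorm (w : GolayPt → ℤ) = 32) (hw' : sqNorm (w' : GolayPt → ℤ) = 32)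
    (hd : dotInt (v : GolayPt → ℤ) (w : GolayPt → ℤ) =
      dotInt (v : GolayPt → ℤ) (w' : GolayPt → ℤ)) :
    ∃ g : ↥Co0, g • v = v ∧ g • w = w' := by
  have hneg : ∀ d : ℤ, dotInt (v : GolayPt → ℤ) (w : GolayPt → ℤ) = d →
      (∀ a b : leechLattice, sqNorm (a : GolayPt → ℤ) = 32 → sqNorm (b : GolayPt → ℤ) = 32 →
        dotInt (v : GolayPt → ℤ) (a : GolayPt → ℤ) = -d →
        dotInt (v : GolayPt → ℤ) (b : GolayPt → ℤ) = -d → ∃ g : ↥Co0, g • v = v ∧ g • a = b) →
      ∃ g : ↥Co0, g • v = v ∧ g • w = w' := by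
    intro d hdw hT
    obtain ⟨g, hg1, hg2⟩ := hT (-w) (-w')
      (by rw [AddSubgroup.coe_neg, sqNorm_neg', hw]) (by rw [AddSubgroup.coe_neg, sqNorm_neg', hw'])
      (by rw [AddSubgroup.coe_neg, dot_neg_right, hdw])
      (by rw [AddSubgroup.coe_neg, dot_neg_right, ← hd, hdw])
    refine ⟨g, hg1, ?_⟩
    rw [co0_neg] at hg2
    exact neg_injective hg2
  have h32 := dot_self_min v hv
  have hm32 := dot_neg_min v hv
  rcases min_dot_cases v w hv hw with h | h | h | h | h | h | h
  · subst h
    refine ⟨1, one_smul _ _, ?_⟩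
    rw [one_smul]
    rcases min_dot_cases w w' hv hw' with h' | h' | h' | h' | h' | h' | h'
    · exact h'.symm
    · subst h'; omega
    all_goals omega
  · subst h
    refine ⟨1, one_smul _ _, ?_⟩
    rw [one_smul]
    rcases min_dot_cases v w' hv hw' with h' | h' | h' | h' | h' | h' | h'
    · subst h'; omega
    · exact h'.symm
    all_goals omega
  · exact hneg 16 h (fun a b ha hb hda hdb => pair_trans_16 v a b hv ha hb hda hdb)
  · exact hneg 8 h (fun a b ha hb hda hdb => pair_trans_8 v a b hv ha hb hda hdb)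
  · exact orth_pair_trans v w w' hv hw hw' h (by rw [← hd, h])
  · exact pair_trans_8 v w w' hv hw hw' h (by rw [← hd, h])
  · exact pair_trans_16 v w w' hv hw hw' h (by rw [← hd, h])

/-- the minimal vectors with a given inner product with `v` -/
def dset (v : leechLattice) (d : ℤ) : Set leechLattice :=
  {w | sqNorm (w : GolayPt → ℤ) = 32 ∧ dotInt (v : GolayPt → ℤ) (w : GolayPt → ℤ) = d}

theorem dset_neg (v : leechLattice) (d : ℤ) : dset v (-d) = (fun w => -w) '' dset v d := by
  ext w
  constructor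
  · rintro ⟨h1, h2⟩
    refine ⟨-w, ⟨?_, ?_⟩, neg_neg w⟩
    · rw [AddSubgroup.coe_neg, sqNorm_neg', h1]
    · rw [AddSubgroup.coe_neg, dot_neg_right, h2, neg_neg]
  · rintro ⟨x, ⟨h1, h2⟩, rfl⟩
    refine ⟨?_, ?_⟩
    · rw [AddSubgroup.coe_neg, sqNorm_neg', h1]
    · rw [AddSubgroup.coe_neg, dot_neg_right, h2]

theorem dset_ncard (v : leechLattice) (hv : sqNorm (v : GolayPt → ℤ) = 32) :
    (dset v (-16)).ncard = 4600 ∧ (dset v (-8)).ncard = 47104 ∧ (dset v 0).ncard = 93150 ∧
      (dset v 16).ncard = 4600 ∧ (dset v 8).ncard = 47104 := by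
  obtain ⟨h1, h2, h3⟩ := census_min_all (v : GolayPt → ℤ) v.2 hv
  have e1 : (dset v (-16)).ncard = 4600 := (ncard_subtype_dot _ 32 (-16)).trans h1
  have e2 : (dset v (-8)).ncard = 47104 := (ncard_subtype_dot _ 32 (-8)).trans h2
  have e3 : (dset v 0).ncard = 93150 := (ncard_subtype_dot _ 32 0).trans h3
  refine ⟨e1, e2, e3, ?_, ?_⟩
  · have h := dset_neg v (-16)
    rw [neg_neg] at h
    rw [h, Set.ncard_image_of_injective _ neg_injective, e1]
  · have h := dset_neg v (-8)
    rw [neg_neg] at h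
    rw [h, Set.ncard_image_of_injective _ neg_injective, e2]

/-- the set of minimal vectors, as elements of the lattice -/
def minSet : Set leechLattice := {w | sqNorm (w : GolayPt → ℤ) = 32}

theorem minSet_ncard : minSet.ncard = 196560 := by
  rw [← leech_count_32, ← Set.ncard_image_of_injective _ Subtype.val_injective]
  congr 1
  ext w
  constructor
  · rintro ⟨x, hx, rfl⟩
    exact ⟨x.2, hx⟩
  · rintro ⟨hw, h1⟩
    exact ⟨⟨w, hw⟩, h1, rfl⟩

theorem minSet_finite : minSet.Finite :=
  Set.finite_of_ncard_ne_zero (by rw [minSet_ncard]; norm_num)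

theorem block_arith (n a b c a' b' : ℕ) (ha : a = 0 ∨ a = 4600) (ha' : a' = 0 ∨ a' = 4600)
    (hb : b = 0 ∨ b = 47104) (hb' : b' = 0 ∨ b' = 47104) (hc : c = 0 ∨ c = 93150)
    (hn : n = 1 + a + b + c + b' + a' + 1) (hdvd : n ∣ 196560) : n = 2 ∨ n = 196560 := by
  rcases ha with rfl | rfl <;> rcases ha' with rfl | rfl <;> rcases hb with rfl | rfl <;>
    rcases hb' with rfl | rfl <;> rcases hc with rfl | rfl <;> subst hn <;> revert hdvd <;>
    decide

/-- A set of minimal vectors containing `v`, closed under negation and invariant under the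
stabiliser of `v`, whose size divides `196560`, is `{v, -v}` or the set of all minimal vectors. -/
theorem block_cases (v0 : leechLattice) (hv : sqNorm (v0 : GolayPt → ℤ) = 32)
    (B : Set leechLattice) (hB : B ⊆ minSet) (h0 : v0 ∈ B) (hneg : ∀ w ∈ B, -w ∈ B)
    (hK : ∀ g : ↥Co0, g • v0 = v0 → ∀ w ∈ B, g • w ∈ B)
    (hdvd : B.ncard ∣ 196560) : B = {v0, -v0} ∨ B = minSet := by
  classical
  have hBfin : B.Finite := minSet_finite.subset hB
  have hcase : ∀ d : ℤ, (B ∩ dset v0 d = ∅) ∨ (B ∩ dset v0 d = dset v0 d) := by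
    intro d
    by_cases h : (B ∩ dset v0 d).Nonempty
    · right
      obtain ⟨w, hwB, hw1, hw2⟩ := h
      apply Set.inter_eq_right.mpr
      rintro w' ⟨hw'1, hw'2⟩
      obtain ⟨g, hg1, hg2⟩ := stab_trans v0 w w' hv hw1 hw'1 (hw2.trans hw'2.symm)
      rw [← hg2]
      exact hK g hg1 w hwB
    · left
      exact Set.not_nonempty_iff_eq_empty.mp h
  have hsum : B.ncard =
      ∑ d ∈ ({32, 16, 8, 0, -8, -16, -32} : Finset ℤ), (B ∩ dset v0 d).ncard := by
    rw [Set.ncard_eq_toFinset_card B hBfin]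
    rw [Finset.card_eq_sum_card_fiberwise
      (f := fun w : leechLattice => dotInt (v0 : GolayPt → ℤ) (w : GolayPt → ℤ))
      (t := ({32, 16, 8, 0, -8, -16, -32} : Finset ℤ))]
    · apply Finset.sum_congr rfl
      intro d _
      rw [← Set.ncard_coe_finset]
      congr 1
      ext w
      simp only [Finset.coe_filter, Set.Finite.mem_toFinset, Set.mem_ofPred_eq, Set.mem_inter_iff,
        dset]
      constructor
      · rintro ⟨h1, h2⟩
        exact ⟨h1, hB h1, h2⟩
      · rintro ⟨h1, _, h2⟩
        exact ⟨h1, h2⟩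
    · intro w hw
      have hwB : w ∈ B := hBfin.mem_toFinset.mp hw
      have hw32 := hB hwB
      rcases min_dot_cases v0 w hv hw32 with h | h | h | h | h | h | h
      · subst h
        simp [dot_self_min w hv]
      · subst h
        have h' := dot_neg_min v0 hv
        rw [AddSubgroup.coe_neg] at h'
        simp [h']
      all_goals simp [h]
  rw [Finset.sum_insert (by decide), Finset.sum_insert (by decide), Finset.sum_insert (by decide),
    Finset.sum_insert (by decide), Finset.sum_insert (by decide), Finset.sum_insert (by decide),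
    Finset.sum_singleton] at hsum
  have e32 : (B ∩ dset v0 32).ncard = 1 := by
    have : B ∩ dset v0 32 = {v0} := by
      ext w
      constructor
      · rintro ⟨hwB, hw1, hw2⟩
        rcases min_dot_cases v0 w hv hw1 with h | h | h | h | h | h | h
        · exact h
        · subst h
          have := dot_neg_min v0 hv
          omega
        all_goals omega
      · rintro rfl
        exact ⟨h0, hv, dot_self_min _ hv⟩
    rw [this, Set.ncard_singleton]
  have em32 : (B ∩ dset v0 (-32)).ncard = 1 := by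
    have : B ∩ dset v0 (-32) = {-v0} := by
      ext w
      constructor
      · rintro ⟨hwB, hw1, hw2⟩
        rcases min_dot_cases v0 w hv hw1 with h | h | h | h | h | h | h
        · subst h
          have := dot_self_min w hv
          omega
        · exact h
        all_goals omega
      · rintro rfl
        exact ⟨hneg v0 h0, by rw [AddSubgroup.coe_neg, sqNorm_neg', hv], dot_neg_min _ hv⟩
    rw [this, Set.ncard_singleton]
  obtain ⟨c1, c2, c3, c4, c5⟩ := dset_ncard v0 hv
  have hval : ∀ d : ℤ, ∀ m : ℕ, (dset v0 d).ncard = m →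
      (B ∩ dset v0 d).ncard = 0 ∨ (B ∩ dset v0 d).ncard = m := by
    intro d m hm
    rcases hcase d with h | h
    · left
      rw [h, Set.ncard_empty]
    · right
      rw [h, hm]
  have hne : v0 ≠ -v0 := by
    intro h
    have h1 := dot_self_min v0 hv
    have h2 := dot_neg_min v0 hv
    rw [← h] at h2
    omega
  rcases block_arith B.ncard _ _ _ _ _ (hval 16 4600 c4) (hval (-16) 4600 c1) (hval 8 47104 c5)
    (hval (-8) 47104 c2) (hval 0 93150 c3) (by rw [hsum, e32, em32]; ring) hdvd with h | h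
  · left
    refine (Set.eq_of_subset_of_ncard_le ?_ ?_ hBfin).symm
    · rintro w (rfl | rfl)
      · exact h0
      · exact hneg _ h0
    · rw [h, Set.ncard_pair hne]
  · right
    exact Set.eq_of_subset_of_ncard_le hB (by rw [minSet_ncard, h]) minSet_finite

end Cfsg.Agent.Lib.Helper92
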