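-- The automorphism group of the rank-24 lattice modulo its centre is simple, provided the
-- stabiliser of a minimal vector is simple.
import Mathlib
import Cfsg.Agent.Lib.Helper92.Co1Block
import Cfsg.Agent.Lib.Helper10.Co0Order
import Cfsg.Agent.Lib.Helper10.Co0Center

set_option autoImplicit false
open Cfsg

namespace Cfsg.Agent.Lib.Helper92

open Cfsg.Agent.S5552 Cfsg.Agent.Lib.Helper10 Cfsg.Agent.S5392

theorem orbit_min (v0 : leechLattice) (hv : sqNorm (v0 : GolayPt → ℤ) = 32) :
    MulAction.orbit ↥Co0 v0 = minSet := by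
  ext w
  constructor
  · rintro ⟨g, rfl⟩
    show sqNorm ((g • v0 : leechLattice) : GolayPt → ℤ) = 32
    rw [co0_norm, hv]
  · intro hw
    obtain ⟨g, hg⟩ := trans_norm32 v0 w hv hw
    exact ⟨g, hg⟩

theorem min_ne_neg (v0 : leechLattice) (hv : sqNorm (v0 : GolayPt → ℤ) = 32) : v0 ≠ -v0 := by
  intro h
  have h1 := dot_self_min v0 hv
  have h2 := dot_neg_min v0 hv
  rw [← h] at h2
  omega

theorem negC_mul_self : negC * negC = 1 := by
  apply Subtype.ext
  apply Equiv.ext
  intro v
  show negPerm (negPerm v) = v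
  rw [negPerm_apply, negPerm_apply, neg_neg]

theorem negC_ne_one : negC ≠ 1 := by
  intro h
  have h1 : negC • (Spor.leechU : leechLattice) = Spor.leechU := by rw [h, one_smul]
  rw [negC_smul] at h1
  exact min_ne_neg _ leechU_norm h1.symm

theorem orderOf_negC : orderOf negC = 2 := by
  have : Fact (Nat.Prime 2) := ⟨Nat.prime_two⟩
  exact orderOf_eq_prime (by rw [pow_two, negC_mul_self]) negC_ne_one

/-- A normal subgroup containing `-1` cannot act regularly on the minimal vectors. -/
theorem no_regular (v0 : leechLattice) (hv : sqNorm (v0 : GolayPt → ℤ) = 32)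
    (N : Subgroup ↥Co0) [hN : N.Normal] (hZ : negC ∈ N)
    (hdisj : ∀ n ∈ N, n • v0 = v0 → n = 1)
    (htrans : ∀ w : leechLattice, sqNorm (w : GolayPt → ℤ) = 32 → ∃ n ∈ N, n • v0 = w) :
    False := by
  classical
  have := co0_finite
  have hinj : ∀ n ∈ N, ∀ n' ∈ N, n • v0 = n' • v0 → n = n' := by
    intro n hn n' hn' h
    have := hdisj (n⁻¹ * n') (N.mul_mem (N.inv_mem hn) hn') (by rw [mul_smul, ← h, inv_smul_smul])
    exact eq_of_inv_mul_eq_one this
  have hcard : Nat.card N = 196560 := by
    rw [← minSet_ncard]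
    have h1 : minSet = (fun n : ↥N => (n : ↥Co0) • v0) '' Set.univ := by
      ext w
      constructor
      · intro hw
        obtain ⟨n, hn, rfl⟩ := htrans w hw
        exact ⟨⟨n, hn⟩, trivial, rfl⟩
      · rintro ⟨n, _, rfl⟩
        show sqNorm (((n : ↥Co0) • v0 : leechLattice) : GolayPt → ℤ) = 32
        rw [co0_norm, hv]
    rw [h1, Set.ncard_image_of_injective, Set.ncard_univ]
    intro a b hab
    exact Subtype.ext (hinj a a.2 b b.2 hab)
  have hord : ∀ n ∈ N, ∀ n' ∈ N,
      dotInt (v0 : GolayPt → ℤ) ((n • v0 : leechLattice) : GolayPt → ℤ) =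
        dotInt (v0 : GolayPt → ℤ) ((n' • v0 : leechLattice) : GolayPt → ℤ) →
      orderOf n = orderOf n' := by
    intro n hn n' hn' hd
    obtain ⟨g, hg1, hg2⟩ := stab_trans v0 (n • v0) (n' • v0) hv (by rw [co0_norm, hv])
      (by rw [co0_norm, hv]) hd
    have h1 : g * n * g⁻¹ = n' := by
      apply hinj _ (hN.conj_mem n hn g) _ hn'
      rw [mul_smul, mul_smul, ← hg2]
      congr 2
      rw [inv_smul_eq_iff, hg1]
    have h2 : SemiconjBy g n n' := by
      show g * n = n' * g
      rw [← h1]
      group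
    exact h2.orderOf_eq g
  -- the order of an element of `N` is determined by an inner product with seven possible values
  obtain ⟨F, hF⟩ : ∃ F : ℤ → ℕ, ∀ n ∈ N,
      orderOf n = F (dotInt (v0 : GolayPt → ℤ) ((n • v0 : leechLattice) : GolayPt → ℤ)) := by
    refine ⟨fun d => if h : ∃ n ∈ N,
      dotInt (v0 : GolayPt → ℤ) ((n • v0 : leechLattice) : GolayPt → ℤ) = d then
      orderOf h.choose else 0, ?_⟩
    intro n hn
    have hex : ∃ n' ∈ N, dotInt (v0 : GolayPt → ℤ) ((n' • v0 : leechLattice) : GolayPt → ℤ) =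
        dotInt (v0 : GolayPt → ℤ) ((n • v0 : leechLattice) : GolayPt → ℤ) := ⟨n, hn, rfl⟩
    show orderOf n = dite _ _ _
    rw [dif_pos hex]
    exact hord n hn _ hex.choose_spec.1 hex.choose_spec.2.symm
  have hmem : ∀ n ∈ N, orderOf n ∈
      (({32, 16, 8, 0, -8, -16, -32} : Finset ℤ).image F) := by
    intro n hn
    rw [hF n hn]
    apply Finset.mem_image_of_mem
    have h32 := dot_self_min v0 hv
    have hm32 := dot_neg_min v0 hv
    rcases min_dot_cases v0 (n • v0) hv (by rw [co0_norm, hv]) with h | h | h | h | h | h | h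
    · rw [h, h32]
      decide
    · rw [h, hm32]
      decide
    all_goals rw [h]; decide
  have hcauchy : ∀ p : ℕ, p.Prime → p ∣ 196560 → ∃ a ∈ N, orderOf a = p := by
    intro p hp hdvd
    have : Fact p.Prime := ⟨hp⟩
    obtain ⟨x, hx⟩ := exists_prime_orderOf_dvd_card' (G := ↥N) p (by rw [hcard]; exact hdvd)
    exact ⟨(x : ↥Co0), x.2, by rw [Subgroup.orderOf_coe, hx]⟩
  have hcomm : ∀ a : ↥Co0, Commute negC a := fun a =>
    ((Subgroup.mem_center_iff.mp negC_mem_center) a).symm
  obtain ⟨a3, ha3, ho3⟩ := hcauchy 3 (by norm_num) (by norm_num)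
  obtain ⟨a5, ha5, ho5⟩ := hcauchy 5 (by norm_num) (by norm_num)
  obtain ⟨a7, ha7, ho7⟩ := hcauchy 7 (by norm_num) (by norm_num)
  obtain ⟨a13, ha13, ho13⟩ := hcauchy 13 (by norm_num) (by norm_num)
  have ho6 : orderOf (negC * a3) = 6 := by
    rw [(hcomm a3).orderOf_mul_eq_mul_orderOf_of_coprime (by rw [orderOf_negC, ho3]; decide),
      orderOf_negC, ho3]
  have ho10 : orderOf (negC * a5) = 10 := by
    rw [(hcomm a5).orderOf_mul_eq_mul_orderOf_of_coprime (by rw [orderOf_negC, ho5]; decide),
      orderOf_negC, ho5]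
  have hsub : ({1, 2, 3, 5, 7, 13, 6, 10} : Finset ℕ) ⊆
      (({32, 16, 8, 0, -8, -16, -32} : Finset ℤ).image F) := by
    intro k hk
    simp only [Finset.mem_insert, Finset.mem_singleton] at hk
    rcases hk with rfl | rfl | rfl | rfl | rfl | rfl | rfl | rfl
    · have := hmem 1 N.one_mem
      rwa [orderOf_one] at this
    · have := hmem negC hZ
      rwa [orderOf_negC] at this
    · have := hmem a3 ha3
      rwa [ho3] at this
    · have := hmem a5 ha5
      rwa [ho5] at this
    · have := hmem a7 ha7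
      rwa [ho7] at this
    · have := hmem a13 ha13
      rwa [ho13] at this
    · have := hmem (negC * a3) (N.mul_mem hZ ha3)
      rwa [ho6] at this
    · have := hmem (negC * a5) (N.mul_mem hZ ha5)
      rwa [ho10] at this
  have h1 := Finset.card_le_card hsub
  have h2 := Finset.card_image_le (s := ({32, 16, 8, 0, -8, -16, -32} : Finset ℤ)) (f := F)
  have h3 : ({1, 2, 3, 5, 7, 13, 6, 10} : Finset ℕ).card = 8 := by decide
  have h4 : ({32, 16, 8, 0, -8, -16, -32} : Finset ℤ).card = 7 := by decide
  omega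

/-- If the stabiliser of a minimal vector is simple, a normal subgroup of the automorphism group
of the lattice containing `-1` is everything or central. -/
theorem co1_core (v0 : leechLattice) (hv : sqNorm (v0 : GolayPt → ℤ) = 32)
    (hsimple : IsSimpleGroup (MulAction.stabilizer ↥Co0 v0))
    (N : Subgroup ↥Co0) [hN : N.Normal] (hZ : negC ∈ N) :
    N = ⊤ ∨ N ≤ Subgroup.center ↥Co0 := by
  classical
  have := co0_finite
  have hne := min_ne_neg v0 hv
  have hBsub : {w : leechLattice | ∃ n ∈ N, n • v0 = w} ⊆ minSet := by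
    rintro w ⟨n, _, rfl⟩
    show sqNorm ((n • v0 : leechLattice) : GolayPt → ℤ) = 32
    rw [co0_norm, hv]
  have hB0 : v0 ∈ {w : leechLattice | ∃ n ∈ N, n • v0 = w} := ⟨1, N.one_mem, one_smul _ _⟩
  have hBneg : ∀ w ∈ {w : leechLattice | ∃ n ∈ N, n • v0 = w},
      -w ∈ {w : leechLattice | ∃ n ∈ N, n • v0 = w} := by
    rintro w ⟨n, hn, rfl⟩
    exact ⟨negC * n, N.mul_mem hZ hn, by rw [mul_smul, negC_smul]⟩
  have hBK : ∀ g : ↥Co0, g • v0 = v0 → ∀ w ∈ {w : leechLattice | ∃ n ∈ N, n • v0 = w},
      g • w ∈ {w : leechLattice | ∃ n ∈ N, n • v0 = w} := by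
    rintro g hg w ⟨n, hn, rfl⟩
    refine ⟨g * n * g⁻¹, hN.conj_mem n hn g, ?_⟩
    rw [mul_smul, mul_smul]
    congr 2
    rw [inv_smul_eq_iff, hg]
  have hBdvd : {w : leechLattice | ∃ n ∈ N, n • v0 = w}.ncard ∣ 196560 := by
    have h := normal_orbit_dvd N v0
    rwa [orbit_min v0 hv, minSet_ncard] at h
  have hcases := block_cases v0 hv _ hBsub hB0 hBneg hBK hBdvd
  have hNK := hsimple.eq_bot_or_eq_top_of_normal _
    (hN.subgroupOf (MulAction.stabilizer ↥Co0 v0))
  rcases hNK with hbot | htop
  · -- `N` meets the stabiliser trivially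
    have hdisj : ∀ n ∈ N, n • v0 = v0 → n = 1 := by
      intro n hn hnv
      have h1 : (⟨n, hnv⟩ : MulAction.stabilizer ↥Co0 v0) ∈
          N.subgroupOf (MulAction.stabilizer ↥Co0 v0) := hn
      rw [hbot, Subgroup.mem_bot] at h1
      exact congrArg Subtype.val h1
    rcases hcases with hB | hB
    · right
      intro n hn
      have h1 : n • v0 ∈ ({v0, -v0} : Set leechLattice) := by
        rw [← hB]
        exact ⟨n, hn, rfl⟩
      rcases h1 with h1 | h1
      · rw [hdisj n hn h1]
        exact Subgroup.one_mem _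
      · have h2 : negC * n = 1 := by
          apply hdisj _ (N.mul_mem hZ hn)
          rw [mul_smul, h1, negC_smul, neg_neg]
        have h3 : n = negC := by
          have := congrArg (fun x => negC * x) h2
          simp only [← mul_assoc, negC_mul_self, one_mul, mul_one] at this
          exact this
        rw [h3]
        exact negC_mem_center
    · exfalso
      apply no_regular v0 hv N hZ hdisj
      intro w hw
      have : w ∈ {w : leechLattice | ∃ n ∈ N, n • v0 = w} := by
        rw [hB]
        exact hw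
      exact this
  · -- `N` contains the stabiliser
    have hKN : ∀ g : ↥Co0, g • v0 = v0 → g ∈ N := by
      intro g hg
      have h1 : (⟨g, hg⟩ : MulAction.stabilizer ↥Co0 v0) ∈
          N.subgroupOf (MulAction.stabilizer ↥Co0 v0) := by
        rw [htop]
        exact Subgroup.mem_top _
      exact h1
    rcases hcases with hB | hB
    · exfalso
      obtain ⟨c1, -⟩ := dset_ncard v0 hv
      obtain ⟨w, hw⟩ : (dset v0 (-16)).Nonempty := by
        rw [← Set.ncard_pos (Set.finite_of_ncard_ne_zero (by rw [c1]; norm_num)), c1]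
        norm_num
      obtain ⟨w', hw', hw'2⟩ : ∃ e, e ∈ dset v0 (-16) ∧ e ∉ ({w, -w} : Set leechLattice) := by
        apply Set.exists_mem_notMem_of_ncard_lt_ncard
        · rw [c1]
          exact lt_of_le_of_lt (Set.ncard_insert_le _ _) (by rw [Set.ncard_singleton]; norm_num)
        · exact Set.toFinite _
      obtain ⟨g, hg1, hg2⟩ := stab_trans v0 w w' hv hw.1 hw'.1 (hw.2.trans hw'.2.symm)
      obtain ⟨h, hh⟩ := trans_norm32 v0 w hv hw.1
      have h1 : (h⁻¹ * g * h) • v0 ∈ ({v0, -v0} : Set leechLattice) := by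
        rw [← hB]
        refine ⟨h⁻¹ * g * h, ?_, rfl⟩
        have := hN.conj_mem g (hKN g hg1) h⁻¹
        rwa [inv_inv] at this
      have h2 : g • w = h • ((h⁻¹ * g * h) • v0) := by
        rw [← hh, ← mul_smul, ← mul_smul]
        congr 1
        group
      apply hw'2
      rw [← hg2, h2]
      rcases h1 with h1 | h1
      · left
        rw [h1, hh]
      · right
        rw [h1, co0_neg, hh]
        exact rfl
    · left
      rw [eq_top_iff]
      intro g _
      have h1 : g • v0 ∈ {w : leechLattice | ∃ n ∈ N, n • v0 = w} := by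
        rw [hB]
        show sqNorm ((g • v0 : leechLattice) : GolayPt → ℤ) = 32
        rw [co0_norm, hv]
      obtain ⟨n, hn, hnv⟩ := h1
      have h2 : n⁻¹ * g ∈ N := by
        apply hKN
        rw [mul_smul, ← hnv, inv_smul_smul]
      have h3 : g = n * (n⁻¹ * g) := by group
      rw [h3]
      exact N.mul_mem hn h2

/-- If the stabiliser of a minimal vector is simple, then the automorphism group of the lattice
modulo its centre is simple of the order of the first Conway group. -/
theorem co1_of_co2 (v0 : leechLattice) (hv : sqNorm (v0 : GolayPt → ℤ) = 32)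
    (hsimple : IsSimpleGroup (MulAction.stabilizer ↥Co0 v0)) :
    IsCo1 (↥Co0 ⧸ Subgroup.center ↥Co0) := by
  have := co0_finite
  have hcard : Nat.card (↥Co0 ⧸ Subgroup.center ↥Co0) = 4157776806543360000 := by
    have h := Subgroup.card_eq_card_quotient_mul_card_subgroup (Subgroup.center ↥Co0)
    rw [card_co0, card_center_co0] at h
    omega
  refine ⟨?_, hcard⟩
  have hnt : Nontrivial (↥Co0 ⧸ Subgroup.center ↥Co0) := by
    rw [← Finite.one_lt_card_iff_nontrivial, hcard]
    norm_num
  refine { exists_pair_ne := hnt.exists_pair_ne, eq_bot_or_eq_top_of_normal := ?_ }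
  intro M hM
  have hN : (M.comap (QuotientGroup.mk' (Subgroup.center ↥Co0))).Normal := hM.comap _
  have hZ : negC ∈ M.comap (QuotientGroup.mk' (Subgroup.center ↥Co0)) := by
    rw [Subgroup.mem_comap]
    have h1 : QuotientGroup.mk' (Subgroup.center ↥Co0) negC = 1 :=
      (QuotientGroup.eq_one_iff _).mpr negC_mem_center
    rw [h1]
    exact M.one_mem
  rcases co1_core v0 hv hsimple (M.comap (QuotientGroup.mk' (Subgroup.center ↥Co0))) hZ with
    h | h
  · right
    rw [eq_top_iff]
    intro x _
    obtain ⟨g, rfl⟩ := QuotientGroup.mk'_surjective (Subgroup.center ↥Co0) x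
    have h1 : g ∈ M.comap (QuotientGroup.mk' (Subgroup.center ↥Co0)) := by
      rw [h]
      exact Subgroup.mem_top _
    exact h1
  · left
    rw [eq_bot_iff]
    intro x hx
    obtain ⟨g, rfl⟩ := QuotientGroup.mk'_surjective (Subgroup.center ↥Co0) x
    have h1 : g ∈ Subgroup.center ↥Co0 := h hx
    rw [Subgroup.mem_bot]
    exact (QuotientGroup.eq_one_iff _).mpr h1

end Cfsg.Agent.Lib.Helper92
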