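-- Abstract lemmas on normal subgroups of a subgroup and simple subgroups, and orbit counting.
import Mathlib

set_option autoImplicit false

namespace Cfsg.Agent.Lib.Helper92

/-- A simple subgroup `H` of `K` lies in the normal subgroup `N` of `K`, or meets it trivially,
and then the product of the orders divides the order of `K`. -/
theorem simple_sub_cases {G : Type*} [Group G] (K : Subgroup G) [Finite K] (N : Subgroup ↥K)
    [hN : N.Normal] (H : Subgroup G) (hHK : H ≤ K) (hs : IsSimpleGroup ↥H) :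
    H ≤ N.map K.subtype ∨
      ((∀ h ∈ H, h ∈ N.map K.subtype → h = 1) ∧ Nat.card N * Nat.card H ∣ Nat.card K) := by
  have hn : (N.comap (Subgroup.inclusion hHK)).Normal := hN.comap _
  rcases hs.eq_bot_or_eq_top_of_normal _ hn with hbot | htop
  · right
    constructor
    · intro h hh hN'
      obtain ⟨x, hx, hxh⟩ := Subgroup.mem_map.mp hN'
      have h1 : (⟨h, hh⟩ : ↥H) ∈ N.comap (Subgroup.inclusion hHK) := by
        rw [Subgroup.mem_comap]
        have e : Subgroup.inclusion hHK ⟨h, hh⟩ = x := Subtype.ext hxh.symm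
        rw [e]
        exact hx
      rw [hbot, Subgroup.mem_bot] at h1
      exact congrArg Subtype.val h1
    · have hinj : Function.Injective
          ((QuotientGroup.mk' N).comp (Subgroup.inclusion hHK)) := by
        rw [← MonoidHom.ker_eq_bot_iff, ← hbot]
        ext x
        rw [MonoidHom.mem_ker, Subgroup.mem_comap, MonoidHom.comp_apply,
          QuotientGroup.mk'_apply, QuotientGroup.eq_one_iff]
      have h1 := Subgroup.card_dvd_of_injective _ hinj
      have h2 := Subgroup.card_eq_card_quotient_mul_card_subgroup N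
      rw [h2, mul_comm]
      exact Nat.mul_dvd_mul_right h1 _
  · left
    intro h hh
    have h1 : (⟨h, hh⟩ : ↥H) ∈ N.comap (Subgroup.inclusion hHK) := by
      rw [htop]
      exact Subgroup.mem_top _
    exact Subgroup.mem_map.mpr ⟨_, h1, rfl⟩

theorem card_dvd_of_le_map {G : Type*} [Group G] (K : Subgroup G) (N : Subgroup ↥K)
    (H : Subgroup G) (h : H ≤ N.map K.subtype) : Nat.card H ∣ Nat.card N := by
  have h1 := Subgroup.card_dvd_of_le h
  rwa [Subgroup.card_map_of_injective K.subtype_injective] at h1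

theorem conj_mem_map {G : Type*} [Group G] (K : Subgroup G) (N : Subgroup ↥K) [hN : N.Normal]
    {k n : G} (hk : k ∈ K) (hn : n ∈ N.map K.subtype) : k * n * k⁻¹ ∈ N.map K.subtype := by
  obtain ⟨x, hx, rfl⟩ := Subgroup.mem_map.mp hn
  exact Subgroup.mem_map.mpr ⟨⟨k, hk⟩ * x * ⟨k, hk⟩⁻¹, hN.conj_mem x hx ⟨k, hk⟩, rfl⟩

theorem map_le_self {G : Type*} [Group G] (K : Subgroup G) (N : Subgroup ↥K) :
    N.map K.subtype ≤ K := by
  intro g hg
  obtain ⟨x, _, rfl⟩ := Subgroup.mem_map.mp hg
  exact x.2

/-- Orbit-stabiliser for a subgroup acting. -/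
theorem card_stab_inf {G X : Type*} [Group G] [MulAction G X] (K : Subgroup G) (x : X) :
    {y : X | ∃ k ∈ K, k • x = y}.ncard * Nat.card ↥(K ⊓ MulAction.stabilizer G x) =
      Nat.card ↥K := by
  have h1 : MulAction.orbit ↥K x = {y : X | ∃ k ∈ K, k • x = y} := by
    ext y
    constructor
    · rintro ⟨k, rfl⟩
      exact ⟨k.1, k.2, rfl⟩
    · rintro ⟨k, hk, rfl⟩
      exact ⟨⟨k, hk⟩, rfl⟩
  have h2 : MulAction.stabilizer ↥K x = (K ⊓ MulAction.stabilizer G x).subgroupOf K := by
    ext s
    rw [MulAction.mem_stabilizer_iff, Subgroup.mem_subgroupOf, Subgroup.mem_inf,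
      MulAction.mem_stabilizer_iff]
    exact ⟨fun h => ⟨s.2, h⟩, fun h => h.2⟩
  have h3 := Subgroup.index_mul_card (MulAction.stabilizer ↥K x)
  rw [MulAction.index_stabilizer, h1, h2] at h3
  rw [← h3]
  congr 1
  exact Nat.card_congr (Subgroup.subgroupOfEquivOfLe inf_le_left).toEquiv.symm

end Cfsg.Agent.Lib.Helper92
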