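-- Coordinate permutations inside the stabiliser of a minimal vector of the rank-24 lattice.
import Mathlib
import Cfsg.Agent.Lib.Helper10.HSSimple
import Cfsg.Agent.Lib.Helper10.McLSimple
import Cfsg.Agent.Lib.Helper9.M23Simple
import Cfsg.Agent.Lib.Helper9.M22Simple
import Cfsg.Agent.Lib.Helper92.Co2Core2
import Cfsg.Agent.Lib.Helper92.Co1Block
import Cfsg.Agent.Lib.Helper92.Co2Abs

set_option autoImplicit false
open Cfsg

namespace Cfsg.Agent.Lib.Helper92

open Cfsg.Agent.S5552 Cfsg.Agent.Lib.Helper10 Cfsg.Agent.S5392 Cfsg.Agent.Lib.Helper9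

/-- coordinate permutations as a homomorphism into the automorphism group of the lattice -/
noncomputable def ppHom : ↥M24 →* ↥Co0 where
  toFun σ := ⟨permPerm σ.1 σ.2, permPerm_mem σ.1 σ.2⟩
  map_one' := Subtype.ext permPerm_one
  map_mul' σ τ := Subtype.ext (permPerm_mul σ.1 τ.1 σ.2 τ.2)

theorem ppHom_injective : Function.Injective ppHom := by
  intro σ τ h
  have h1 : permPerm σ.1 σ.2 = permPerm τ.1 τ.2 := congrArg Subtype.val h
  exact Subtype.ext (permPerm_inj h1)

theorem pp_fix_of {σ : ↥M24} {v : leechLattice}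
    (h : ∀ i, (v : GolayPt → ℤ) (σ.1.symm i) = (v : GolayPt → ℤ) i) : ppHom σ • v = v :=
  Subtype.ext (funext h)

theorem pp_leechU {σ : ↥M24} (h1 : σ.1 none = none) (h2 : σ.1 (some 0) = some 0) :
    ppHom σ • Spor.leechU = Spor.leechU := by
  apply pp_fix_of
  intro i
  show Spor.vecU (σ.1.symm i) = Spor.vecU i
  unfold Spor.vecU
  have e1 : σ.1.symm i = none ↔ i = none := by rw [Equiv.symm_apply_eq, h1]
  have e2 : σ.1.symm i = some 0 ↔ i = some 0 := by rw [Equiv.symm_apply_eq, h2]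
  simp only [e1, e2]

theorem pp_leechU_swap {σ : ↥M24} (h1 : σ.1 none = some 0) (h2 : σ.1 (some 0) = none) :
    ppHom σ • Spor.leechU = Spor.leechU := by
  apply pp_fix_of
  intro i
  show Spor.vecU (σ.1.symm i) = Spor.vecU i
  unfold Spor.vecU
  have e1 : σ.1.symm i = none ↔ i = some 0 := by rw [Equiv.symm_apply_eq, h1]
  have e2 : σ.1.symm i = some 0 ↔ i = none := by rw [Equiv.symm_apply_eq, h2]
  simp only [e1, e2, or_comm]

theorem pp_leechU' {σ : ↥M24} (h1 : σ.1 none = none) (h2 : σ.1 (some 0) = some 0) :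
    ppHom σ • Spor.leechU' = Spor.leechU' := by
  apply pp_fix_of
  intro i
  show Spor.vecU' (σ.1.symm i) = Spor.vecU' i
  unfold Spor.vecU'
  have e1 : σ.1.symm i = none ↔ i = none := by rw [Equiv.symm_apply_eq, h1]
  have e2 : σ.1.symm i = some 0 ↔ i = some 0 := by rw [Equiv.symm_apply_eq, h2]
  simp only [e1, e2]

theorem pp_leechU'_swap {σ : ↥M24} (h1 : σ.1 none = some 0) (h2 : σ.1 (some 0) = none) :
    ppHom σ • Spor.leechU' = -Spor.leechU' := by
  apply Subtype.ext
  funext i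
  show Spor.vecU' (σ.1.symm i) = -Spor.vecU' i
  unfold Spor.vecU'
  have e1 : σ.1.symm i = none ↔ i = some 0 := by rw [Equiv.symm_apply_eq, h1]
  have e2 : σ.1.symm i = some 0 ↔ i = none := by rw [Equiv.symm_apply_eq, h2]
  simp only [e1, e2]
  by_cases h : i = none
  · subst h
    simp
  · by_cases h' : i = some 0
    · subst h'
      simp
    · simp [h, h']

/-- the vector with `3` at the point `3` and `-1` elsewhere -/
def vecX3 : GolayPt → ℤ := fun q => if q = some 3 then 3 else -1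

theorem vecX3_eq : vecX3 = vecM3 + (Pi.single none (-4) + Pi.single (some 3) 4) := by
  funext q
  revert q
  decide

theorem vecX3_mem : vecX3 ∈ leechLattice := by
  rw [vecX3_eq]
  exact leechLattice.add_mem vecM3_mem (pair_mem (by decide) (Or.inr rfl) (Or.inl rfl))

/-- `vecX3` as an element of the lattice -/
def latX3 : leechLattice := ⟨vecX3, vecX3_mem⟩

/-- `(3, -1, …, -1)` as an element of the lattice -/
def latM3 : leechLattice := ⟨vecM3, vecM3_mem⟩

theorem nX3 : sqNorm vecX3 = 32 := by decide +kernel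

theorem nM3 : sqNorm vecM3 = 32 := by decide +kernel

theorem dUX3 : dotInt Spor.vecU vecX3 = -8 := by decide +kernel

theorem dM3U : dotInt vecM3 Spor.vecU = 8 := by decide +kernel

theorem pp_latX3 {σ : ↥M24} (h : σ.1 (some 3) = some 3) : ppHom σ • latX3 = latX3 := by
  apply pp_fix_of
  intro i
  show vecX3 (σ.1.symm i) = vecX3 i
  unfold vecX3
  have e1 : σ.1.symm i = some 3 ↔ i = some 3 := by rw [Equiv.symm_apply_eq, h]
  simp only [e1]

theorem pp_latM3 {σ : ↥M24} (h : σ.1 none = none) : ppHom σ • latM3 = latM3 := by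
  apply pp_fix_of
  intro i
  show vecM3 (σ.1.symm i) = vecM3 i
  unfold vecM3
  have e1 : σ.1.symm i = none ↔ i = none := by rw [Equiv.symm_apply_eq, h]
  simp only [e1]

/-- multiplication by `2` on the projective line over the field with 23 elements -/
def dblPt : Equiv.Perm GolayPt := Equiv.optionCongr
  { toFun := fun x => 2 * x
    invFun := fun x => 12 * x
    left_inv := fun x => by revert x; decide
    right_inv := fun x => by revert x; decide }

/-- Table of `x ↦ 2x`. -/
def dblT : List ℕ :=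
  [0, 2, 4, 6, 8, 10, 12, 14, 16, 18, 20, 22, 1, 3, 5, 7, 9, 11, 13, 15, 17, 19, 21, 23]

theorem dbl_table : ∀ p, dblPt p = pt (dblT.getD (idx p) 0) := by decide +kernel

theorem dbl_mem : dblPt ∈ M24 := mem_M24_of_table dblT dbl_table (by decide +kernel)

theorem dbl_none : dblPt none = none := rfl

theorem dbl_zero : dblPt (some 0) = some 0 := by decide

theorem dbl_some (x : ZMod 23) : dblPt (some x) = some (2 * x) := rfl

theorem dbl_mem22 : dblPt ∈ M24 ⊓ fixing [0, 23] := by
  refine ⟨dbl_mem, ?_⟩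
  intro i hi
  simp only [List.mem_cons, List.not_mem_nil, or_false] at hi
  rcases hi with rfl | rfl
  · rw [pt0]; exact dbl_zero
  · rw [pt23]; exact dbl_none

theorem cubeTwist_three : cubeTwist (some 3) = some 3 := by decide +kernel

theorem cubeTwist_ne_one : cubeTwist ≠ 1 := by
  intro h
  have h1 : cubeTwist (some 1) = some 1 := by rw [h]; rfl
  revert h1
  decide +kernel

/-- the image of a group of coordinate permutations, conjugated by `g` -/
noncomputable def permSub (A : Subgroup (Equiv.Perm GolayPt)) (g : ↥Co0) : Subgroup ↥Co0 :=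
  ((A.subgroupOf M24).map ppHom).map (MulAut.conj g).toMonoidHom

theorem permSub_equiv (A : Subgroup (Equiv.Perm GolayPt)) (hA : A ≤ M24) (g : ↥Co0) :
    Nonempty (↥(permSub A g) ≃* ↥A) :=
  ⟨(((A.subgroupOf M24).map ppHom).equivMapOfInjective (MulAut.conj g).toMonoidHom
      (MulAut.conj g).injective).symm.trans
    (((A.subgroupOf M24).equivMapOfInjective ppHom ppHom_injective).symm.trans
      (Subgroup.subgroupOfEquivOfLe hA))⟩

theorem mem_permSub_of {A : Subgroup (Equiv.Perm GolayPt)} {g : ↥Co0} {σ : Equiv.Perm GolayPt}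
    (hσ : σ ∈ M24) (hA : σ ∈ A) : g * ppHom ⟨σ, hσ⟩ * g⁻¹ ∈ permSub A g :=
  Subgroup.mem_map.mpr ⟨ppHom ⟨σ, hσ⟩, Subgroup.mem_map.mpr ⟨⟨σ, hσ⟩, hA, rfl⟩, rfl⟩

theorem exists_of_mem_permSub {A : Subgroup (Equiv.Perm GolayPt)} {g x : ↥Co0}
    (hx : x ∈ permSub A g) : ∃ σ : ↥M24, σ.1 ∈ A ∧ x = g * ppHom σ * g⁻¹ := by
  obtain ⟨y, hy, rfl⟩ := Subgroup.mem_map.mp hx
  obtain ⟨σ, hσA, rfl⟩ := Subgroup.mem_map.mp hy
  exact ⟨σ, hσA, rfl⟩

theorem dbl_ne_one : dblPt ≠ 1 := by
  intro h
  have h1 : dblPt (some 1) = some 1 := by rw [h]; rfl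
  revert h1
  decide

/-- A copy of the point stabiliser of the group of the code inside the stabiliser of
`(4, 4, 0, …)`, meeting the stabiliser of a further minimal vector non-trivially. -/
theorem exists_m23 : ∃ T : Subgroup ↥Co0, T ≤ MulAction.stabilizer ↥Co0 Spor.leechU ∧
    IsSimpleGroup ↥T ∧ Nat.card ↥T = 10200960 ∧
    ∃ x : leechLattice, sqNorm (x : GolayPt → ℤ) = 32 ∧
      dotInt (Spor.leechU : GolayPt → ℤ) (x : GolayPt → ℤ) = -8 ∧
      ∃ t ∈ T, t ≠ 1 ∧ t • x = x := by
  obtain ⟨g, hg⟩ := trans_norm32 latM3 Spor.leechU nM3 leechU_norm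
  have hgi : g⁻¹ • Spor.leechU = latM3 := by rw [inv_smul_eq_iff, hg]
  obtain ⟨e⟩ := permSub_equiv (M24 ⊓ fixing [23]) inf_le_left g
  refine ⟨permSub (M24 ⊓ fixing [23]) g, ?_, ?_, ?_, g • (-Spor.leechU), ?_, ?_,
    g * ppHom ⟨dblPt, dbl_mem⟩ * g⁻¹, ?_, ?_, ?_⟩
  · intro x hx
    obtain ⟨σ, hσ, rfl⟩ := exists_of_mem_permSub hx
    have h1 : σ.1 none = none := by
      have := hσ.2 23 (by simp)
      rwa [pt23] at this
    rw [MulAction.mem_stabilizer_iff, mul_smul, mul_smul, hgi, pp_latM3 h1, hg]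
  · have := isSimpleGroup_M23
    exact e.isSimpleGroup
  · rw [Nat.card_congr e.toEquiv, card_M23]
  · rw [co0_norm, AddSubgroup.coe_neg, sqNorm_neg', leechU_norm]
  · have h1 := co0_dot g latM3 (-Spor.leechU)
    rw [hg] at h1
    rw [h1, AddSubgroup.coe_neg, dot_neg_right]
    show -dotInt vecM3 Spor.vecU = -8
    rw [dM3U]
  · refine mem_permSub_of dbl_mem ⟨dbl_mem, ?_⟩
    intro i hi
    simp only [List.mem_cons, List.not_mem_nil, or_false] at hi
    rw [hi, pt23]
    exact dbl_none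
  · intro h
    have h1 : ppHom ⟨dblPt, dbl_mem⟩ = 1 := by
      have h2 := congrArg (fun y => g⁻¹ * y * g) h
      simp only [mul_one, inv_mul_cancel] at h2
      rw [← h2]
      group
    have h3 := ppHom_injective (h1.trans (map_one ppHom).symm)
    exact dbl_ne_one (congrArg Subtype.val h3)
  · rw [mul_smul, mul_smul, inv_smul_smul, co0_neg, pp_leechU dbl_none dbl_zero]

theorem exists_swap :
    ∃ σ : ↥M24, σ.1 none = some 0 ∧ σ.1 (some 0) = none ∧ σ.1 (some 3) = some 3 := by
  obtain ⟨σ, hσ, h1, h2, h3⟩ := m24_trans3 (p := none) (p' := some 0) (p'' := some 3)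
    (q := some 0) (q' := none) (q'' := some 3) (by decide) (by decide) (by decide) (by decide)
    (by decide) (by decide)
  exact ⟨⟨σ, hσ⟩, h1, h2, h3⟩

end Cfsg.Agent.Lib.Helper92
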