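-- The sign changes fixing `(4, 4, 0, …)` are commutators with the doubling permutation.
import Mathlib
import Cfsg.Agent.Lib.Helper92.Co2Perm

set_option autoImplicit false
open Cfsg

namespace Cfsg.Agent.Lib.Helper92

open Cfsg.Agent.S5552 Cfsg.Agent.Lib.Helper10 Cfsg.Agent.S5392 Cfsg.Agent.Lib.Helper9

/-- the non-zero squares modulo 23 -/
def qrSet : Finset (ZMod 23) := {1, 2, 4, 8, 16, 9, 18, 13, 3, 6, 12}

/-- the non-squares modulo 23 -/
def nqrSet : Finset (ZMod 23) := {5, 10, 20, 17, 11, 22, 21, 19, 15, 7, 14}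

theorem qr_pow : ∀ x ∈ qrSet, ∃ k : Fin 11, x = 2 ^ (k : ℕ) * 1 := by decide

theorem nqr_pow : ∀ x ∈ nqrSet, ∃ k : Fin 11, x = 2 ^ (k : ℕ) * 5 := by decide

theorem univ_split : (Finset.univ : Finset (ZMod 23)) = insert 0 (qrSet ∪ nqrSet) := by decide

theorem zero_notMem_split : (0 : ZMod 23) ∉ qrSet ∪ nqrSet := by decide

theorem qr_nqr_disj : Disjoint qrSet nqrSet := by decide

theorem dbl_pow (t : ZMod 23 → ℤ) (ht : ∀ x, t (2 * x) = t x) (k : ℕ) (x : ZMod 23) :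
    t (2 ^ k * x) = t x := by
  induction k with
  | zero => rw [pow_zero, one_mul]
  | succ k ih => rw [pow_succ, mul_assoc, mul_left_comm, ht, ih]

theorem sum_dbl_inv (t : ZMod 23 → ℤ) (ht : ∀ x, t (2 * x) = t x) :
    ∑ x : ZMod 23, t x = t 0 + 11 * t 1 + 11 * t 5 := by
  rw [univ_split, Finset.sum_insert zero_notMem_split, Finset.sum_union qr_nqr_disj]
  have h1 : ∑ x ∈ qrSet, t x = ∑ _x ∈ qrSet, t 1 := by
    apply Finset.sum_congr rfl
    intro x hx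
    obtain ⟨k, rfl⟩ := qr_pow x hx
    exact dbl_pow t ht k 1
  have h2 : ∑ x ∈ nqrSet, t x = ∑ _x ∈ nqrSet, t 5 := by
    apply Finset.sum_congr rfl
    intro x hx
    obtain ⟨k, rfl⟩ := nqr_pow x hx
    exact dbl_pow t ht k 5
  rw [h1, h2, Finset.sum_const, Finset.sum_const]
  have c1 : qrSet.card = 11 := by decide
  have c2 : nqrSet.card = 11 := by decide
  rw [c1, c2]
  simp only [nsmul_eq_mul]
  push_cast
  ring

theorem dbl_class (t : ZMod 23 → ℤ) (ht : ∀ x, t (2 * x) = t x) (x : ZMod 23) :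
    t x = t 0 ∨ t x = t 1 ∨ t x = t 5 := by
  have hx : x ∈ (Finset.univ : Finset (ZMod 23)) := Finset.mem_univ x
  rw [univ_split, Finset.mem_insert, Finset.mem_union] at hx
  rcases hx with rfl | hx | hx
  · exact Or.inl rfl
  · obtain ⟨k, rfl⟩ := qr_pow x hx
    exact Or.inr (Or.inl (dbl_pow t ht k 1))
  · obtain ⟨k, rfl⟩ := nqr_pow x hx
    exact Or.inr (Or.inr (dbl_pow t ht k 5))

theorem vecM3_ne_zero : ∀ i : GolayPt, vecM3 i ≠ 0 := by decide

theorem pm_of_mul_self {a : ℤ} (h : a * a = 1) : a = 1 ∨ a = -1 := by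
  have h1 : (a - 1) * (a + 1) = 0 := by ring_nf; rw [← h]; ring
  rcases mul_eq_zero.mp h1 with h2 | h2
  · left; omega
  · right; omega

/-- A sign change fixing `(4, 4, 0, …)` and commuting with the doubling permutation is
trivial. -/
theorem sgnT_comm_dbl (h : ↥Co0) (hh : h ∈ sgnT)
    (hc : h * ppHom ⟨dblPt, dbl_mem⟩ = ppHom ⟨dblPt, dbl_mem⟩ * h) : h = 1 := by
  obtain ⟨hfix, s, hs, hD⟩ := hh
  have hinv : ∀ i, s (dblPt.symm i) = s i := by
    intro i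
    have h1 := congrArg (fun g : ↥Co0 => ((g • latM3 : leechLattice) : GolayPt → ℤ) i) hc
    simp only [mul_smul] at h1
    rw [hD] at h1
    have e1 : ((ppHom ⟨dblPt, dbl_mem⟩ • latM3 : leechLattice) : GolayPt → ℤ) i =
        vecM3 (dblPt.symm i) := rfl
    have e2 : ((ppHom ⟨dblPt, dbl_mem⟩ • (h • latM3) : leechLattice) : GolayPt → ℤ) i =
        ((h • latM3 : leechLattice) : GolayPt → ℤ) (dblPt.symm i) := rfl
    rw [e1, e2, hD] at h1
    have e3 : (latM3 : GolayPt → ℤ) (dblPt.symm i) = vecM3 (dblPt.symm i) := rfl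
    rw [e3] at h1
    exact (mul_right_cancel₀ (vecM3_ne_zero _) h1).symm
  have ht : ∀ x : ZMod 23, s (some (2 * x)) = s (some x) := by
    intro x
    have h1 := hinv (some (2 * x))
    have e : dblPt.symm (some (2 * x)) = some x := by
      rw [Equiv.symm_apply_eq]
      rfl
    rw [e] at h1
    exact h1.symm
  have hs_none : s none = 1 := by
    have h1 := hD Spor.leechU none
    rw [hfix] at h1
    have h2 : (Spor.leechU : GolayPt → ℤ) none = 4 := rfl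
    rw [h2] at h1
    omega
  have hs_zero : s (some 0) = 1 := by
    have h1 := hD Spor.leechU (some 0)
    rw [hfix] at h1
    have h2 : (Spor.leechU : GolayPt → ℤ) (some 0) = 4 := rfl
    rw [h2] at h1
    omega
  have hdvd := dvd_dot (h • latM3) latM3
  have hdot : dotInt ((h • latM3 : leechLattice) : GolayPt → ℤ) (latM3 : GolayPt → ℤ) =
      9 * s none + ∑ x : ZMod 23, s (some x) := by
    unfold dotInt
    rw [Fintype.sum_option]
    congr 1
    · rw [hD]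
      have h2 : (latM3 : GolayPt → ℤ) none = 3 := rfl
      rw [h2]
      ring
    · apply Finset.sum_congr rfl
      intro x _
      rw [hD]
      have h2 : (latM3 : GolayPt → ℤ) (some x) = -1 := rfl
      rw [h2]
      ring
  rw [hdot, sum_dbl_inv (fun x => s (some x)) ht, hs_none, hs_zero] at hdvd
  have hs1 : s (some 1) = 1 ∧ s (some 5) = 1 := by
    rcases pm_of_mul_self (hs (some 1)) with h1 | h1 <;>
      rcases pm_of_mul_self (hs (some 5)) with h5 | h5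
    · exact ⟨h1, h5⟩
    · exfalso
      rw [h1, h5] at hdvd
      norm_num at hdvd
    · exfalso
      rw [h1, h5] at hdvd
      norm_num at hdvd
    · exfalso
      rw [h1, h5] at hdvd
      norm_num at hdvd
  have hall : ∀ i, s i = 1 := by
    intro i
    cases i with
    | none => exact hs_none
    | some x =>
      rcases dbl_class (fun x => s (some x)) ht x with h1 | h1 | h1
      · exact h1.trans hs_zero
      · exact h1.trans hs1.1
      · exact h1.trans hs1.2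
  apply Subtype.ext
  apply Equiv.ext
  intro v
  apply Subtype.ext
  funext i
  show ((h • v : leechLattice) : GolayPt → ℤ) i = (v : GolayPt → ℤ) i
  rw [hD, hall, one_mul]

theorem sgnT_conj_dbl (g : ↥Co0) (hg : g ∈ sgnT) :
    ppHom ⟨dblPt, dbl_mem⟩ * g * (ppHom ⟨dblPt, dbl_mem⟩)⁻¹ ∈ sgnT := by
  obtain ⟨hfix, s, hs, hD⟩ := hg
  have hπ := pp_leechU (σ := ⟨dblPt, dbl_mem⟩) dbl_none dbl_zero
  refine ⟨?_, fun i => s (dblPt.symm i), fun i => hs _, fun v i => ?_⟩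
  · rw [mul_smul, mul_smul, inv_smul_eq_iff.mpr hπ.symm, hfix, hπ]
  · rw [mul_smul, mul_smul]
    show ((g • ((ppHom ⟨dblPt, dbl_mem⟩)⁻¹ • v) : leechLattice) : GolayPt → ℤ) (dblPt.symm i) = _
    rw [hD]
    congr 1
    show (v : GolayPt → ℤ) (dblPt (dblPt.symm i)) = (v : GolayPt → ℤ) i
    rw [Equiv.apply_symm_apply]

/-- A subgroup normalised by the stabiliser of `(4, 4, 0, …)` and containing the doubling
permutation contains all sign changes fixing that vector. -/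
theorem sgnT_le_of (N' : Subgroup ↥Co0)
    (hnorm : ∀ k : ↥Co0, k • Spor.leechU = Spor.leechU → ∀ n ∈ N', k * n * k⁻¹ ∈ N')
    (hπ : ppHom ⟨dblPt, dbl_mem⟩ ∈ N') : sgnT ≤ N' := by
  have := co0_finite
  have hmem : ∀ f : ↥sgnT, (f : ↥Co0) * ppHom ⟨dblPt, dbl_mem⟩ * (f : ↥Co0)⁻¹ *
      (ppHom ⟨dblPt, dbl_mem⟩)⁻¹ ∈ sgnT := by
    intro f
    have h1 := sgnT_conj_dbl _ (sgnT.inv_mem f.2)
    have h2 := sgnT.mul_mem f.2 h1
    have e : (f : ↥Co0) * (ppHom ⟨dblPt, dbl_mem⟩ * (f : ↥Co0)⁻¹ * (ppHom ⟨dblPt, dbl_mem⟩)⁻¹) =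
        (f : ↥Co0) * ppHom ⟨dblPt, dbl_mem⟩ * (f : ↥Co0)⁻¹ * (ppHom ⟨dblPt, dbl_mem⟩)⁻¹ := by
      group
    rwa [e] at h2
  have hinj : Function.Injective (fun f : ↥sgnT => (⟨_, hmem f⟩ : ↥sgnT)) := by
    intro f g hfg
    have h1 : (f : ↥Co0) * ppHom ⟨dblPt, dbl_mem⟩ * (f : ↥Co0)⁻¹ * (ppHom ⟨dblPt, dbl_mem⟩)⁻¹ =
        (g : ↥Co0) * ppHom ⟨dblPt, dbl_mem⟩ * (g : ↥Co0)⁻¹ * (ppHom ⟨dblPt, dbl_mem⟩)⁻¹ :=
      congrArg Subtype.val hfg
    have h2 : ((g : ↥Co0)⁻¹ * (f : ↥Co0)) * ppHom ⟨dblPt, dbl_mem⟩ =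
        ppHom ⟨dblPt, dbl_mem⟩ * ((g : ↥Co0)⁻¹ * (f : ↥Co0)) := by
      have h3 := mul_right_cancel h1
      calc ((g : ↥Co0)⁻¹ * (f : ↥Co0)) * ppHom ⟨dblPt, dbl_mem⟩
          = (g : ↥Co0)⁻¹ * ((f : ↥Co0) * ppHom ⟨dblPt, dbl_mem⟩ * (f : ↥Co0)⁻¹) * (f : ↥Co0) := by
            group
        _ = (g : ↥Co0)⁻¹ * ((g : ↥Co0) * ppHom ⟨dblPt, dbl_mem⟩ * (g : ↥Co0)⁻¹) * (f : ↥Co0) := by
            rw [h3]
        _ = ppHom ⟨dblPt, dbl_mem⟩ * ((g : ↥Co0)⁻¹ * (f : ↥Co0)) := by group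
    have h4 := sgnT_comm_dbl _ (sgnT.mul_mem (sgnT.inv_mem g.2) f.2) h2
    exact Subtype.ext (inv_mul_eq_one.mp h4).symm
  have hsurj := Finite.injective_iff_surjective.mp hinj
  intro f hf
  obtain ⟨h, hh⟩ := hsurj ⟨f, hf⟩
  have h1 : (h : ↥Co0) * ppHom ⟨dblPt, dbl_mem⟩ * (h : ↥Co0)⁻¹ * (ppHom ⟨dblPt, dbl_mem⟩)⁻¹ = f :=
    congrArg Subtype.val hh
  rw [← h1]
  exact N'.mul_mem (hnorm h h.2.1 _ hπ) (N'.inv_mem hπ)

end Cfsg.Agent.Lib.Helper92
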