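-- The stabiliser of a minimal vector in the automorphism group of the rank-24 lattice is simple.
import Mathlib
import Cfsg.Agent.Lib.Helper92.Co2Sgn
import Cfsg.Agent.Lib.Helper92.Co1Simple
import Cfsg.Agent.Lib.Helper10.McLSimple2
import Cfsg.Agent.Lib.Helper10.Co0Order
import Cfsg.Agent.Lib.Helper10.Monomial

set_option autoImplicit false
open Cfsg

namespace Cfsg.Agent.Lib.Helper92

open Cfsg.Agent.S5552 Cfsg.Agent.Lib.Helper10 Cfsg.Agent.S5392 Cfsg.Agent.Lib.Helper9

theorem card_stab_min (v : leechLattice) (hv : sqNorm (v : GolayPt → ℤ) = 32) :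
    Nat.card ↥(MulAction.stabilizer ↥Co0 v) = 42305421312000 := by
  have h1 := Subgroup.index_mul_card (MulAction.stabilizer ↥Co0 v)
  rw [MulAction.index_stabilizer, orbit_min v hv, minSet_ncard, card_co0] at h1
  omega

theorem mono_fix_axis {σ : Equiv.Perm GolayPt} {c : Finset GolayPt} {j : GolayPt}
    (h : signedPerm σ c (Pi.single j 8) j = 8) : σ j = j ∧ j ∉ c := by
  unfold signedPerm at h
  by_cases hj : σ.symm j = j
  · have e : σ j = j := by
      rw [Equiv.symm_apply_eq] at hj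
      exact hj.symm
    refine ⟨e, ?_⟩
    intro hc
    rw [if_pos hc, hj, Pi.single_eq_same] at h
    omega
  · rw [Pi.single_eq_of_ne hj] at h
    split_ifs at h <;> omega

theorem axis_none_eq : axisVec none = Spor.leechU + Spor.leechU' := by
  apply Subtype.ext
  funext i
  show (Pi.single none (8 : ℤ) : GolayPt → ℤ) i = Spor.vecU i + Spor.vecU' i
  revert i
  decide

theorem axis_zero_eq : axisVec (some 0) = Spor.leechU + (-Spor.leechU') := by
  apply Subtype.ext
  funext i
  show (Pi.single (some 0) (8 : ℤ) : GolayPt → ℤ) i = Spor.vecU i + (-Spor.vecU' i)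
  revert i
  decide

/-- A normal subgroup of the stabiliser of `(4, 4, 0, …)` containing the stabilisers of the
minimal vectors of inner product `-8` contains the stabiliser of the pair `±(4, -4, 0, …)`. -/
theorem pairStab_le (N : Subgroup ↥(MulAction.stabilizer ↥Co0 Spor.leechU)) [hN : N.Normal]
    (hM : ∀ y : leechLattice, sqNorm (y : GolayPt → ℤ) = 32 →
      dotInt (Spor.leechU : GolayPt → ℤ) (y : GolayPt → ℤ) = -8 → ∀ g : ↥Co0,
      g • Spor.leechU = Spor.leechU → g • y = y →
      g ∈ N.map (MulAction.stabilizer ↥Co0 Spor.leechU).subtype)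
    (g : ↥Co0) (hgU : g • Spor.leechU = Spor.leechU) (hgP : g ∈ pairStab) :
    g ∈ N.map (MulAction.stabilizer ↥Co0 Spor.leechU).subtype := by
  have := co0_finite
  have hnorm : ∀ k : ↥Co0, k • Spor.leechU = Spor.leechU →
      ∀ n ∈ N.map (MulAction.stabilizer ↥Co0 Spor.leechU).subtype,
      k * n * k⁻¹ ∈ N.map (MulAction.stabilizer ↥Co0 Spor.leechU).subtype :=
    fun k hk n hn => conj_mem_map _ N hk hn
  obtain ⟨e⟩ := permSub_equiv (M24 ⊓ fixing [0, 23]) inf_le_left 1
  have hm22K : permSub (M24 ⊓ fixing [0, 23]) 1 ≤ MulAction.stabilizer ↥Co0 Spor.leechU := by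
    intro x hx
    obtain ⟨σ, hσ, rfl⟩ := exists_of_mem_permSub hx
    have h1 := m22_fix ⟨σ.1, hσ⟩
    rw [MulAction.mem_stabilizer_iff, one_mul, inv_one, mul_one]
    exact pp_leechU h1.1 h1.2
  have hm22s : IsSimpleGroup ↥(permSub (M24 ⊓ fixing [0, 23]) 1) := by
    have := isSimpleGroup_M22
    exact e.isSimpleGroup
  have hm22 : permSub (M24 ⊓ fixing [0, 23]) 1 ≤
      N.map (MulAction.stabilizer ↥Co0 Spor.leechU).subtype := by
    rcases simple_sub_cases _ N _ hm22K hm22s with h | ⟨h, -⟩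
    · exact h
    · exfalso
      have h1 : (1 : ↥Co0) * ppHom ⟨cubeTwist, cubeTwist_mem⟩ * 1⁻¹ ∈
          permSub (M24 ⊓ fixing [0, 23]) 1 := mem_permSub_of cubeTwist_mem cubeTwist_mem22
      have hc := m22_fix ⟨cubeTwist, cubeTwist_mem22⟩
      have h2 : (1 : ↥Co0) * ppHom ⟨cubeTwist, cubeTwist_mem⟩ * 1⁻¹ ∈
          N.map (MulAction.stabilizer ↥Co0 Spor.leechU).subtype := by
        apply hM latX3 nX3 dUX3
        · rw [one_mul, inv_one, mul_one]
          exact pp_leechU hc.1 hc.2
        · rw [one_mul, inv_one, mul_one]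
          exact pp_latX3 cubeTwist_three
      have h3 := h _ h1 h2
      rw [one_mul, inv_one, mul_one] at h3
      have h4 := ppHom_injective (h3.trans (map_one ppHom).symm)
      exact cubeTwist_ne_one (congrArg Subtype.val h4)
  have hpp : ∀ σ : ↥M24, σ.1 none = none → σ.1 (some 0) = some 0 →
      ppHom σ ∈ N.map (MulAction.stabilizer ↥Co0 Spor.leechU).subtype := by
    intro σ h1 h2
    have h3 : (1 : ↥Co0) * ppHom σ * 1⁻¹ ∈ permSub (M24 ⊓ fixing [0, 23]) 1 :=
      mem_permSub_of σ.2 ⟨σ.2, mem_fixing_pair (by rw [pt23]; exact h1) (by rw [pt0]; exact h2)⟩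
    have h4 := hm22 h3
    rwa [one_mul, inv_one, mul_one] at h4
  have hπ : ppHom ⟨dblPt, dbl_mem⟩ ∈ N.map (MulAction.stabilizer ↥Co0 Spor.leechU).subtype :=
    hpp ⟨dblPt, dbl_mem⟩ dbl_none dbl_zero
  have hsgn : sgnT ≤ N.map (MulAction.stabilizer ↥Co0 Spor.leechU).subtype :=
    sgnT_le_of _ hnorm hπ
  obtain ⟨σ₀, hs1, hs2, hs3⟩ := exists_swap
  have hs0 : ppHom σ₀ ∈ N.map (MulAction.stabilizer ↥Co0 Spor.leechU).subtype :=
    hM latX3 nX3 dUX3 _ (pp_leechU_swap hs1 hs2) (pp_latX3 hs3)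
  have hfixcase : ∀ g : ↥Co0, g • Spor.leechU = Spor.leechU → g • Spor.leechU' = Spor.leechU' →
      g ∈ N.map (MulAction.stabilizer ↥Co0 Spor.leechU).subtype := by
    intro g hgU hgU'
    have ha1 : g • axisVec none = axisVec none := by
      rw [axis_none_eq, co0_add, hgU, hgU']
    have ha2 : g • axisVec (some 0) = axisVec (some 0) := by
      rw [axis_zero_eq, co0_add, co0_neg, hgU, hgU']
    obtain ⟨σ, hσ, c, hc, hform⟩ :=
      monomial_of_cross g.2 (stab_le_crossSub (MulAction.mem_stabilizer_iff.mpr ha1))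
    have h1 : signedPerm σ c (Pi.single none 8) none = 8 := by
      have h := congrFun (hform (axisVec none)) none
      have e : (g.1 (axisVec none) : leechLattice) = axisVec none := ha1
      rw [e] at h
      calc signedPerm σ c (Pi.single none 8) none
          = ((axisVec none : leechLattice) : GolayPt → ℤ) none := h.symm
        _ = 8 := by rw [axisVec_apply, if_pos rfl]
    have h2 : signedPerm σ c (Pi.single (some 0) 8) (some 0) = 8 := by
      have h := congrFun (hform (axisVec (some 0))) (some 0)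
      have e : (g.1 (axisVec (some 0)) : leechLattice) = axisVec (some 0) := ha2
      rw [e] at h
      calc signedPerm σ c (Pi.single (some 0) 8) (some 0)
          = ((axisVec (some 0) : leechLattice) : GolayPt → ℤ) (some 0) := h.symm
        _ = 8 := by rw [axisVec_apply, if_pos rfl]
    have hσ1 := mono_fix_axis h1
    have hσ2 := mono_fix_axis h2
    have hg : g = ⟨signPerm c hc, signPerm_mem c hc⟩ * ppHom ⟨σ, hσ⟩ := by
      apply Subtype.ext
      apply Equiv.ext
      intro v
      apply Subtype.ext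
      exact hform v
    rw [hg]
    exact Subgroup.mul_mem _ (hsgn (signPerm_mem_sgnT c hc hσ1.2 hσ2.2))
      (hpp ⟨σ, hσ⟩ hσ1.1 hσ2.1)
  rcases hgP with h | h
  · exact hfixcase g hgU h
  · have h1 : ppHom σ₀ * g ∈ N.map (MulAction.stabilizer ↥Co0 Spor.leechU).subtype := by
      apply hfixcase
      · rw [mul_smul, hgU, pp_leechU_swap hs1 hs2]
      · rw [mul_smul, h, co0_neg, pp_leechU'_swap hs1 hs2, neg_neg]
    have h2 := Subgroup.mul_mem _ (Subgroup.inv_mem _ hs0) h1
    rwa [inv_mul_cancel_left] at h2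

theorem card_pairStabU :
    Nat.card ↥(MulAction.stabilizer ↥Co0 Spor.leechU ⊓ pairStab) = 908328960 := by
  have h1 := card_stab_inf (MulAction.stabilizer ↥Co0 Spor.leechU) Spor.leechU'
  have e1 : {y : leechLattice | ∃ k ∈ MulAction.stabilizer ↥Co0 Spor.leechU,
      k • Spor.leechU' = y} = dset Spor.leechU 0 := by
    ext y
    constructor
    · rintro ⟨k, hk, rfl⟩
      refine ⟨by rw [co0_norm]; exact nU', ?_⟩
      have h := co0_dot k Spor.leechU Spor.leechU'
      rw [MulAction.mem_stabilizer_iff.mp hk] at h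
      rw [h]
      exact dUU'
    · rintro ⟨hy1, hy2⟩
      obtain ⟨k, hk1, hk2⟩ := stab_trans Spor.leechU Spor.leechU' y leechU_norm nU' hy1
        (dUU'.trans hy2.symm)
      exact ⟨k, hk1, hk2⟩
  rw [e1, (dset_ncard Spor.leechU leechU_norm).2.2.1, card_stab_min _ leechU_norm] at h1
  have h2 := card_stab_inf (MulAction.stabilizer ↥Co0 Spor.leechU ⊓ pairStab) Spor.leechU'
  have e2 : {y : leechLattice | ∃ k ∈ MulAction.stabilizer ↥Co0 Spor.leechU ⊓ pairStab,
      k • Spor.leechU' = y} = {Spor.leechU', -Spor.leechU'} := by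
    ext y
    constructor
    · rintro ⟨k, hk, rfl⟩
      rcases (Subgroup.mem_inf.mp hk).2 with h | h
      · left
        exact h
      · right
        exact h
    · rintro (rfl | rfl)
      · exact ⟨1, Subgroup.one_mem _, one_smul _ _⟩
      · obtain ⟨σ₀, hs1, hs2, hs3⟩ := exists_swap
        exact ⟨ppHom σ₀, Subgroup.mem_inf.mpr ⟨pp_leechU_swap hs1 hs2,
          Or.inr (pp_leechU'_swap hs1 hs2)⟩, pp_leechU'_swap hs1 hs2⟩
  have e3 : (MulAction.stabilizer ↥Co0 Spor.leechU ⊓ pairStab) ⊓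
      MulAction.stabilizer ↥Co0 Spor.leechU' =
      MulAction.stabilizer ↥Co0 Spor.leechU ⊓ MulAction.stabilizer ↥Co0 Spor.leechU' := by
    ext k
    constructor
    · intro hk
      have h3 := Subgroup.mem_inf.mp hk
      exact Subgroup.mem_inf.mpr ⟨(Subgroup.mem_inf.mp h3.1).1, h3.2⟩
    · intro hk
      have h3 := Subgroup.mem_inf.mp hk
      exact Subgroup.mem_inf.mpr ⟨Subgroup.mem_inf.mpr ⟨h3.1, Or.inl h3.2⟩, h3.2⟩
  rw [e2, e3, Set.ncard_pair (min_ne_neg Spor.leechU' nU')] at h2
  omega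

theorem lcm_co2 : Nat.lcm 898128000 (Nat.lcm 10200960 908328960) = 42305421312000 := by
  decide +kernel

theorem gcd_co2 : Nat.gcd 47104 4147200 = 2048 := by decide +kernel

/-- The stabiliser of `(4, 4, 0, …)` is simple. -/
theorem co2_simple_U : IsSimpleGroup ↥(MulAction.stabilizer ↥Co0 Spor.leechU) := by
  have := co0_finite
  have hcK := card_stab_min Spor.leechU leechU_norm
  have hnt : Nontrivial ↥(MulAction.stabilizer ↥Co0 Spor.leechU) := by
    rw [← Finite.one_lt_card_iff_nontrivial, hcK]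
    norm_num
  refine { exists_pair_ne := hnt.exists_pair_ne, eq_bot_or_eq_top_of_normal := ?_ }
  intro N hN
  have hx3n : sqNorm (latX3 : GolayPt → ℤ) = 32 := nX3
  have hx3d : dotInt (Spor.leechU : GolayPt → ℤ) (latX3 : GolayPt → ℤ) = -8 := dUX3
  obtain ⟨hMs, hMc⟩ := mcl_main Spor.leechU latX3 leechU_norm hx3n hx3d
  obtain ⟨T, hTK, hTs, hTc, x, hxn, hxd, t, htT, ht1, htx⟩ := exists_m23
  have hnorm : ∀ k : ↥Co0, k • Spor.leechU = Spor.leechU →
      ∀ n ∈ N.map (MulAction.stabilizer ↥Co0 Spor.leechU).subtype,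
      k * n * k⁻¹ ∈ N.map (MulAction.stabilizer ↥Co0 Spor.leechU).subtype :=
    fun k hk n hn => conj_mem_map _ N hk hn
  -- conjugating the stabiliser of `y` onto the stabiliser of `latX3`
  have hconj : ∀ y : leechLattice, sqNorm (y : GolayPt → ℤ) = 32 →
      dotInt (Spor.leechU : GolayPt → ℤ) (y : GolayPt → ℤ) = -8 → ∀ g : ↥Co0,
      g • Spor.leechU = Spor.leechU → g • y = y → ∃ k : ↥Co0, k • Spor.leechU = Spor.leechU ∧
        k * g * k⁻¹ ∈ MulAction.stabilizer ↥Co0 Spor.leechU ⊓ MulAction.stabilizer ↥Co0 latX3 := by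
    intro y hyn hyd g hgU hgy
    obtain ⟨k, hk1, hk2⟩ := stab_trans Spor.leechU y latX3 leechU_norm hyn hx3n
      (hyd.trans hx3d.symm)
    refine ⟨k, hk1, Subgroup.mem_inf.mpr ⟨?_, ?_⟩⟩
    · rw [MulAction.mem_stabilizer_iff, mul_smul, mul_smul, inv_smul_eq_iff.mpr hk1.symm, hgU,
        hk1]
    · rw [MulAction.mem_stabilizer_iff, mul_smul, mul_smul, inv_smul_eq_iff.mpr hk2.symm, hgy,
        hk2]
  rcases simple_sub_cases (MulAction.stabilizer ↥Co0 Spor.leechU) N
    (MulAction.stabilizer ↥Co0 Spor.leechU ⊓ MulAction.stabilizer ↥Co0 latX3) inf_le_left hMs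
    with hB | ⟨hA1, hA2⟩
  · right
    have hM : ∀ y : leechLattice, sqNorm (y : GolayPt → ℤ) = 32 →
        dotInt (Spor.leechU : GolayPt → ℤ) (y : GolayPt → ℤ) = -8 → ∀ g : ↥Co0,
        g • Spor.leechU = Spor.leechU → g • y = y →
        g ∈ N.map (MulAction.stabilizer ↥Co0 Spor.leechU).subtype := by
      intro y hyn hyd g hgU hgy
      obtain ⟨k, hk1, hk2⟩ := hconj y hyn hyd g hgU hgy
      have h2 := hnorm k⁻¹ (by rw [inv_smul_eq_iff, hk1]) _ (hB hk2)
      have e : k⁻¹ * (k * g * k⁻¹) * k⁻¹⁻¹ = g := by group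
      rwa [e] at h2
    have hT : T ≤ N.map (MulAction.stabilizer ↥Co0 Spor.leechU).subtype := by
      rcases simple_sub_cases _ N T hTK hTs with h | ⟨h, -⟩
      · exact h
      · exfalso
        exact ht1 (h t htT (hM x hxn hxd t (hTK htT) htx))
    have hL : MulAction.stabilizer ↥Co0 Spor.leechU ⊓ pairStab ≤
        N.map (MulAction.stabilizer ↥Co0 Spor.leechU).subtype := by
      intro g hg
      have hg' := Subgroup.mem_inf.mp hg
      exact pairStab_le N hM g hg'.1 hg'.2
    have c1 := card_dvd_of_le_map _ N _ hB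
    have c2 := card_dvd_of_le_map _ N T hT
    have c3 := card_dvd_of_le_map _ N _ hL
    rw [hMc] at c1
    rw [hTc] at c2
    rw [card_pairStabU] at c3
    have c4 : Nat.card N ∣ 42305421312000 := by
      rw [← hcK]
      exact Subgroup.card_subgroup_dvd_card N
    have c5 : Nat.card N = 42305421312000 := by
      have h1 : Nat.lcm 898128000 (Nat.lcm 10200960 908328960) ∣ Nat.card N :=
        Nat.lcm_dvd c1 (Nat.lcm_dvd c2 c3)
      rw [lcm_co2] at h1
      exact Nat.dvd_antisymm c4 h1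
    exact Subgroup.eq_top_of_card_eq N (by rw [c5, hcK])
  · left
    have hA : ∀ y : leechLattice, sqNorm (y : GolayPt → ℤ) = 32 →
        dotInt (Spor.leechU : GolayPt → ℤ) (y : GolayPt → ℤ) = -8 → ∀ g : ↥Co0,
        g • Spor.leechU = Spor.leechU → g • y = y →
        g ∈ N.map (MulAction.stabilizer ↥Co0 Spor.leechU).subtype → g = 1 := by
      intro y hyn hyd g hgU hgy hgN
      obtain ⟨k, hk1, hk2⟩ := hconj y hyn hyd g hgU hgy
      exact conj_eq_one_iff.mp (hA1 _ hk2 (hnorm k hk1 g hgN))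
    have hT : Nat.card N * Nat.card T ∣
        Nat.card ↥(MulAction.stabilizer ↥Co0 Spor.leechU) := by
      rcases simple_sub_cases _ N T hTK hTs with h | ⟨-, h⟩
      · exfalso
        exact ht1 (hA x hxn hxd t (hTK htT) htx (h htT))
      · exact h
    rw [hTc, hcK] at hT
    rw [hMc, hcK] at hA2
    have c1 : Nat.card N ∣ 47104 :=
      Nat.dvd_of_mul_dvd_mul_right (by norm_num : 0 < 898128000)
        (by rw [show 47104 * 898128000 = 42305421312000 by norm_num]; exact hA2)
    have c2 : Nat.card N ∣ 4147200 :=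
      Nat.dvd_of_mul_dvd_mul_right (by norm_num : 0 < 10200960)
        (by rw [show 4147200 * 10200960 = 42305421312000 by norm_num]; exact hT)
    have c3 : Nat.card N ∣ 2 ^ 11 := by
      have h := Nat.dvd_gcd c1 c2
      rw [gcd_co2] at h
      exact h.trans (by norm_num)
    have hN1 : ∀ γ ∈ N.map (MulAction.stabilizer ↥Co0 Spor.leechU).subtype, γ = 1 := by
      apply no_normal_two Spor.leechU leechU_norm
        (N.map (MulAction.stabilizer ↥Co0 Spor.leechU).subtype)
      · intro γ hγ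
        exact map_le_self _ N hγ
      · intro σ hσ γ hγ
        exact hnorm σ hσ γ hγ
      · intro γ hγ
        obtain ⟨n, hn, rfl⟩ := Subgroup.mem_map.mp hγ
        refine ⟨11, ?_⟩
        have h1 : orderOf (⟨n, hn⟩ : ↥N) ∣ 2 ^ 11 := (orderOf_dvd_natCard _).trans c3
        have h2 : (⟨n, hn⟩ : ↥N) ^ (2 ^ 11) = 1 := orderOf_dvd_iff_pow_eq_one.mp h1
        have h3 : n ^ (2 ^ 11) = 1 := by
          have h := congrArg Subtype.val h2
          rw [Subgroup.coe_pow] at h
          exact h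
        have h4 : (n : ↥Co0) ^ (2 ^ 11) = 1 := by
          have h := congrArg Subtype.val h3
          rw [Subgroup.coe_pow] at h
          exact h
        exact h4
    rw [eq_bot_iff]
    intro n hn
    rw [Subgroup.mem_bot]
    exact Subtype.ext (hN1 _ (Subgroup.mem_map.mpr ⟨n, hn, rfl⟩))

/-- The stabiliser of a minimal vector of the rank-24 lattice is simple. -/
theorem co2_simple (v : leechLattice) (hv : sqNorm (v : GolayPt → ℤ) = 32) :
    IsSimpleGroup ↥(MulAction.stabilizer ↥Co0 v) := by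
  obtain ⟨g, hg⟩ := trans_norm32 Spor.leechU v leechU_norm hv
  have := co2_simple_U
  exact (MulAction.stabilizerEquivStabilizer hg.symm).symm.isSimpleGroup

end Cfsg.Agent.Lib.Helper92
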