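-- Abelian subgroups and centralizers in extraspecial 2-groups (in the `XS` form of
-- `Cfsg.Agent.S5408`): counting bounds.
import Mathlib
import Cfsg.Agent.Lib.Helper92.MonsterXS

set_option autoImplicit false
open Cfsg
open scoped commutatorElement

namespace Cfsg.Agent.Lib.Helper92

open Cfsg.Agent.S5408

/-- the sign attached to an element of `ZMod 2` -/
def sgn2 (a : ZMod 2) : ℤ := if a = 0 then 1 else -1

theorem sgn2_add (a b : ZMod 2) : sgn2 (a + b) = sgn2 a * sgn2 b := by
  revert a b
  decide

theorem sgn2_zero : sgn2 0 = 1 := rfl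

theorem sgn2_one : sgn2 1 = -1 := rfl

/-- The sum of the signs of a non-trivial additive character to `ZMod 2` vanishes. -/
theorem sum_sgn2_eq_zero {X : Type*} [Group X] [Fintype X] (χ : X → ZMod 2)
    (hχ : ∀ a b, χ (a * b) = χ a + χ b) (x0 : X) (h0 : χ x0 = 1) :
    ∑ x : X, sgn2 (χ x) = 0 := by
  have h1 : ∑ x : X, sgn2 (χ (x0 * x)) = ∑ x : X, sgn2 (χ x) :=
    Fintype.sum_equiv (Equiv.mulLeft x0) _ _ (fun x => rfl)
  have h2 : ∑ x : X, sgn2 (χ (x0 * x)) = - ∑ x : X, sgn2 (χ x) := by
    rw [← Finset.sum_neg_distrib]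
    apply Finset.sum_congr rfl
    intro x _
    rw [hχ, h0, sgn2_add, sgn2_one]
    ring
  omega

/-- The sum of the signs of the trivial character is the order of the group. -/
theorem sum_sgn2_trivial {X : Type*} [Fintype X] (χ : X → ZMod 2) (hχ : ∀ a, χ a = 0) :
    ∑ x : X, sgn2 (χ x) = Fintype.card X := by
  have h1 : ∀ x ∈ (Finset.univ : Finset X), sgn2 (χ x) = 1 := by
    intro x _
    rw [hχ, sgn2_zero]
  rw [Finset.sum_congr rfl h1, Finset.sum_const, Finset.card_univ]
  simp

section XSAbel
variable {X : Type*} [Group X]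

/-- An abelian subgroup `A` of an extraspecial 2-group `X` satisfies `|A|² ≤ 2 |X|`. -/
theorem abelian_bound [Finite X] {ζ : X} (h : XS X ζ) (A : Subgroup X)
    (hA : ∀ a ∈ A, ∀ b ∈ A, a * b = b * a) : Nat.card A * Nat.card A ≤ 2 * Nat.card X := by
  classical
  haveI : Fintype X := Fintype.ofFinite X
  haveI : Fintype A := Fintype.ofFinite A
  have hrow : ∀ a : A, ∑ x : X, sgn2 (cmv (a : X) x) =
      if ((a : X) = 1 ∨ (a : X) = ζ) then (Fintype.card X : ℤ) else 0 := by
    intro a
    split_ifs with hc
    · apply sum_sgn2_trivial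
      intro x
      rw [cmv_symm, cmv_central h x hc]
    · have hex : ∃ x0 : X, cmv (a : X) x0 = 1 := by
        by_contra hne
        push Not at hne
        apply hc
        apply h.ctr
        rw [Subgroup.mem_center_iff]
        intro t
        rcases zmod2_01 (cmv (a : X) t) with h3 | h3
        · exact ((cmv_eq_zero_iff _ _).mp h3).symm
        · exact absurd h3 (hne t)
      obtain ⟨x0, hx0⟩ := hex
      exact sum_sgn2_eq_zero (fun x => cmv (a : X) x) (fun p q => cmv_mul h _ p q) x0 hx0
  have hcol0 : ∀ x : X, (0 : ℤ) ≤ ∑ a : A, sgn2 (cmv (a : X) x) := by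
    intro x
    by_cases hex : ∃ a0 : A, cmv (a0 : X) x = 1
    · obtain ⟨a0, ha0⟩ := hex
      rw [sum_sgn2_eq_zero (fun a : A => cmv (a : X) x)
        (fun p q => by
          show cmv ((p : X) * (q : X)) x = _
          rw [cmv_mul_left h]) a0 ha0]
    · push Not at hex
      rw [sum_sgn2_trivial (fun a : A => cmv (a : X) x) (fun a => by
        rcases zmod2_01 (cmv (a : X) x) with h3 | h3
        · exact h3
        · exact absurd h3 (hex a))]
      exact Int.natCast_nonneg _
  have hcol1 : ∀ b : A, ∑ a : A, sgn2 (cmv (a : X) (b : X)) = Fintype.card A := by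
    intro b
    apply sum_sgn2_trivial
    intro a
    exact (cmv_eq_zero_iff _ _).mpr (hA a a.2 b b.2)
  -- the double sum, computed along the rows
  have hS1 : ∑ a : A, ∑ x : X, sgn2 (cmv (a : X) x) ≤ 2 * (Fintype.card X : ℤ) := by
    rw [Finset.sum_congr rfl (fun a _ => hrow a), Finset.sum_ite, Finset.sum_const_zero, add_zero,
      Finset.sum_const, nsmul_eq_mul]
    have h2 : (Finset.univ.filter fun a : A => (a : X) = 1 ∨ (a : X) = ζ).card ≤ 2 := by
      have h3 : (Finset.univ.filter fun a : A => (a : X) = 1 ∨ (a : X) = ζ).card ≤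
          ({1, ζ} : Finset X).card := by
        apply Finset.card_le_card_of_injOn (fun a : A => (a : X))
        · intro a ha
          rw [Finset.mem_coe, Finset.mem_filter] at ha
          rw [Finset.mem_coe, Finset.mem_insert, Finset.mem_singleton]
          exact ha.2
        · intro a _ b _ hab
          exact Subtype.ext hab
      exact h3.trans Finset.card_le_two
    have h4 : ((Finset.univ.filter fun a : A => (a : X) = 1 ∨ (a : X) = ζ).card : ℤ) ≤ 2 := by
      exact_mod_cast h2
    have h5 : (0 : ℤ) ≤ (Fintype.card X : ℤ) := Int.natCast_nonneg _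
    nlinarith
  -- the double sum, computed along the columns
  have hS2 : (Fintype.card A : ℤ) * Fintype.card A ≤ ∑ x : X, ∑ a : A, sgn2 (cmv (a : X) x) := by
    have h6 : ∑ x ∈ Finset.univ.filter (fun x : X => x ∈ A), ∑ a : A, sgn2 (cmv (a : X) x) ≤
        ∑ x : X, ∑ a : A, sgn2 (cmv (a : X) x) :=
      Finset.sum_le_sum_of_subset_of_nonneg (Finset.filter_subset _ _) (fun x _ _ => hcol0 x)
    have h7 : ∑ x ∈ Finset.univ.filter (fun x : X => x ∈ A), ∑ a : A, sgn2 (cmv (a : X) x) =
        ∑ b : A, ∑ a : A, sgn2 (cmv (a : X) (b : X)) :=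
      Finset.sum_subtype (Finset.univ.filter (fun x : X => x ∈ A)) (fun x => by simp)
        (fun x => ∑ a : A, sgn2 (cmv (a : X) x))
    rw [h7, Finset.sum_congr rfl (fun b _ => hcol1 b), Finset.sum_const, Finset.card_univ,
      nsmul_eq_mul] at h6
    exact h6
  rw [Finset.sum_comm] at hS1
  have h8 : (Fintype.card A : ℤ) * Fintype.card A ≤ 2 * (Fintype.card X : ℤ) := hS2.trans hS1
  rw [Nat.card_eq_fintype_card, Nat.card_eq_fintype_card]
  exact_mod_cast h8

/-- The centralizer of an element of an extraspecial 2-group has index at most 2. -/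
theorem card_le_two_mul_centralizer [Finite X] {ζ : X} (h : XS X ζ) (x : X) :
    Nat.card X ≤ 2 * Nat.card (Subgroup.centralizer ({x} : Set X)) := by
  classical
  haveI : Fintype X := Fintype.ofFinite X
  have h1 : (0 : ℤ) ≤ ∑ y : X, sgn2 (cmv x y) := by
    by_cases hex : ∃ y0 : X, cmv x y0 = 1
    · obtain ⟨y0, hy0⟩ := hex
      rw [sum_sgn2_eq_zero (fun y => cmv x y) (fun p q => cmv_mul h _ p q) y0 hy0]
    · push Not at hex
      rw [sum_sgn2_trivial (fun y => cmv x y) (fun y => by
        rcases zmod2_01 (cmv x y) with h3 | h3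
        · exact h3
        · exact absurd h3 (hex y))]
      exact Int.natCast_nonneg _
  have h2 : ∑ y : X, sgn2 (cmv x y) =
      2 * ((Finset.univ.filter fun y : X => cmv x y = 0).card : ℤ) - Fintype.card X := by
    have h3 : ∀ y : X, sgn2 (cmv x y) = 2 * (if cmv x y = 0 then (1 : ℤ) else 0) - 1 := by
      intro y
      unfold sgn2
      split_ifs <;> norm_num
    rw [Finset.sum_congr rfl (fun y _ => h3 y), Finset.sum_sub_distrib, ← Finset.mul_sum,
      Finset.sum_boole, Finset.sum_const, Finset.card_univ]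
    simp
  have h4 : (Finset.univ.filter fun y : X => cmv x y = 0).card =
      Nat.card (Subgroup.centralizer ({x} : Set X)) := by
    rw [Nat.card_eq_fintype_card, Fintype.card_subtype]
    congr 1
    ext y
    rw [Finset.mem_filter, Finset.mem_filter, cmv_eq_zero_iff, Subgroup.mem_centralizer_iff]
    constructor
    · rintro ⟨-, hy⟩
      refine ⟨Finset.mem_univ _, ?_⟩
      intro t ht
      rw [Set.mem_singleton_iff.mp ht]
      exact hy
    · rintro ⟨-, hy⟩
      exact ⟨Finset.mem_univ _, hy x rfl⟩
  rw [h2, h4] at h1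
  rw [Nat.card_eq_fintype_card (α := X)]
  omega

end XSAbel

/-- The order of a subgroup is the order of its image times the order of its intersection with
the kernel. -/
theorem card_inf_ker_mul_card_map {A B : Type*} [Group A] [Group B] (f : A →* B)
    (K : Subgroup A) : Nat.card ↥(f.ker ⊓ K) * Nat.card ↥(K.map f) = Nat.card K := by
  have h1 := Subgroup.relIndex_mul_relIndex ⊥ (f.ker ⊓ K) K bot_le inf_le_right
  rw [Subgroup.relIndex_bot_left, Subgroup.relIndex_bot_left, Subgroup.inf_relIndex_right,
    Subgroup.relIndex_ker] at h1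
  exact h1

end Cfsg.Agent.Lib.Helper92
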