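-- The stabilizer of the standard cross in the automorphism group of the rank-24 lattice: the
-- homomorphism onto the permutation part, its kernel, and the normal 2-subgroups.
import Mathlib
import Cfsg.Agent.Lib.Helper92.MonsterNC
import Cfsg.Agent.Lib.Helper92.XSAbel
import Cfsg.Agent.Lib.Helper10.Co0Order
import Cfsg.Agent.Lib.Helper9.M24Simple

set_option autoImplicit false
open Cfsg

namespace Cfsg.Agent.Lib.Helper92

open Cfsg.Agent.Lib.Helper10 Cfsg.Agent.Lib.Helper9 Cfsg.Agent.S5392

/-- `g` acts as a signed permutation with permutation part `σ` -/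
def IsMono (g : Co0) (σ : Equiv.Perm GolayPt) : Prop :=
  ∃ c ∈ gsup, ∀ v : leechLattice,
    ((g • v : leechLattice) : GolayPt → ℤ) = signedPerm σ c (v : GolayPt → ℤ)

theorem IsMono.axis {g : Co0} {σ : Equiv.Perm GolayPt} (h : IsMono g σ) (i : GolayPt) :
    ∃ s : ℤ, s ≠ 0 ∧ ((g • axisVec i : leechLattice) : GolayPt → ℤ) = Pi.single (σ i) s := by
  obtain ⟨c, hc, hf⟩ := h
  refine ⟨if σ i ∈ c then -8 else 8, by split_ifs <;> norm_num, ?_⟩
  rw [hf]
  exact signedPerm_single σ c i 8

theorem single_idx_inj {i j : GolayPt} {s t : ℤ} (hs : s ≠ 0)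
    (h : (Pi.single i s : GolayPt → ℤ) = Pi.single j t) : i = j := by
  by_contra hne
  have h1 := congrFun h i
  rw [Pi.single_eq_same, Pi.single_eq_of_ne hne] at h1
  exact hs h1

theorem IsMono.unique {g : Co0} {σ σ' : Equiv.Perm GolayPt} (h : IsMono g σ) (h' : IsMono g σ') :
    σ = σ' := by
  apply Equiv.ext
  intro i
  obtain ⟨s, hs, e1⟩ := h.axis i
  obtain ⟨s', hs', e2⟩ := h'.axis i
  exact single_idx_inj hs (e1.symm.trans e2)

theorem IsMono.mul {g g' : Co0} {σ σ' σ'' : Equiv.Perm GolayPt} (h : IsMono g σ)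
    (h' : IsMono g' σ') (h'' : IsMono (g * g') σ'') : σ'' = σ * σ' := by
  apply Equiv.ext
  intro i
  obtain ⟨c, hc, hf⟩ := h
  obtain ⟨s', hs', e2⟩ := h'.axis i
  obtain ⟨s'', hs'', e3⟩ := h''.axis i
  have e4 : ((g * g') • axisVec i : leechLattice) = g • (g' • axisVec i) := mul_smul _ _ _
  rw [e4, hf, e2, signedPerm_single] at e3
  have h5 : (if σ (σ' i) ∈ c then -s' else s') ≠ 0 := by
    split_ifs
    · exact neg_ne_zero.mpr hs'
    · exact hs'
  exact (single_idx_inj h5 e3).symm

theorem exists_mono (g : crossSub) : ∃ σ : M24, IsMono g.1 σ.1 := by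
  obtain ⟨σ, hσ, c, hc, hf⟩ := monomial_of_cross g.1.2 g.2
  exact ⟨⟨σ, hσ⟩, c, hc, hf⟩

/-- The permutation part of an automorphism preserving the standard cross. -/
noncomputable def crossPi : crossSub →* M24 :=
  MonoidHom.mk' (fun g => Classical.choose (exists_mono g)) (by
    intro a b
    have ha := Classical.choose_spec (exists_mono a)
    have hb := Classical.choose_spec (exists_mono b)
    have hab := Classical.choose_spec (exists_mono (a * b))
    exact Subtype.ext (IsMono.mul ha hb hab))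

theorem crossPi_spec (g : crossSub) : IsMono g.1 (crossPi g).1 :=
  Classical.choose_spec (exists_mono g)

theorem crossPi_eq (g : crossSub) (σ : M24) (h : IsMono g.1 σ.1) : crossPi g = σ :=
  Subtype.ext ((crossPi_spec g).unique h)

/-- The monomial elements, as members of the stabilizer of the standard cross. -/
def monoC (σ : Equiv.Perm GolayPt) (hσ : σ ∈ M24) (c : Finset GolayPt) (hc : c ∈ gsup) :
    crossSub :=
  ⟨⟨monoPerm σ hσ c hc, monoPerm_mem σ hσ c hc⟩, fun v hv => monoPerm_cross σ hσ c hc v hv⟩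

theorem isMono_monoC (σ : Equiv.Perm GolayPt) (hσ : σ ∈ M24) (c : Finset GolayPt)
    (hc : c ∈ gsup) : IsMono (monoC σ hσ c hc).1 σ :=
  ⟨c, hc, fun v => monoPerm_apply σ hσ c hc v⟩

theorem crossPi_monoC (σ : Equiv.Perm GolayPt) (hσ : σ ∈ M24) (c : Finset GolayPt)
    (hc : c ∈ gsup) : crossPi (monoC σ hσ c hc) = ⟨σ, hσ⟩ :=
  crossPi_eq _ ⟨σ, hσ⟩ (isMono_monoC σ hσ c hc)

theorem crossPi_surjective : Function.Surjective crossPi := fun σ =>
  ⟨monoC σ.1 σ.2 ∅ Spor.empty_mem_supports_golayCode, crossPi_monoC _ _ _ _⟩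

theorem eq_monoC_of_isMono (g : crossSub) (σ : Equiv.Perm GolayPt) (hσ : σ ∈ M24)
    (h : IsMono g.1 σ) : ∃ c, ∃ hc : c ∈ gsup, g = monoC σ hσ c hc := by
  obtain ⟨c, hc, hf⟩ := h
  refine ⟨c, hc, ?_⟩
  apply Subtype.ext
  apply Subtype.ext
  apply Equiv.ext
  intro v
  apply Subtype.ext
  exact hf v

theorem gsup_finite : Finite ↥gsup := by
  apply Nat.finite_of_card_ne_zero
  rw [card_gsup]
  norm_num

theorem card_ker_crossPi_le : Nat.card crossPi.ker ≤ 4096 := by
  haveI := gsup_finite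
  have hsub : (crossPi.ker : Set crossSub) ⊆
      Set.range (fun c : gsup => monoC 1 (one_mem _) c.1 c.2) := by
    intro g hg
    have h1 : crossPi g = 1 := hg
    have h2 := crossPi_spec g
    rw [h1] at h2
    obtain ⟨c, hc, hgc⟩ := eq_monoC_of_isMono g 1 (one_mem _) h2
    exact ⟨⟨c, hc⟩, hgc.symm⟩
  calc Nat.card crossPi.ker = (crossPi.ker : Set crossSub).ncard := Nat.card_coe_set_eq _
    _ ≤ (Set.range (fun c : gsup => monoC 1 (one_mem _) c.1 c.2)).ncard :=
        Set.ncard_le_ncard hsub (Set.finite_range _)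
    _ = ((fun c : gsup => monoC 1 (one_mem _) c.1 c.2) '' Set.univ).ncard := by
        rw [Set.image_univ]
    _ ≤ (Set.univ : Set gsup).ncard := Set.ncard_image_le Set.finite_univ
    _ = 4096 := by rw [Set.ncard_univ, card_gsup]

/-- A normal subgroup of the stabilizer of the standard cross all of whose elements have order a
power of 2 consists of sign changes. -/
theorem normal_two_le_ker (N : Subgroup crossSub) (hN : N.Normal)
    (h2 : ∀ n ∈ N, ∃ k : ℕ, n ^ 2 ^ k = 1) : N ≤ crossPi.ker := by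
  haveI := isSimpleGroup_M24
  have hnorm : (N.map crossPi).Normal := Subgroup.Normal.map hN crossPi crossPi_surjective
  rcases hnorm.eq_bot_or_eq_top with hb | ht
  · exact (Subgroup.map_eq_bot_iff N).mp hb
  · exfalso
    have hp : IsPGroup 2 ↥M24 := by
      intro σ
      have hσ : σ ∈ N.map crossPi := by
        rw [ht]
        exact Subgroup.mem_top σ
      obtain ⟨n, hn, rfl⟩ := Subgroup.mem_map.mp hσ
      obtain ⟨k, hk⟩ := h2 n hn
      exact ⟨k, by rw [← map_pow, hk, map_one]⟩
    obtain ⟨j, hj⟩ := IsPGroup.iff_card.mp hp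
    rw [card_M24] at hj
    have h3 : 3 ∣ 2 ^ j := by
      rw [← hj]
      norm_num
    have h4 := Nat.Prime.dvd_of_dvd_pow Nat.prime_three h3
    omega

/-- The stabilizer of the standard cross is the stabilizer of the class of `8 e_∞` modulo twice
the lattice. -/
theorem mem_crossSub_iff (γ : Co0) : γ ∈ crossSub ↔ ∃ w ∈ leechLattice,
    ((γ • axisVec none : leechLattice) : GolayPt → ℤ) -
      ((axisVec none : leechLattice) : GolayPt → ℤ) = 2 • w := by
  constructor
  · intro hγ
    have h1 := hγ (axisVec none) ⟨none, 8, Or.inl rfl, rfl⟩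
    rw [← cross_axis] at h1
    obtain ⟨-, -, y, hy, hvy⟩ := h1
    refine ⟨-y, leechLattice.neg_mem hy, ?_⟩
    rw [smul_neg, ← hvy]
    abel
  · rintro ⟨w, hw, hγw⟩ v hv
    have h1 := crossL_map γ.2 (axisVec none) (w := v) ((mem_crossL_axis v).mpr hv)
    obtain ⟨h2, h3, y, hy, hvy⟩ := h1
    rw [← cross_axis]
    refine ⟨h2, ?_, y - w, leechLattice.sub_mem hy hw, ?_⟩
    · exact h3.trans (γ.2.2 (axisVec none))
    · have e1 : ((γ • axisVec none : leechLattice) : GolayPt → ℤ) =
          (((γ : Equiv.Perm leechLattice) (axisVec none) : leechLattice) : GolayPt → ℤ) := rfl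
      have e2 : ((γ • v : leechLattice) : GolayPt → ℤ) =
          (((γ : Equiv.Perm leechLattice) v : leechLattice) : GolayPt → ℤ) := rfl
      rw [e1] at hγw
      rw [e2, smul_sub, ← hvy, ← hγw]
      abel

theorem negC_mem_crossSub : negC ∈ crossSub := by
  rintro v ⟨i, s, hs, hv⟩
  refine ⟨i, -s, ?_, ?_⟩
  · rcases hs with rfl | rfl
    · right; rfl
    · left; norm_num
  · show -(v : GolayPt → ℤ) = Pi.single i (-s)
    rw [hv, Pi.single_neg]

theorem isMono_negC : IsMono negC 1 := by
  refine ⟨Finset.univ, Spor.univ_mem_supports_golayCode, fun v => ?_⟩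
  funext i
  show (-(v : GolayPt → ℤ)) i = signedPerm 1 Finset.univ (v : GolayPt → ℤ) i
  unfold signedPerm
  rw [if_pos (Finset.mem_univ i)]
  rfl

theorem crossPi_negC : crossPi ⟨negC, negC_mem_crossSub⟩ = 1 :=
  crossPi_eq _ 1 isMono_negC

theorem negC_ne_one : negC ≠ 1 := by
  intro h
  have h1 : negC • axisVec none = axisVec none := by rw [h, one_smul]
  rw [negC_smul] at h1
  have h2 := congrFun (congrArg Subtype.val h1) none
  have h3 : (-(axisVec none : leechLattice) : leechLattice).1 none = -8 := by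
    show -((axisVec none : leechLattice) : GolayPt → ℤ) none = -8
    rw [axisVec_apply]
    simp
  have h4 : ((axisVec none : leechLattice) : GolayPt → ℤ) none = 8 := by
    rw [axisVec_apply]
    simp
  rw [h3, h4] at h2
  omega

/-- The sign changes, as a subgroup of the automorphism group of the lattice. -/
noncomputable def sgnK : Subgroup Co0 := crossPi.ker.map crossSub.subtype

theorem mem_sgnK_iff (γ : Co0) : γ ∈ sgnK ↔ ∃ h : γ ∈ crossSub, crossPi ⟨γ, h⟩ = 1 := by
  constructor
  · rintro ⟨g, hg, rfl⟩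
    exact ⟨g.2, hg⟩
  · rintro ⟨h, hγ⟩
    exact ⟨⟨γ, h⟩, hγ, rfl⟩

theorem card_sgnK_le : Nat.card sgnK ≤ 4096 := by
  unfold sgnK
  rw [Subgroup.card_map_of_injective (Subgroup.subtype_injective _)]
  exact card_ker_crossPi_le

theorem negC_mem_sgnK : negC ∈ sgnK := (mem_sgnK_iff _).mpr ⟨negC_mem_crossSub, crossPi_negC⟩

/-- The image of the sign changes in the quotient by the centre has at most `2 ^ 11` elements. -/
theorem card_sgnK_map_le :
    Nat.card (sgnK.map (QuotientGroup.mk' (Subgroup.center Co0))) ≤ 2048 := by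
  have h1 := card_inf_ker_mul_card_map (QuotientGroup.mk' (Subgroup.center Co0)) sgnK
  rw [QuotientGroup.ker_mk'] at h1
  haveI : Finite Co0 := co0_finite
  have h2 : 1 < Nat.card ↥(Subgroup.center Co0 ⊓ sgnK) := by
    rw [Subgroup.one_lt_card_iff_ne_bot]
    intro hbot
    have h3 : negC ∈ Subgroup.center Co0 ⊓ sgnK := ⟨negC_mem_center, negC_mem_sgnK⟩
    rw [hbot, Subgroup.mem_bot] at h3
    exact negC_ne_one h3
  have h4 := card_sgnK_le
  nlinarith

end Cfsg.Agent.Lib.Helper92
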