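import Mathlib
import Cfsg.Agent.Lib.Helper97.FCDefs

/-!
# FC-IN: a constrained group fusion system has a normal centric subgroup (group-theoretic form)
-/

set_option autoImplicit false

namespace Cfsg.Agent.Lib.Helper92.FC

open Cfsg.Agent.Lib.Helper97.FC

universe u

theorem fc_in : InStmt.{u} := by
  intro G _ S p hF
  obtain ⟨-, Q, hN, hC⟩ := hF
  refine ⟨Q, hN.1, ?_, ?_⟩
  · -- Ext
    intro P hP g hg
    have hφ : Cfsg.conjHom P g ∈ (Cfsg.groupFusionSystem S).Hom P :=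
      ⟨hP, fun x => hg x x.2, g, fun x => rfl⟩
    obtain ⟨ψ, hψ, hext, hmap⟩ := hN.2 P (Cfsg.conjHom P g) hφ
    obtain ⟨-, -, n, hn⟩ := hψ
    have h1 : ∀ x ∈ Q, n * x * n⁻¹ ∈ Q := by
      intro x hx
      have hxPQ : x ∈ P ⊔ Q := Subgroup.mem_sup_right hx
      have hmem : ψ ⟨x, hxPQ⟩ ∈ (Q.subgroupOf (P ⊔ Q)).map ψ :=
        Subgroup.mem_map_of_mem ψ (Subgroup.mem_subgroupOf.mpr hx)
      rw [hmap, hn] at hmem
      exact hmem
    have h2 : ∀ y ∈ Q, ∃ x ∈ Q, n * x * n⁻¹ = y := by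
      intro y hy
      rw [← hmap] at hy
      obtain ⟨x, hx, hxy⟩ := Subgroup.mem_map.mp hy
      exact ⟨x, Subgroup.mem_subgroupOf.mp hx, (hn x).symm.trans hxy⟩
    refine ⟨n, ?_, ?_⟩
    · rw [Subgroup.mem_normalizer_iff]
      intro x
      constructor
      · exact h1 x
      · intro hx
        obtain ⟨y, hy, hyx⟩ := h2 _ hx
        have hyx' : y = x := mul_left_cancel (mul_right_cancel hyx)
        exact hyx' ▸ hy
    · intro x hx
      have h3 := hext ⟨x, hx⟩
      rw [hn] at h3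
      exact h3
  · intro z hz hzc
    have hconj : (Cfsg.groupFusionSystem S).IsConj Q Q := by
      refine ⟨Cfsg.conjHom Q 1, (Cfsg.groupFusionSystem S).conj_mem hN.1 S.one_mem, ?_⟩
      ext y
      constructor
      · rintro ⟨x, rfl⟩
        show 1 * (x : G) * 1⁻¹ ∈ Q
        simp
      · intro hy
        refine ⟨⟨y, hy⟩, ?_⟩
        show 1 * y * 1⁻¹ = y
        simp
    apply hC.2 Q hconj
    refine Subgroup.mem_inf.mpr ⟨hz, ?_⟩
    rw [Subgroup.mem_centralizer_iff]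
    intro x hx
    exact (hzc x hx).symm

end Cfsg.Agent.Lib.Helper92.FC
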