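import Cfsg.Agent.Lib.Helper98.H74Defs

/-!
# Project H74 (S5974), piece ARODD: the arithmetic for `i` odd
-/

set_option autoImplicit false

namespace Cfsg.Agent.Lib.Helper98.H74

open Cfsg.Agent.Lib.Helper47 Cfsg.Agent.Lib.Helper98.T73 Module Polynomial

/-- ARODD -/
theorem ar_odd (i d m : ℕ) (hi : 1 ≤ i) (hodd : ¬ Even i) (hd : 4 ≤ d) (hm : 2 ≤ m)
    (hme : Even m) (hmd : m < d) :
    (2 * i ≤ m ∧ ModelH 1 1 i d m) ↔ Cond74 i d m := by
  have hoddi : Odd i := Nat.not_even_iff_odd.mp hodd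
  have hsgn : ∀ A, sgn i A = 1 := fun A => by
    unfold sgn
    rw [if_neg hodd]
  have hc : 0 < 2 * i := by omega
  unfold Cond74
  rw [if_neg hodd]
  constructor
  · rintro ⟨h2i, hM⟩
    refine ⟨h2i, ?_⟩
    have hq1 : 1 ≤ (2 * d) / (2 * i) := by
      rw [Nat.le_div_iff_mul_le hc]
      omega
    have hdm := Nat.div_add_mod (2 * d) (2 * i)
    have h3 : i * (2 * ((2 * d) / (2 * i))) = 2 * i * ((2 * d) / (2 * i)) := by ring
    have hV : Valid 1 i d (2 * ((2 * d) / (2 * i))) := by
      unfold Valid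
      refine ⟨by omega, by omega, fun _ => even_two_mul _, fun _ => hsgn _⟩
    unfold ModelH at hM
    have hM' := hM _ hV
    unfold MC at hM'
    obtain ⟨j, w, hjA, hjev, hmjw, hw, -, -⟩ := hM'
    obtain ⟨b, hb⟩ := hjev hoddi
    have hlt : (2 * d) % (2 * i) < 2 * i := Nat.mod_lt _ hc
    have hwlt : w < 2 * i := by omega
    have hmw : m % (2 * i) = w := by
      have h4 : m = w + (2 * i) * b := by
        rw [hmjw, hb]
        ring
      rw [h4, Nat.add_mul_mod_self_left]
      exact Nat.mod_eq_of_lt hwlt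
    rw [hmw]
    omega
  · rintro ⟨h2i, hmod⟩
    refine ⟨h2i, ?_⟩
    unfold ModelH
    intro A hA
    unfold Valid at hA
    obtain ⟨hA1, hiA, hAev, -⟩ := hA
    obtain ⟨a, ha⟩ := hAev hoddi
    have ha1 : 1 ≤ a := by omega
    have h6 : i * A = 2 * i * a := by
      rw [ha]
      ring
    have hca : 2 * i * a ≤ 2 * d := by omega
    unfold MC
    by_cases hcase : m / (2 * i) ≤ a
    · refine ⟨2 * (m / (2 * i)), m % (2 * i), by omega, fun _ => even_two_mul _, ?_, ?_,
        fun _ => hsgn _, fun _ _ => by simp only [hsgn]⟩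
      · have h7 := Nat.div_add_mod m (2 * i)
        have h3 : i * (2 * (m / (2 * i))) = 2 * i * (m / (2 * i)) := by ring
        omega
      · have hale : a ≤ (2 * d) / (2 * i) := by
          rw [Nat.le_div_iff_mul_le hc]
          calc a * (2 * i) = 2 * i * a := by ring
            _ ≤ 2 * d := hca
        have h4 : 2 * i * a ≤ 2 * i * ((2 * d) / (2 * i)) := Nat.mul_le_mul_left _ hale
        have h5 := Nat.div_add_mod (2 * d) (2 * i)
        omega
    · push Not at hcase
      have h4 : a * (2 * i) ≤ m := (Nat.le_div_iff_mul_le hc).mp (le_of_lt hcase)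
      have h3 : 2 * i * a ≤ m := by
        calc 2 * i * a = a * (2 * i) := by ring
          _ ≤ m := h4
      refine ⟨A, m - i * A, le_refl _, fun _ => ⟨a, ha⟩, by omega, by omega,
        fun _ => hsgn _, fun _ _ => by simp only [hsgn]⟩

end Cfsg.Agent.Lib.Helper98.H74
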