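import Mathlib
import Cfsg.Agent.Lib.Helper78.HarDefs

/-!
# Piece SYLA of S1235 (helper78, project HAR), proved by helper92
-/

set_option autoImplicit false

namespace Cfsg.Agent.Lib.Helper92.Har

open Cfsg.Agent.Lib.Helper78.Har

/-- conjugation by a power of a normalizing element -/
private theorem syla_pow_conj {G : Type*} [Group G] (T : Subgroup G) (x : G)
    (hx : ∀ t, t ∈ T ↔ x * t * x⁻¹ ∈ T) (n : ℕ) :
    ∀ t, t ∈ T ↔ x ^ n * t * (x ^ n)⁻¹ ∈ T := by
  induction n with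
  | zero => intro t; simp
  | succ n ih =>
    intro t
    have h1 : x ^ (n + 1) * t * (x ^ (n + 1))⁻¹ = x * (x ^ n * t * (x ^ n)⁻¹) * x⁻¹ := by
      rw [pow_succ']; group
    rw [h1, ← hx, ← ih]

/-- the counting core: an "involution" `y` acting on an elementary abelian group `Z` -/
private theorem syla_card {G : Type*} [Group G] [Finite G] (Z : Subgroup G) (y : G)
    (hZ2 : ∀ w ∈ Z, w ^ 2 = 1) (hyZ : ∀ w ∈ Z, y * w * y⁻¹ ∈ Z)
    (hy2 : ∀ w ∈ Z, y ^ 2 * w = w * y ^ 2) :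
    Nat.card Z ≤ Nat.card ↥(Z ⊓ Subgroup.centralizer ({y} : Set G)) *
      Nat.card ↥(Z ⊓ Subgroup.centralizer ({y} : Set G)) := by
  have hcomm : ∀ {s t : G}, s ∈ Z → t ∈ Z → s * t = t * s := fun hs ht => comm_of_sq Z hZ2 hs ht
  -- the homomorphism w ↦ w * (y w y⁻¹)
  let φ : ↥Z →* G :=
    { toFun := fun w => (w : G) * (y * (w : G) * y⁻¹)
      map_one' := by simp
      map_mul' := by
        intro a b
        have h1 : (b : G) * (y * (a : G) * y⁻¹) = (y * (a : G) * y⁻¹) * (b : G) :=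
          hcomm b.2 (hyZ _ a.2)
        calc ((a * b : ↥Z) : G) * (y * ((a * b : ↥Z) : G) * y⁻¹)
            = (a : G) * ((b : G) * (y * (a : G) * y⁻¹)) * (y * (b : G) * y⁻¹) := by
              simp only [Subgroup.coe_mul]; group
          _ = (a : G) * ((y * (a : G) * y⁻¹) * (b : G)) * (y * (b : G) * y⁻¹) := by rw [h1]
          _ = (a : G) * (y * (a : G) * y⁻¹) * ((b : G) * (y * (b : G) * y⁻¹)) := by group }
  have hφ : ∀ w : ↥Z, φ w = (w : G) * (y * (w : G) * y⁻¹) := fun w => rfl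
  -- range ≤ C
  have hrange : φ.range ≤ Z ⊓ Subgroup.centralizer ({y} : Set G) := by
    rintro v ⟨w, rfl⟩
    rw [hφ, Subgroup.mem_inf]
    refine ⟨Z.mul_mem w.2 (hyZ _ w.2), ?_⟩
    rw [Subgroup.mem_centralizer_iff]
    intro h hh
    rw [Set.mem_singleton_iff] at hh
    subst hh
    -- h * (w * (h w h⁻¹)) = (w * (h w h⁻¹)) * h
    have h1 : h ^ 2 * (w : G) = (w : G) * h ^ 2 := hy2 _ w.2
    have h2 : (w : G) * (h * (w : G) * h⁻¹) = (h * (w : G) * h⁻¹) * (w : G) :=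
      hcomm w.2 (hyZ _ w.2)
    calc h * ((w : G) * (h * (w : G) * h⁻¹))
        = h * ((h * (w : G) * h⁻¹) * (w : G)) := by rw [h2]
      _ = (h ^ 2 * (w : G)) * h⁻¹ * (w : G) := by rw [pow_two]; group
      _ = ((w : G) * h ^ 2) * h⁻¹ * (w : G) := by rw [h1]
      _ = (w : G) * (h * (w : G) * h⁻¹) * h := by rw [pow_two]; group
  -- ker injects into C
  have hker : Nat.card φ.ker ≤ Nat.card ↥(Z ⊓ Subgroup.centralizer ({y} : Set G)) := by
    have hmem : ∀ w : φ.ker, ((w : ↥Z) : G) ∈ Z ⊓ Subgroup.centralizer ({y} : Set G) := by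
      intro w
      have hw : φ (w : ↥Z) = 1 := (MonoidHom.mem_ker).1 w.2
      rw [hφ] at hw
      rw [Subgroup.mem_inf]
      refine ⟨(w : ↥Z).2, ?_⟩
      rw [Subgroup.mem_centralizer_iff]
      intro h hh
      rw [Set.mem_singleton_iff] at hh
      subst hh
      have hw2 : ((w : ↥Z) : G) ^ 2 = 1 := hZ2 _ (w : ↥Z).2
      -- w * (h w h⁻¹) = 1 and w² = 1 ⇒ h w h⁻¹ = w
      have h3 : h * ((w : ↥Z) : G) * h⁻¹ = ((w : ↥Z) : G) := by
        have h4 : ((w : ↥Z) : G) * (h * ((w : ↥Z) : G) * h⁻¹) = ((w : ↥Z) : G) * ((w : ↥Z) : G) := by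
          rw [hw, ← pow_two, hw2]
        exact mul_left_cancel h4
      calc h * ((w : ↥Z) : G) = (h * ((w : ↥Z) : G) * h⁻¹) * h := by group
        _ = ((w : ↥Z) : G) * h := by rw [h3]
    refine Nat.card_le_card_of_injective (fun w : φ.ker => (⟨((w : ↥Z) : G), hmem w⟩ :
      ↥(Z ⊓ Subgroup.centralizer ({y} : Set G)))) ?_
    intro a b hab
    have h5 : ((a : ↥Z) : G) = ((b : ↥Z) : G) :=
      congrArg (fun v : ↥(Z ⊓ Subgroup.centralizer ({y} : Set G)) => (v : G)) hab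
    exact Subtype.ext (Subtype.ext h5)
  have h1 : Nat.card ↥Z = Nat.card (↥Z ⧸ φ.ker) * Nat.card φ.ker :=
    Subgroup.card_eq_card_quotient_mul_card_subgroup φ.ker
  have h2 : Nat.card (↥Z ⧸ φ.ker) = Nat.card φ.range :=
    Nat.card_congr (QuotientGroup.quotientKerEquivRange φ).toEquiv
  have h3 : Nat.card φ.range ≤ Nat.card ↥(Z ⊓ Subgroup.centralizer ({y} : Set G)) :=
    Subgroup.card_le_of_le hrange
  rw [h1, h2]
  exact Nat.mul_le_mul h3 hker

theorem sylow_of_center {G : Type*} [Group G] [Finite G] (T B Z : Subgroup G) (hT : IsPGroup 2 T)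
    (hZ : ∀ w : G, w ∈ Z ↔ w ∈ T ∧ ∀ t ∈ T, w * t = t * w) (hZ8 : Nat.card Z ≤ 8)
    (hZ2 : ∀ w ∈ Z, w ^ 2 = 1) (hBZ : B ≤ Z) (hB4 : Nat.card B = 4)
    (hTb : ∀ b ∈ B, b ≠ 1 → ∀ P : Subgroup G, IsPGroup 2 P → T ≤ P →
      P ≤ Subgroup.centralizer ({b} : Set G) → P = T) :
    ∀ P : Subgroup G, IsPGroup 2 P → T ≤ P → P = T := by
  intro P hP hTP
  have _hT := hT
  by_contra hne
  -- Step 1: normalizer condition
  obtain ⟨x, hxP, hxN, hxT⟩ : ∃ x ∈ P, (∀ t, t ∈ T ↔ x * t * x⁻¹ ∈ T) ∧ x ∉ T := by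
    have hfact : Fact (Nat.Prime 2) := ⟨Nat.prime_two⟩
    have hnil : Group.IsNilpotent ↥P := hP.isNilpotent
    have hNC : NormalizerCondition ↥P := Group.normalizerCondition_of_isNilpotent
    have hlt' : T.subgroupOf P < ⊤ := by
      rw [lt_top_iff_ne_top]
      intro h
      rw [Subgroup.subgroupOf_eq_top] at h
      exact hne (le_antisymm h hTP)
    have h1 := hNC (T.subgroupOf P) hlt'
    obtain ⟨x, hxn, hxT⟩ := SetLike.exists_of_lt h1
    refine ⟨(x : G), x.2, ?_, ?_⟩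
    · intro t
      rw [Subgroup.mem_normalizer_iff] at hxn
      constructor
      · intro ht
        have h2 := (hxn ⟨t, hTP ht⟩).1 (by rw [Subgroup.mem_subgroupOf]; exact ht)
        rw [Subgroup.mem_subgroupOf] at h2
        simpa using h2
      · intro ht
        have htP : t ∈ P := by
          have h3 : x⁻¹.1 * (x.1 * t * x.1⁻¹) * x.1 ∈ P :=
            P.mul_mem (P.mul_mem x⁻¹.2 (hTP ht)) x.2
          have h4 : x⁻¹.1 * (x.1 * t * x.1⁻¹) * x.1 = t := by
            simp only [Subgroup.coe_inv]; group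
          rwa [h4] at h3
        have h2 := (hxn ⟨t, htP⟩).2 (by rw [Subgroup.mem_subgroupOf]; simpa using ht)
        rw [Subgroup.mem_subgroupOf] at h2
        exact h2
    · intro h
      exact hxT (by rw [Subgroup.mem_subgroupOf]; exact h)
  -- Step 2: y with y ∉ T, y² ∈ T
  obtain ⟨y, hyP, hyN, hyT, hy2⟩ :
      ∃ y ∈ P, (∀ t, t ∈ T ↔ y * t * y⁻¹ ∈ T) ∧ y ∉ T ∧ y ^ 2 ∈ T := by
    have hex : ∃ j : ℕ, x ^ (2 ^ j) ∈ T := by
      obtain ⟨k, hk⟩ := hP ⟨x, hxP⟩
      refine ⟨k, ?_⟩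
      have hk' : x ^ (2 ^ k) = 1 := by
        have := congrArg Subtype.val hk
        simpa using this
      rw [hk']; exact T.one_mem
    classical
    have hj0 : Nat.find hex ≠ 0 := by
      intro h0
      have h1 := Nat.find_spec hex
      rw [h0] at h1
      simp at h1
      exact hxT h1
    obtain ⟨j', hj'⟩ := Nat.exists_eq_succ_of_ne_zero hj0
    refine ⟨x ^ (2 ^ j'), P.pow_mem hxP _, syla_pow_conj T x hxN _, ?_, ?_⟩
    · intro h
      have h1 := Nat.find_min hex (m := j') (by omega)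
      exact h1 h
    · have h1 := Nat.find_spec hex
      rw [hj', Nat.succ_eq_add_one, pow_succ, pow_mul] at h1
      exact h1
  -- inverse conjugation
  have hyN' : ∀ t ∈ T, y⁻¹ * t * y ∈ T := by
    intro t ht
    rw [hyN]
    have h1 : y * (y⁻¹ * t * y) * y⁻¹ = t := by group
    rw [h1]; exact ht
  -- Step 3: y normalizes Z
  have hyZ : ∀ w ∈ Z, y * w * y⁻¹ ∈ Z := by
    intro w hw
    obtain ⟨hwT, hwc⟩ := (hZ w).1 hw
    rw [hZ]
    refine ⟨(hyN w).1 hwT, ?_⟩
    intro t ht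
    have h1 := hwc _ (hyN' t ht)
    calc y * w * y⁻¹ * t = y * (w * (y⁻¹ * t * y)) * y⁻¹ := by group
      _ = y * ((y⁻¹ * t * y) * w) * y⁻¹ := by rw [h1]
      _ = t * (y * w * y⁻¹) := by group
  have hy2Z : ∀ w ∈ Z, y ^ 2 * w = w * y ^ 2 := by
    intro w hw
    exact (((hZ w).1 hw).2 _ hy2).symm
  -- Step 4: counting
  have hcard := syla_card Z y hZ2 hyZ hy2Z
  have hB4Z : 4 ≤ Nat.card Z := by
    rw [← hB4]; exact Subgroup.card_le_of_le hBZ
  obtain ⟨b, hbB, hbC, hb1⟩ : ∃ b ∈ B, b ∈ Subgroup.centralizer ({y} : Set G) ∧ b ≠ 1 := by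
    by_contra hcon
    push Not at hcon
    -- injection C × B → Z
    have hinj : Nat.card (↥(Z ⊓ Subgroup.centralizer ({y} : Set G)) × ↥B) ≤ Nat.card Z := by
      refine Nat.card_le_card_of_injective
        (fun p : ↥(Z ⊓ Subgroup.centralizer ({y} : Set G)) × ↥B =>
          (⟨(p.1 : G) * (p.2 : G), Z.mul_mem p.1.2.1 (hBZ p.2.2)⟩ : ↥Z)) ?_
      rintro ⟨c, b⟩ ⟨c', b'⟩ h
      have h1 : (c : G) * (b : G) = (c' : G) * (b' : G) := congrArg Subtype.val h
      have h2 : (c' : G)⁻¹ * (c : G) = (b' : G) * (b : G)⁻¹ := by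
        have : (c : G) = (c' : G) * (b' : G) * (b : G)⁻¹ := by rw [← h1]; group
        rw [this]; group
      have h3 : (b' : G) * (b : G)⁻¹ = 1 := by
        apply hcon _ (B.mul_mem b'.2 (B.inv_mem b.2))
        rw [← h2]
        exact Subgroup.mul_mem _ (Subgroup.inv_mem _ c'.2.2) c.2.2
      have h4 : (b' : G) = (b : G) := by
        have := mul_inv_eq_one.1 h3
        exact this
      have h5 : (c : G) = (c' : G) := by
        rw [h4] at h1
        exact mul_right_cancel h1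
      exact Prod.ext (Subtype.ext h5) (Subtype.ext h4.symm)
    rw [Nat.card_prod, hB4] at hinj
    have hc1 : Nat.card ↥(Z ⊓ Subgroup.centralizer ({y} : Set G)) ≤ 2 := by omega
    have hc2 : Nat.card ↥(Z ⊓ Subgroup.centralizer ({y} : Set G)) *
        Nat.card ↥(Z ⊓ Subgroup.centralizer ({y} : Set G)) ≤ 4 := by nlinarith
    have hc3 : Nat.card Z ≤ 4 := le_trans hcard hc2
    have hc4 : Nat.card ↥(Z ⊓ Subgroup.centralizer ({y} : Set G)) ≤ 1 := by omega
    have hc5 : Nat.card ↥(Z ⊓ Subgroup.centralizer ({y} : Set G)) *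
        Nat.card ↥(Z ⊓ Subgroup.centralizer ({y} : Set G)) ≤ 1 := by nlinarith
    omega
  -- Step 5: the 2-group T ⊔ ⟨y⟩ centralizes b
  have hyb : y * b = b * y := by
    rw [Subgroup.mem_centralizer_iff] at hbC
    exact hbC y (Set.mem_singleton y)
  have hbZ : b ∈ Z := hBZ hbB
  have hP' : T ⊔ Subgroup.zpowers y ≤ P :=
    sup_le hTP ((Subgroup.zpowers_le).2 hyP)
  have hcent : T ⊔ Subgroup.zpowers y ≤ Subgroup.centralizer ({b} : Set G) := by
    refine sup_le ?_ ((Subgroup.zpowers_le).2 ?_)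
    · intro t ht
      rw [Subgroup.mem_centralizer_iff]
      intro h hh
      rw [Set.mem_singleton_iff] at hh
      subst hh
      exact ((hZ h).1 hbZ).2 t ht
    · rw [Subgroup.mem_centralizer_iff]
      intro h hh
      rw [Set.mem_singleton_iff] at hh
      subst hh
      exact hyb.symm
  have hfin := hTb b hbB hb1 (T ⊔ Subgroup.zpowers y) (hP.to_le hP') le_sup_left hcent
  apply hyT
  rw [← hfin]
  exact (le_sup_right : Subgroup.zpowers y ≤ T ⊔ Subgroup.zpowers y) (Subgroup.mem_zpowers y)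

end Cfsg.Agent.Lib.Helper92.Har
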