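import Mathlib
import Cfsg.Agent.Lib.Helper58.JEDefs

/-! Project JE (S2948, architect helper58), piece K1 (helper92): the basic properties of
`K = KOf Q y` (the subgroup generated by the elements of odd order of `Q⟨y⟩`). -/

set_option autoImplicit false

namespace Cfsg.Agent.Lib.Helper92.JE

open Cfsg.Agent.Lib.Helper58.JE Cfsg.Agent.Lib.Helper72.JL Cfsg.Agent.Lib.Helper72.SC
  Cfsg.Agent.Lib.Helper78.Jc

universe u

/-- a conjugation mapping `Q ⊔ ⟨y⟩` into itself maps `KOf Q y` into itself -/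
theorem k1_conj_mem {G : Type u} [Group G] (Q : Subgroup G) (y t : G)
    (h1 : ∀ f ∈ Q ⊔ Subgroup.zpowers y, t * f * t⁻¹ ∈ Q ⊔ Subgroup.zpowers y) :
    ∀ k ∈ KOf Q y, t * k * t⁻¹ ∈ KOf Q y := by
  intro k hk
  have hle : KOf Q y ≤ (KOf Q y).comap (MulAut.conj t).toMonoidHom := by
    unfold KOf
    rw [Subgroup.closure_le]
    rintro g ⟨hg1, hg2⟩
    show t * g * t⁻¹ ∈ Subgroup.closure {g : G | g ∈ Q ⊔ Subgroup.zpowers y ∧ Odd (orderOf g)}
    apply Subgroup.subset_closure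
    refine ⟨h1 g hg1, ?_⟩
    have hord : orderOf (t * g * t⁻¹) = orderOf g := (MulAut.conj t).orderOf_eq g
    rwa [hord]
  exact hle hk

/-- an element whose conjugation preserves `Q ⊔ ⟨y⟩` (both ways) normalizes `KOf Q y` -/
theorem k1_norm {G : Type u} [Group G] (Q : Subgroup G) (y t : G)
    (h1 : ∀ f ∈ Q ⊔ Subgroup.zpowers y, t * f * t⁻¹ ∈ Q ⊔ Subgroup.zpowers y)
    (h2 : ∀ f ∈ Q ⊔ Subgroup.zpowers y, t⁻¹ * f * t⁻¹⁻¹ ∈ Q ⊔ Subgroup.zpowers y) :
    t ∈ Subgroup.normalizer (KOf Q y : Set G) := by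
  rw [Subgroup.mem_normalizer_iff]
  intro k
  constructor
  · exact k1_conj_mem Q y t h1 k
  · intro hk
    have h3 := k1_conj_mem Q y t⁻¹ h2 _ hk
    have h4 : t⁻¹ * (t * k * t⁻¹) * t⁻¹⁻¹ = k := by group
    rwa [h4] at h3

theorem k1 : K1Stmt.{u} := by
  intro G _ _ T L Q C V D A b y hD hY hY2
  obtain ⟨hyD, hyC, hy3, hby⟩ := hY
  have hQL : Q ≤ L := hD.hQT.trans hD.hTL
  have hyL : y ∈ L := hD.hDL hyD
  have hyQ : y ∉ Q := fun h => hyC (hD.hQC h)
  have hy1 : y ≠ 1 := fun h => hyC (h ▸ C.one_mem)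
  have hord : orderOf y = 3 := by
    have : Fact (Nat.Prime 3) := ⟨Nat.prime_three⟩
    exact orderOf_eq_prime hy3 hy1
  have hFL : Q ⊔ Subgroup.zpowers y ≤ L := sup_le hQL (Subgroup.zpowers_le.mpr hyL)
  have hKF : KOf Q y ≤ Q ⊔ Subgroup.zpowers y := by
    unfold KOf
    rw [Subgroup.closure_le]
    exact fun g hg => hg.1
  have hyF : y ∈ Q ⊔ Subgroup.zpowers y :=
    (le_sup_right : Subgroup.zpowers y ≤ Q ⊔ Subgroup.zpowers y) (Subgroup.mem_zpowers y)
  have hyK : y ∈ KOf Q y := Subgroup.subset_closure ⟨hyF, by rw [hord]; decide⟩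
  have hZK : Subgroup.zpowers y ≤ KOf Q y := Subgroup.zpowers_le.mpr hyK
  have hZN : Subgroup.zpowers y ≤ Subgroup.normalizer (Q : Set G) :=
    Subgroup.zpowers_le.mpr (hD.hQn hyL)
  -- conjugation by elements of `Q ⊔ ⟨y⟩`
  have hFconj : ∀ t ∈ Q ⊔ Subgroup.zpowers y, ∀ f ∈ Q ⊔ Subgroup.zpowers y,
      t * f * t⁻¹ ∈ Q ⊔ Subgroup.zpowers y :=
    fun t ht f hf => Subgroup.mul_mem _ (Subgroup.mul_mem _ ht hf) (Subgroup.inv_mem _ ht)
  have hFnorm : ∀ t ∈ Q ⊔ Subgroup.zpowers y, t ∈ Subgroup.normalizer (KOf Q y : Set G) :=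
    fun t ht => k1_norm Q y t (hFconj t ht) (hFconj t⁻¹ (Subgroup.inv_mem _ ht))
  -- conjugation by elements of `T ∩ N(D)`
  have hTconj : ∀ t ∈ T, t ∈ Subgroup.normalizer (D : Set G) →
      ∀ f ∈ Q ⊔ Subgroup.zpowers y, t * f * t⁻¹ ∈ Q ⊔ Subgroup.zpowers y := by
    intro t ht htD f hf
    have hle : Q ⊔ Subgroup.zpowers y ≤
        (Q ⊔ Subgroup.zpowers y).comap (MulAut.conj t).toMonoidHom := by
      refine sup_le ?_ ?_
      · intro q hq
        show t * q * t⁻¹ ∈ Q ⊔ Subgroup.zpowers y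
        have htQ := hD.hQn (hD.hTL ht)
        exact (le_sup_left : Q ≤ Q ⊔ Subgroup.zpowers y)
          ((Subgroup.mem_normalizer_iff.mp htQ q).mp hq)
      · rw [Subgroup.zpowers_le]
        show t * y * t⁻¹ ∈ Q ⊔ Subgroup.zpowers y
        rcases hY2 t ht htD with h | h
        · have e : t * y * t⁻¹ = (t * y * t⁻¹ * y⁻¹) * y := by group
          rw [e]
          exact Subgroup.mul_mem _ ((le_sup_left : Q ≤ Q ⊔ Subgroup.zpowers y) h) hyF
        · have e : t * y * t⁻¹ = (t * y * t⁻¹ * y) * y⁻¹ := by group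
          rw [e]
          exact Subgroup.mul_mem _ ((le_sup_left : Q ≤ Q ⊔ Subgroup.zpowers y) h)
            (Subgroup.inv_mem _ hyF)
    exact hle hf
  -- the decomposition `k = q * y ^ i`
  have h6 : ∀ k ∈ KOf Q y, ∃ q ∈ KOf Q y ⊓ Q, ∃ i : ℕ, k = q * y ^ i := by
    intro k hk
    have hkF : k ∈ (↑(Q ⊔ Subgroup.zpowers y) : Set G) := hKF hk
    rw [Subgroup.coe_mul_of_right_le_normalizer_left Q (Subgroup.zpowers y) hZN] at hkF
    obtain ⟨q, hq, z, hz, rfl⟩ := Set.mem_mul.mp hkF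
    obtain ⟨i, rfl⟩ : ∃ i : ℕ, y ^ i = z := by
      have hz' : z ∈ Submonoid.powers y := mem_powers_iff_mem_zpowers.mpr hz
      exact hz'
    refine ⟨q, ⟨?_, hq⟩, i, rfl⟩
    have e : q = q * y ^ i * (y ^ i)⁻¹ := by group
    rw [e]
    exact Subgroup.mul_mem _ hk (Subgroup.inv_mem _ (Subgroup.pow_mem _ hyK i))
  refine ⟨hKF.trans hFL, hyK, ?_, ?_, ?_, h6, ?_⟩
  · -- generated by its elements of odd order
    apply le_antisymm
    · rw [Subgroup.closure_le]
      exact fun g hg => hg.1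
    · conv_lhs => unfold KOf
      apply Subgroup.closure_mono
      intro g hg
      exact ⟨Subgroup.subset_closure hg, hg.2⟩
  · -- normalized by `J(T)`
    intro t ht
    have htT : t ∈ T := (Subgroup.map_subtype_le _ : Cfsg.thompsonSubgroupOf 2 T ≤ T) ht
    have ht' : t⁻¹ ∈ Cfsg.thompsonSubgroupOf 2 T := Subgroup.inv_mem _ ht
    exact k1_norm Q y t (hTconj t htT (hD.hDJ ht)) (hTconj t⁻¹ (T.inv_mem htT) (hD.hDJ ht'))
  · -- normalized by `Q`
    intro q hq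
    exact hFnorm q ((le_sup_left : Q ≤ Q ⊔ Subgroup.zpowers y) hq)
  · -- index 3
    rw [show KOf Q y ⊓ Q = Q ⊓ KOf Q y from inf_comm _ _, Subgroup.inf_relIndex_right]
    have hcompl : Subgroup.IsComplement' ((Subgroup.zpowers y).subgroupOf (KOf Q y))
        (Q.subgroupOf (KOf Q y)) := by
      apply Subgroup.isComplement'_of_disjoint_and_mul_eq_univ
      · rw [disjoint_iff, Subgroup.eq_bot_iff_forall]
        rintro ⟨x, hxK⟩ ⟨hx1, hx2⟩
        have hx1' : x ∈ Subgroup.zpowers y := hx1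
        have hx2' : x ∈ Q := hx2
        apply Subtype.ext
        show x = 1
        by_contra hx
        have : Fact (Nat.Prime 3) := ⟨Nat.prime_three⟩
        have hcard : Nat.card ↥(Subgroup.zpowers y) = 3 := by rw [Nat.card_zpowers, hord]
        have hmem : (⟨y, Subgroup.mem_zpowers y⟩ : ↥(Subgroup.zpowers y)) ∈
            Subgroup.zpowers (⟨x, hx1'⟩ : ↥(Subgroup.zpowers y)) :=
          mem_zpowers_of_prime_card hcard (fun h => hx (congrArg Subtype.val h))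
        obtain ⟨j, hj⟩ := Subgroup.mem_zpowers_iff.mp hmem
        have hj' : x ^ j = y := by
          have := congrArg Subtype.val hj
          simpa using this
        exact hyQ (hj' ▸ Q.zpow_mem hx2' j)
      · rw [Set.eq_univ_iff_forall]
        rintro ⟨k, hk⟩
        obtain ⟨q, hq, i, hki⟩ := h6 k⁻¹ (Subgroup.inv_mem _ hk)
        refine Set.mem_mul.mpr ⟨⟨(y ^ i)⁻¹, Subgroup.inv_mem _ (Subgroup.pow_mem _ hyK i)⟩, ?_,
          ⟨q⁻¹, Subgroup.inv_mem _ hq.1⟩, ?_, ?_⟩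
        · show (y ^ i)⁻¹ ∈ Subgroup.zpowers y
          exact Subgroup.inv_mem _ (Subgroup.pow_mem _ (Subgroup.mem_zpowers y) i)
        · show q⁻¹ ∈ Q
          exact Q.inv_mem hq.2
        · apply Subtype.ext
          show (y ^ i)⁻¹ * q⁻¹ = k
          rw [← mul_inv_rev, ← hki, inv_inv]
    have h1 := hcompl.index_eq_card
    show (Q.subgroupOf (KOf Q y)).index = 3
    rw [h1, Nat.card_congr (Subgroup.subgroupOfEquivOfLe hZK).toEquiv, Nat.card_zpowers, hord]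

end Cfsg.Agent.Lib.Helper92.JE
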