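import Mathlib
import Cfsg.Agent.Lib.Helper72.JMDefs

/-! Project JM (helper72, S2943), piece GR (helper92). -/

set_option autoImplicit false

namespace Cfsg.Agent.Lib.Helper92.JM

open Cfsg.Agent.Lib.Helper72.JM Cfsg.Agent.Lib.Helper72.JL Cfsg.Agent.Lib.Helper72.SC Cfsg.Agent.Lib.Helper78.Jc
open scoped commutatorElement

universe u

theorem gr : GrStmt.{u} := by
  intro X _ _ Q C K J hQn hQ2 hCn hCJ hKJ hKodd hQK g hg hgK
  -- Step 1: `g K g⁻¹ ⊆ K ⊔ Q`
  have h1 : ∀ x ∈ K, g * x * g⁻¹ ∈ K ⊔ Q := by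
    have hJmap : J.map (MulAut.conj g).toMonoidHom = J := by
      ext y
      constructor
      · rintro ⟨j, hj, rfl⟩
        exact (Subgroup.mem_normalizer_iff.mp hg j).mp hj
      · intro hy
        refine ⟨g⁻¹ * y * g, ?_, ?_⟩
        · have h := (Subgroup.mem_normalizer_iff.mp (Subgroup.inv_mem _ hg) y).mp hy
          simpa using h
        · show g * (g⁻¹ * y * g) * g⁻¹ = y
          group
    have hK' : ⁅K.map (MulAut.conj g).toMonoidHom, J⁆ = K.map (MulAut.conj g).toMonoidHom := by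
      conv_lhs => rw [← hJmap]
      rw [← Subgroup.map_commutator, hKJ]
    have hle : ⁅K.map (MulAut.conj g).toMonoidHom, J⁆ ≤ K ⊔ Q := by
      rw [Subgroup.commutator_le]
      rintro _ ⟨x, hx, rfl⟩ j hj
      obtain ⟨k₁, hk₁, c, hc, hxe⟩ := hgK x hx
      have e : ⁅(MulAut.conj g).toMonoidHom x, j⁆ = (k₁ * ⁅c, j⁆ * k₁⁻¹) * ⁅k₁, j⁆ := by
        show ⁅g * x * g⁻¹, j⁆ = _
        rw [hxe]
        simp only [commutatorElement_def]
        group
      rw [e]
      refine Subgroup.mul_mem _ (Subgroup.mem_sup_right ?_) (Subgroup.mem_sup_left ?_)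
      · exact hQn.conj_mem _ (hCJ c hc j hj) k₁
      · rw [← hKJ]
        exact Subgroup.commutator_mem_commutator hk₁ hj
    intro x hx
    have hmem : g * x * g⁻¹ ∈ K.map (MulAut.conj g).toMonoidHom := ⟨x, hx, rfl⟩
    rw [← hK'] at hmem
    exact hle hmem
  -- Step 2: odd-order elements
  have h2 : ∀ x ∈ K, Odd (orderOf x) → g * x * g⁻¹ ∈ K := by
    intro x hx hodd
    obtain ⟨k₂, hk₂, q, hq, hkq⟩ := (Subgroup.mem_sup_of_normal_right).mp (h1 x hx)
    have hpow : ∀ r : ℕ, ∃ k ∈ K, (k₂ * q) ^ r = k * q ^ r := by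
      intro r
      induction r with
      | zero => exact ⟨1, K.one_mem, by simp⟩
      | succ r ih =>
        obtain ⟨k, hk, e⟩ := ih
        refine ⟨k * (q ^ r * k₂ * (q ^ r)⁻¹), K.mul_mem hk ?_, ?_⟩
        · exact (Subgroup.mem_normalizer_iff.mp (hQK (Q.pow_mem hq r)) k₂).mp hk₂
        · rw [pow_succ, e, pow_succ]
          group
    obtain ⟨n, hn⟩ := hQ2 ⟨q, hq⟩
    have hq1 : q ^ 2 ^ n = 1 := by
      have h := congrArg Subtype.val hn
      simpa using h
    obtain ⟨k, hk, e⟩ := hpow (2 ^ n)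
    rw [hq1, mul_one, hkq] at e
    have hord : orderOf (g * x * g⁻¹) = orderOf x := (MulAut.conj g).orderOf_eq x
    have hcop : (2 ^ n).Coprime (orderOf (g * x * g⁻¹)) := by
      rw [hord]
      exact Nat.Coprime.pow_left n (Nat.coprime_two_left.mpr hodd)
    obtain ⟨a, ha⟩ := exists_pow_eq_self_of_coprime hcop
    rw [← ha, e]
    exact K.pow_mem hk a
  -- Step 3: closure
  have hsub : Subgroup.closure {g' : X | g' ∈ K ∧ Odd (orderOf g')}
      ≤ K.comap (MulAut.conj g).toMonoidHom := by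
    rw [Subgroup.closure_le]
    rintro x ⟨hx, hodd⟩
    exact h2 x hx hodd
  rw [hKodd] at hsub
  intro x hx
  exact hsub hx

end Cfsg.Agent.Lib.Helper92.JM
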