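import Mathlib
import Cfsg.Prelude.Def_MonsterType
import Cfsg.Agent.Lib.Helper92.LargeExtra

set_option autoImplicit false

namespace Cfsg.Agent.Lib.Helper92

open scoped commutatorElement

variable {G : Type*} [Group G]

/-- Elementwise form of: `Q` is extraspecial-like with centre `{1, z}`, `C_G(Q) = Z(Q)` and
`C_G(z)` normalizes `Q`. -/
structure ESetting (Q : Subgroup G) (z : G) : Prop where
  zQ : z ∈ Q
  z_ne : z ≠ 1
  zz : z * z = 1
  comm : ∀ x ∈ Q, ∀ y ∈ Q, x * y = y * x ∨ x * y = z * (y * x)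
  cent : ∀ x : G, (∀ y ∈ Q, x * y = y * x) → x = 1 ∨ x = z
  norm : ∀ k : G, k * z = z * k → ∀ x ∈ Q, k * x * k⁻¹ ∈ Q

theorem mem_conj {Q : Subgroup G} {g x : G} :
    x ∈ Q.map (MulAut.conj g).toMonoidHom ↔ g⁻¹ * x * g ∈ Q := by
  constructor
  · rintro ⟨y, hy, rfl⟩
    have : g⁻¹ * ((MulAut.conj g).toMonoidHom y) * g = y := by
      simp [MulAut.conj_apply, mul_assoc]
    rw [this]; exact hy
  · intro h
    refine ⟨g⁻¹ * x * g, h, ?_⟩
    simp [MulAut.conj_apply, mul_assoc]

theorem mem_zpowers_of_sq {z x : G} (hzz : z * z = 1) :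
    x ∈ Subgroup.zpowers z ↔ x = 1 ∨ x = z := by
  constructor
  · intro hx
    obtain ⟨k, rfl⟩ := Subgroup.mem_zpowers_iff.mp hx
    have htt : z ^ (2 : ℤ) = 1 := by
      rw [zpow_two]; exact hzz
    rcases Int.even_or_odd' k with ⟨m, rfl | rfl⟩
    · left; rw [zpow_mul, htt, one_zpow]
    · right; rw [zpow_add, zpow_mul, htt, one_zpow, one_mul, zpow_one]
  · rintro (rfl | rfl)
    · exact Subgroup.one_mem _
    · exact Subgroup.mem_zpowers _

/-- The hypotheses (L1), (L2), (L3) give an `ESetting`. -/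
theorem esetting_of_extraspecial (Q : Subgroup G) (hL1 : Cfsg.IsExtraspecial 2 ↥Q)
    (hL2 : Subgroup.centralizer (Q : Set G) = ((Subgroup.center ↥Q).map Q.subtype))
    (hL3 : Subgroup.centralizer (((Subgroup.center ↥Q).map Q.subtype) : Set G) ≤
      Subgroup.normalizer (Q : Set G)) :
    ∃ z : G, ESetting Q z ∧ (∀ x : G, x ∈ (Subgroup.center ↥Q).map Q.subtype ↔ x = 1 ∨ x = z) := by
  obtain ⟨z, hzZ, hz1, hzz, hzall, hzc⟩ := extraspecial_center_gen Q hL1
  have hmem : ∀ x : G, x ∈ (Subgroup.center ↥Q).map Q.subtype ↔ x = 1 ∨ x = z := by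
    intro x
    constructor
    · exact hzall x
    · rintro (rfl | rfl)
      · exact Subgroup.one_mem _
      · exact hzZ
  refine ⟨z, ⟨Subgroup.map_subtype_le _ hzZ, hz1, hzz, ?_, ?_, ?_⟩, hmem⟩
  · intro x hx y hy
    have h2 := extraspecial_comm_mem Q hL1 hx hy
    rcases hzall _ h2 with h3 | h3
    · left
      have : x * y = (x * y * x⁻¹ * y⁻¹) * (y * x) := by group
      rw [this, h3, one_mul]
    · right
      have : x * y = (x * y * x⁻¹ * y⁻¹) * (y * x) := by group
      rw [this, h3]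
  · intro x hx
    have h1 : x ∈ Subgroup.centralizer (Q : Set G) := by
      rw [Subgroup.mem_centralizer_iff]
      intro y hy
      exact (hx y hy).symm
    rw [hL2] at h1
    exact hzall x h1
  · intro k hk x hx
    have h1 : k ∈ Subgroup.centralizer (((Subgroup.center ↥Q).map Q.subtype) : Set G) := by
      rw [Subgroup.mem_centralizer_iff]
      intro y hy
      rcases hzall y hy with rfl | rfl
      · simp
      · exact hk.symm
    exact (Subgroup.mem_normalizer_iff.mp (hL3 h1) x).mp hx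

namespace ESetting

variable {Q : Subgroup G} {z : G}

theorem zinv (h : ESetting Q z) : z⁻¹ = z := inv_eq_of_mul_eq_one_left h.zz

theorem central (h : ESetting Q z) {y : G} (hy : y ∈ Q) : z * y = y * z := by
  rcases h.comm z h.zQ y hy with h1 | h1
  · exact h1
  · exfalso
    have h2 : y = y * z := mul_left_cancel h1
    exact h.z_ne (by simpa using h2.symm)

theorem mem_zp (h : ESetting Q z) {x : G} : x ∈ Subgroup.zpowers z ↔ x = 1 ∨ x = z :=
  mem_zpowers_of_sq h.zz

theorem zp_le (h : ESetting Q z) : Subgroup.zpowers z ≤ Q :=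
  Subgroup.zpowers_le.mpr h.zQ

theorem zp_central (h : ESetting Q z) {e y : G} (he : e ∈ Subgroup.zpowers z) (hy : y ∈ Q) :
    e * y = y * e := by
  rcases h.mem_zp.mp he with rfl | rfl
  · simp
  · exact h.central hy

theorem comm_mem (h : ESetting Q z) {x y : G} (hx : x ∈ Q) (hy : y ∈ Q) :
    x * y * x⁻¹ * y⁻¹ ∈ Subgroup.zpowers z := by
  rw [h.mem_zp]
  rcases h.comm x hx y hy with h1 | h1
  · left; rw [h1]; group
  · right; rw [h1]; group

theorem cent_mem (h : ESetting Q z) {x : G} (hx : ∀ y ∈ Q, x * y = y * x) :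
    x ∈ Subgroup.zpowers z := h.mem_zp.mpr (h.cent x hx)

theorem sq_mem (h : ESetting Q z) {x : G} (hx : x ∈ Q) : x * x ∈ Subgroup.zpowers z := by
  apply h.cent_mem
  intro y hy
  rcases h.comm x hx y hy with h1 | h1
  · calc x * x * y = x * (x * y) := by group
      _ = x * (y * x) := by rw [h1]
      _ = (x * y) * x := by group
      _ = y * x * x := by rw [h1]
      _ = y * (x * x) := by group
  · have hzx : z * x = x * z := h.central hx
    have hzy : z * y = y * z := h.central hy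
    calc x * x * y = x * (x * y) := by group
      _ = x * (z * (y * x)) := by rw [h1]
      _ = (x * z) * y * x := by group
      _ = (z * x) * y * x := by rw [hzx]
      _ = z * (x * y) * x := by group
      _ = z * (z * (y * x)) * x := by rw [h1]
      _ = (z * z) * y * x * x := by group
      _ = y * x * x := by rw [h.zz, one_mul]
      _ = y * (x * x) := by group

/-- Conjugating the setting. -/
theorem conj (h : ESetting Q z) (g : G) :
    ESetting (Q.map (MulAut.conj g).toMonoidHom) (g * z * g⁻¹) := by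
  refine ⟨?_, ?_, ?_, ?_, ?_, ?_⟩
  · rw [mem_conj]
    have : g⁻¹ * (g * z * g⁻¹) * g = z := by group
    rw [this]; exact h.zQ
  · intro h1
    apply h.z_ne
    have : z = g⁻¹ * (g * z * g⁻¹) * g := by group
    rw [this, h1]; group
  · calc g * z * g⁻¹ * (g * z * g⁻¹) = g * (z * z) * g⁻¹ := by group
      _ = 1 := by rw [h.zz]; group
  · intro x hx y hy
    rw [mem_conj] at hx hy
    rcases h.comm _ hx _ hy with h1 | h1
    · left
      calc x * y = g * ((g⁻¹ * x * g) * (g⁻¹ * y * g)) * g⁻¹ := by group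
        _ = g * ((g⁻¹ * y * g) * (g⁻¹ * x * g)) * g⁻¹ := by rw [h1]
        _ = y * x := by group
    · right
      calc x * y = g * ((g⁻¹ * x * g) * (g⁻¹ * y * g)) * g⁻¹ := by group
        _ = g * (z * ((g⁻¹ * y * g) * (g⁻¹ * x * g))) * g⁻¹ := by rw [h1]
        _ = g * z * g⁻¹ * (y * x) := by group
  · intro x hx
    have h1 : ∀ y ∈ Q, (g⁻¹ * x * g) * y = y * (g⁻¹ * x * g) := by
      intro y hy
      have hy' : g * y * g⁻¹ ∈ Q.map (MulAut.conj g).toMonoidHom := by
        rw [mem_conj]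
        have : g⁻¹ * (g * y * g⁻¹) * g = y := by group
        rw [this]; exact hy
      have h2 := hx _ hy'
      calc (g⁻¹ * x * g) * y = g⁻¹ * (x * (g * y * g⁻¹)) * g := by group
        _ = g⁻¹ * ((g * y * g⁻¹) * x) * g := by rw [h2]
        _ = y * (g⁻¹ * x * g) := by group
    rcases h.cent _ h1 with h3 | h3
    · left
      have : x = g * (g⁻¹ * x * g) * g⁻¹ := by group
      rw [this, h3]; group
    · right
      have : x = g * (g⁻¹ * x * g) * g⁻¹ := by group
      rw [this, h3]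
  · intro k hk x hx
    rw [mem_conj] at hx ⊢
    have hk' : (g⁻¹ * k * g) * z = z * (g⁻¹ * k * g) := by
      calc (g⁻¹ * k * g) * z = g⁻¹ * (k * (g * z * g⁻¹)) * g := by group
        _ = g⁻¹ * ((g * z * g⁻¹) * k) * g := by rw [hk]
        _ = z * (g⁻¹ * k * g) := by group
    have h2 := h.norm _ hk' _ hx
    have : g⁻¹ * (k * x * k⁻¹) * g = (g⁻¹ * k * g) * (g⁻¹ * x * g) * (g⁻¹ * k * g)⁻¹ := by group
    rw [this]; exact h2

end ESetting

theorem anti_mul_anti {z x y s : G} (hzz : z * z = 1) (hzx : z * x = x * z)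
    (hx : x * s = z * (s * x)) (hy : y * s = z * (s * y)) : (x * y) * s = s * (x * y) :=
  calc (x * y) * s = x * (y * s) := by group
    _ = x * (z * (s * y)) := by rw [hy]
    _ = (x * z) * s * y := by group
    _ = (z * x) * s * y := by rw [hzx]
    _ = z * (x * s) * y := by group
    _ = z * (z * (s * x)) * y := by rw [hx]
    _ = (z * z) * s * x * y := by group
    _ = s * (x * y) := by rw [hzz]; group

theorem anti_mul_comm {z x y d : G} (hx : x * d = z * (d * x)) (hy : y * d = d * y) :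
    (x * y) * d = z * (d * (x * y)) :=
  calc (x * y) * d = x * (y * d) := by group
    _ = x * (d * y) := by rw [hy]
    _ = (x * d) * y := by group
    _ = z * (d * x) * y := by rw [hx]
    _ = z * (d * (x * y)) := by group

namespace ESetting

variable {Q : Subgroup G} {z : G}

theorem not_anti_of_comm (h : ESetting Q z) {x y : G} (h1 : x * y = y * x)
    (h2 : x * y = z * (y * x)) : False := by
  apply h.z_ne
  have : 1 * (y * x) = z * (y * x) := by
    calc 1 * (y * x) = y * x := one_mul _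
      _ = x * y := h1.symm
      _ = z * (y * x) := h2
  exact (mul_right_cancel this).symm

/-- A non-central element of `Q` has an anticommuting partner. -/
theorem exists_anti (h : ESetting Q z) {s : G} (hs : s ∈ Q) (hs1 : s ≠ 1) (hsz : s ≠ z) :
    ∃ q ∈ Q, q * s = z * (s * q) := by
  by_contra hne
  push Not at hne
  have h0 : ∀ y ∈ Q, s * y = y * s := by
    intro y hy
    rcases h.comm y hy s hs with h1 | h1
    · exact h1.symm
    · exact absurd h1 (hne y hy)
  rcases h.cent s h0 with h1 | h1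
  · exact hs1 h1
  · exact hsz h1

/-- The double centralizer of an involution `s` of `Q` is `{1, z, s, s z}`. -/
theorem double_centralizer (h : ESetting Q z) {s : G} (hs : s ∈ Q) (hss : s * s = 1) {d : G}
    (hd : d ∈ Q) (hcomm : ∀ a ∈ Q, a * s = s * a → a * d = d * a) :
    d = 1 ∨ d = z ∨ d = s ∨ d = s * z := by
  by_contra hne
  push Not at hne
  obtain ⟨hd1, hdz, hds, hdsz⟩ := hne
  have hsi : s⁻¹ = s := inv_eq_of_mul_eq_one_left hss
  obtain ⟨x, hxQ, hx⟩ := h.exists_anti hd hd1 hdz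
  have hds1 : d * s ≠ 1 := by
    intro h1
    apply hds
    have : d = s⁻¹ := eq_inv_of_mul_eq_one_left h1
    rw [this, hsi]
  have hdsz' : d * s ≠ z := by
    intro h1
    apply hdsz
    have : d = z * s⁻¹ := by rw [← h1]; group
    rw [this, hsi, h.central hs]
  obtain ⟨y, hyQ, hy⟩ := h.exists_anti (Q.mul_mem hd hs) hds1 hdsz'
  have hxs : x * s = z * (s * x) := by
    rcases h.comm x hxQ s hs with h1 | h1
    · exact (h.not_anti_of_comm (hcomm x hxQ h1) hx).elim
    · exact h1
  have hys : y * s = z * (s * y) := by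
    rcases h.comm y hyQ s hs with h1 | h1
    · exfalso
      have h2 := hcomm y hyQ h1
      apply h.not_anti_of_comm _ hy
      calc y * (d * s) = (y * d) * s := by group
        _ = d * (y * s) := by rw [h2]; group
        _ = d * s * y := by rw [h1]; group
    · exact h1
  have hyd : y * d = d * y := by
    rcases h.comm y hyQ d hd with h1 | h1
    · exact h1
    · exfalso
      apply h.not_anti_of_comm _ hy
      have hzd : z * d = d * z := h.central hd
      calc y * (d * s) = (y * d) * s := by group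
        _ = z * (d * y) * s := by rw [h1]
        _ = z * d * (y * s) := by group
        _ = z * d * (z * (s * y)) := by rw [hys]
        _ = (z * d) * z * s * y := by group
        _ = (d * z) * z * s * y := by rw [hzd]
        _ = d * (z * z) * s * y := by group
        _ = d * s * y := by rw [h.zz, mul_one]
  have h1 : (x * y) * s = s * (x * y) := anti_mul_anti h.zz (h.central hxQ) hxs hys
  have h2 : (x * y) * d = z * (d * (x * y)) := anti_mul_comm hx hyd
  exact h.not_anti_of_comm (hcomm _ (Q.mul_mem hxQ hyQ) h1) h2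

/-- The centralizer in `Q` of a non-central involution `s` is non-abelian when `|Q| ≥ 32`. -/
theorem exists_noncomm_centralizer [Finite G] (h : ESetting Q z) (hcard : 32 ≤ Nat.card Q)
    {s : G} (hs : s ∈ Q) (hss : s * s = 1) (hs1 : s ≠ 1) (hsz : s ≠ z) :
    ∃ a₁ ∈ Q, ∃ a₂ ∈ Q, a₁ * s = s * a₁ ∧ a₂ * s = s * a₂ ∧ a₁ * a₂ = z * (a₂ * a₁) := by
  classical
  by_contra hne
  push Not at hne
  have hA : ∀ d ∈ Q, d * s = s * d → d = 1 ∨ d = z ∨ d = s ∨ d = s * z := by
    intro d hd hds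
    apply h.double_centralizer hs hss hd
    intro a ha has
    rcases h.comm a ha d hd with h1 | h1
    · exact h1
    · exact absurd h1 (hne a ha d hd has hds)
  obtain ⟨q, hqQ, hq⟩ := h.exists_anti hs hs1 hsz
  let F : Finset G := {1, z, s, s * z}
  have hF : F.card ≤ 4 := Finset.card_le_four
  have hmemF : ∀ d ∈ Q, d * s = s * d → d ∈ F := by
    intro d hd hds
    have := hA d hd hds
    simp only [F, Finset.mem_insert, Finset.mem_singleton]
    exact this
  have hqx : ∀ x ∈ Q, ¬ x * s = s * x → (q * x) * s = s * (q * x) := by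
    intro x hx hxs
    have hxs' : x * s = z * (s * x) := by
      rcases h.comm x hx s hs with h1 | h1
      · exact absurd h1 hxs
      · exact h1
    exact anti_mul_anti h.zz (h.central hqQ) hq hxs'
  let f : Q → F × Bool := fun x =>
    if hx : (x : G) * s = s * x then (⟨x, hmemF x x.2 hx⟩, true)
    else (⟨q * x, hmemF _ (Q.mul_mem hqQ x.2) (hqx x x.2 hx)⟩, false)
  have hf : Function.Injective f := by
    intro x y hxy
    by_cases hx : (x : G) * s = s * x <;> by_cases hy : (y : G) * s = s * y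
    · simp only [f, hx, hy, dif_pos] at hxy
      have := congrArg (fun t : F × Bool => (t.1 : G)) hxy
      exact Subtype.ext this
    · simp only [f, hx, hy, dif_pos, dif_neg, not_false_eq_true] at hxy
      have := congrArg (fun t : F × Bool => t.2) hxy
      simp at this
    · simp only [f, hx, hy, dif_pos, dif_neg, not_false_eq_true] at hxy
      have := congrArg (fun t : F × Bool => t.2) hxy
      simp at this
    · simp only [f, hx, hy, dif_neg, not_false_eq_true] at hxy
      have := congrArg (fun t : F × Bool => (t.1 : G)) hxy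
      exact Subtype.ext (mul_left_cancel this)
  have h1 : Nat.card Q ≤ Nat.card (F × Bool) := Nat.card_le_card_of_injective f hf
  have h2 : Nat.card (F × Bool) = F.card * 2 := by
    rw [Nat.card_prod, Nat.card_eq_fintype_card, Fintype.card_coe, Nat.card_eq_fintype_card,
      Fintype.card_bool]
  omega

/-- **Key lemma.** If a conjugate `s = g z g⁻¹ ≠ z` of `z` lies in `Q` and `|Q| ≥ 32`, then
`z` lies in the conjugate `g Q g⁻¹`. -/
theorem center_mem_conj [Finite G] (h : ESetting Q z) (hcard : 32 ≤ Nat.card Q) {g : G}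
    (hs : g * z * g⁻¹ ∈ Q) (hsz : g * z * g⁻¹ ≠ z) :
    z ∈ Q.map (MulAut.conj g).toMonoidHom := by
  by_contra hzP
  have hP := h.conj g
  set s := g * z * g⁻¹ with hsdef
  set P := Q.map (MulAut.conj g).toMonoidHom with hPdef
  have hss : s * s = 1 := hP.zz
  have hs1 : s ≠ 1 := hP.z_ne
  have hsi : s⁻¹ = s := hP.zinv
  have hzi : z⁻¹ = z := h.zinv
  have hzs : z * s = s * z := h.central hs
  have hsP : s ∈ P := hP.zQ
  have hzsP : z * s ∉ P := by
    intro h1
    apply hzP
    have : z = (z * s) * s := by rw [mul_assoc, hss, mul_one]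
    rw [this]; exact P.mul_mem h1 hsP
  -- Step 2
  have hD : ∀ d ∈ Q, d ∈ P → d ∈ Subgroup.zpowers s := by
    intro d hdQ hdP
    have hc : ∀ a ∈ Q, a * s = s * a → a * d = d * a := by
      intro a haQ has
      rcases h.comm a haQ d hdQ with h1 | h1
      · exact h1
      · exfalso
        apply hzP
        have : z = (a * d * a⁻¹) * d⁻¹ := by rw [h1]; group
        rw [this]
        exact P.mul_mem (hP.norm a has d hdP) (P.inv_mem hdP)
    rcases h.double_centralizer hs hss hdQ hc with rfl | rfl | rfl | rfl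
    · exact Subgroup.one_mem _
    · exact absurd hdP hzP
    · exact Subgroup.mem_zpowers _
    · rw [← hzs] at hdP
      exact absurd hdP hzsP
  -- Step 3
  have hF1 : ∀ a ∈ Q, a * s = s * a → ∀ p ∈ P, p * z = z * p →
      a * p * a⁻¹ * p⁻¹ ∈ Subgroup.zpowers s := by
    intro a ha has p hp hpz
    apply hD
    · have : a * p * a⁻¹ * p⁻¹ = a * (p * a⁻¹ * p⁻¹) := by group
      rw [this]
      exact Q.mul_mem ha (h.norm p hpz a⁻¹ (Q.inv_mem ha))
    · exact P.mul_mem (hP.norm a has p hp) (P.inv_mem hp)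
  -- Step 4
  have hF2 : ∀ p ∈ P, p * z * p⁻¹ ≠ z * s := by
    intro p hp hpz
    obtain ⟨q, hqQ, hq⟩ := h.exists_anti hs hs1 hsz
    have hps : p * s * p⁻¹ = s := by
      have := hP.central hp
      rw [← this]; group
    have hqzs : q⁻¹ * (z * s) * q = s := by
      calc q⁻¹ * (z * s) * q = q⁻¹ * (z * (s * q)) := by group
        _ = q⁻¹ * (q * s) := by rw [hq]
        _ = s := by group
    have hk : (g⁻¹ * q⁻¹ * p) * z = z * (g⁻¹ * q⁻¹ * p) := by
      have : (g⁻¹ * q⁻¹ * p) * z * (g⁻¹ * q⁻¹ * p)⁻¹ = z := by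
        calc (g⁻¹ * q⁻¹ * p) * z * (g⁻¹ * q⁻¹ * p)⁻¹
            = g⁻¹ * (q⁻¹ * (p * z * p⁻¹) * q) * g := by group
          _ = g⁻¹ * (q⁻¹ * (z * s) * q) * g := by rw [hpz]
          _ = g⁻¹ * s * g := by rw [hqzs]
          _ = z := by rw [hsdef]; group
      calc (g⁻¹ * q⁻¹ * p) * z
          = ((g⁻¹ * q⁻¹ * p) * z * (g⁻¹ * q⁻¹ * p)⁻¹) * (g⁻¹ * q⁻¹ * p) := by group
        _ = z * (g⁻¹ * q⁻¹ * p) := by rw [this]
    have h1 := h.norm _ hk s hs
    have h2 : (g⁻¹ * q⁻¹ * p) * s * (g⁻¹ * q⁻¹ * p)⁻¹ = g⁻¹ * (q⁻¹ * s * q) * g := by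
      calc (g⁻¹ * q⁻¹ * p) * s * (g⁻¹ * q⁻¹ * p)⁻¹
          = g⁻¹ * (q⁻¹ * (p * s * p⁻¹) * q) * g := by group
        _ = g⁻¹ * (q⁻¹ * s * q) * g := by rw [hps]
    rw [h2, ← mem_conj] at h1
    have h3 : q⁻¹ * s * q = z * s := by
      have hzq : q⁻¹ * z * q = z := by
        have := h.central hqQ
        calc q⁻¹ * z * q = q⁻¹ * (z * q) := by group
          _ = q⁻¹ * (q * z) := by rw [this]
          _ = z := by group
      calc q⁻¹ * s * q = (q⁻¹ * z * q)⁻¹ * (q⁻¹ * (z * s) * q) := by group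
        _ = z * s := by rw [hzq, hqzs, hzi]
    rw [h3] at h1
    exact hzsP h1
  have hznormP : ∀ x ∈ P, z * x * z⁻¹ ∈ P := hP.norm z hzs
  -- Step 5
  have hB : ∀ p ∈ P, p * z * p⁻¹ * z⁻¹ ∈ P ∧
      (p * z * p⁻¹ * z⁻¹) * z = z * (p * z * p⁻¹ * z⁻¹) := by
    intro p hp
    have hcP : p * z * p⁻¹ * z⁻¹ ∈ P := by
      have : p * z * p⁻¹ * z⁻¹ = p * (z * p⁻¹ * z⁻¹) := by group
      rw [this]
      exact P.mul_mem hp (hznormP _ (P.inv_mem hp))
    refine ⟨hcP, ?_⟩
    set c := p * z * p⁻¹ * z⁻¹ with hc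
    have hzc : z * c * z⁻¹ = c⁻¹ := by
      rw [hc, hzi]
      have e1 : (p * z * p⁻¹ * z)⁻¹ = z⁻¹ * p * z⁻¹ * p⁻¹ := by group
      rw [e1, hzi]
      calc z * (p * z * p⁻¹ * z) * z = z * p * z * p⁻¹ * (z * z) := by group
        _ = z * p * z * p⁻¹ := by rw [h.zz, mul_one]
    rcases hP.mem_zp.mp (hP.sq_mem hcP) with h1 | h1
    · have hci : c⁻¹ = c := inv_eq_of_mul_eq_one_left h1
      rw [hci] at hzc
      calc c * z = (z * c * z⁻¹) * z := by rw [hzc]
        _ = z * c := by group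
    · exfalso
      apply hF2 c⁻¹ (P.inv_mem hcP)
      have hci : c⁻¹ = c * s := by
        have : c⁻¹ = c⁻¹ * (c * c) * s⁻¹ := by rw [h1]; group
        rw [this, hsi]; group
      have hsc : s * c = c * s := hP.central hcP
      calc c⁻¹ * z * c⁻¹⁻¹ = c⁻¹ * (z * c * z⁻¹) * z := by group
        _ = c⁻¹ * (c * s) * z := by rw [hzc, hci]
        _ = s * z := by group
        _ = z * s := hzs.symm
  -- Step 6
  have hG1' : ∀ a ∈ Q, a * s = s * a → ∀ p ∈ P,
      (p⁻¹ * (a * p * a⁻¹)) * z = z * (p⁻¹ * (a * p * a⁻¹)) := by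
    intro a ha has p hp
    obtain ⟨hcP, hcz⟩ := hB p hp
    set c := p * z * p⁻¹ * z⁻¹ with hc
    have hpz : p * z * p⁻¹ = c * z := by rw [hc]; group
    have hza : z * a = a * z := h.central ha
    have hza' : a⁻¹ * z * a = z := by
      calc a⁻¹ * z * a = a⁻¹ * (z * a) := by group
        _ = a⁻¹ * (a * z) := by rw [hza]
        _ = z := by group
    have hza'' : a * z * a⁻¹ = z := by
      calc a * z * a⁻¹ = (z * a) * a⁻¹ := by rw [hza]
        _ = z := by group
    have hε := hF1 a ha has c hcP hcz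
    set ε := a * c * a⁻¹ * c⁻¹ with hεdef
    have hεp : ε * p = p * ε := hP.zp_central hε hp
    have huP : p⁻¹ * (a * p * a⁻¹) ∈ P := P.mul_mem (P.inv_mem hp) (hP.norm a has p hp)
    have key : (p⁻¹ * (a * p * a⁻¹)) * z * (p⁻¹ * (a * p * a⁻¹))⁻¹ = ε * z := by
      calc (p⁻¹ * (a * p * a⁻¹)) * z * (p⁻¹ * (a * p * a⁻¹))⁻¹
          = p⁻¹ * a * p * (a⁻¹ * z * a) * p⁻¹ * a⁻¹ * p := by group
        _ = p⁻¹ * a * (p * z * p⁻¹) * a⁻¹ * p := by rw [hza']; group
        _ = p⁻¹ * a * (c * z) * a⁻¹ * p := by rw [hpz]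
        _ = p⁻¹ * (a * c * a⁻¹ * c⁻¹) * c * (a * z * a⁻¹) * p := by group
        _ = p⁻¹ * ε * (c * z) * p := by rw [hza'', ← hεdef]; group
        _ = p⁻¹ * ε * (p * z * p⁻¹) * p := by rw [hpz]
        _ = p⁻¹ * (ε * p) * z := by group
        _ = p⁻¹ * (p * ε) * z := by rw [hεp]
        _ = ε * z := by group
    rcases hP.mem_zp.mp hε with h1 | h1
    · rw [h1, one_mul] at key
      calc (p⁻¹ * (a * p * a⁻¹)) * z
          = ((p⁻¹ * (a * p * a⁻¹)) * z * (p⁻¹ * (a * p * a⁻¹))⁻¹) * (p⁻¹ * (a * p * a⁻¹)) := by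
            group
        _ = z * (p⁻¹ * (a * p * a⁻¹)) := by rw [key]
    · exfalso
      rw [h1, ← hzs] at key
      exact hF2 _ huP key
  have hG1 : ∀ a ∈ Q, a * s = s * a → ∀ p ∈ P,
      (a * p * a⁻¹ * p⁻¹) * z = z * (a * p * a⁻¹ * p⁻¹) := by
    intro a ha has p hp
    have h1 := hG1' a ha has p⁻¹ (P.inv_mem hp)
    rw [inv_inv] at h1
    -- h1 : (p * (a * p⁻¹ * a⁻¹)) * z = z * (p * (a * p⁻¹ * a⁻¹))
    have e : a * p * a⁻¹ * p⁻¹ = (p * (a * p⁻¹ * a⁻¹))⁻¹ := by group
    rw [e]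
    calc (p * (a * p⁻¹ * a⁻¹))⁻¹ * z
        = (p * (a * p⁻¹ * a⁻¹))⁻¹ * (z * (p * (a * p⁻¹ * a⁻¹))) * (p * (a * p⁻¹ * a⁻¹))⁻¹ := by
          group
      _ = (p * (a * p⁻¹ * a⁻¹))⁻¹ * ((p * (a * p⁻¹ * a⁻¹)) * z) * (p * (a * p⁻¹ * a⁻¹))⁻¹ := by
          rw [h1]
      _ = z * (p * (a * p⁻¹ * a⁻¹))⁻¹ := by group
  -- Step 7
  obtain ⟨a₁, ha₁, a₂, ha₂, has₁, has₂, hA⟩ :=
    h.exists_noncomm_centralizer hcard hs hss hs1 hsz
  have hcommR : ∀ p ∈ P, z * ((a₂ * a₁) * p * (a₂ * a₁)⁻¹) = ((a₂ * a₁) * p * (a₂ * a₁)⁻¹) * z := by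
    intro p hp
    have hγ₁P : a₁ * p * a₁⁻¹ * p⁻¹ ∈ P := P.mul_mem (hP.norm a₁ has₁ p hp) (P.inv_mem hp)
    have hγ₂P : a₂ * p * a₂⁻¹ * p⁻¹ ∈ P := P.mul_mem (hP.norm a₂ has₂ p hp) (P.inv_mem hp)
    have hε₁ := hF1 a₁ ha₁ has₁ _ hγ₂P (hG1 a₂ ha₂ has₂ p hp)
    have hε₂ := hF1 a₂ ha₂ has₂ _ hγ₁P (hG1 a₁ ha₁ has₁ p hp)
    have hε₃ := hP.comm_mem hγ₂P hγ₁P
    have hRP : (a₂ * a₁) * p * (a₂ * a₁)⁻¹ ∈ P := by
      have has21 : (a₂ * a₁) * s = s * (a₂ * a₁) := by
        calc (a₂ * a₁) * s = a₂ * (a₁ * s) := by group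
          _ = a₂ * (s * a₁) := by rw [has₁]
          _ = (a₂ * s) * a₁ := by group
          _ = s * (a₂ * a₁) := by rw [has₂]; group
      exact hP.norm _ has21 p hp
    set R := (a₂ * a₁) * p * (a₂ * a₁)⁻¹ with hR
    have hLR : z * R * z⁻¹ * R⁻¹ ∈ Subgroup.zpowers s := by
      have e : z * R * z⁻¹ * R⁻¹ =
          (a₁ * (a₂ * p * a₂⁻¹ * p⁻¹) * a₁⁻¹ * (a₂ * p * a₂⁻¹ * p⁻¹)⁻¹) *
          ((a₂ * p * a₂⁻¹ * p⁻¹) * (a₁ * p * a₁⁻¹ * p⁻¹) * (a₂ * p * a₂⁻¹ * p⁻¹)⁻¹ *
            (a₁ * p * a₁⁻¹ * p⁻¹)⁻¹) *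
          (a₂ * (a₁ * p * a₁⁻¹ * p⁻¹) * a₂⁻¹ * (a₁ * p * a₁⁻¹ * p⁻¹)⁻¹)⁻¹ := by
        have e1 : z * R * z⁻¹ = (a₁ * a₂) * p * (a₁ * a₂)⁻¹ := by
          rw [hA, hR]; group
        rw [e1, hR]; group
      rw [e]
      exact Subgroup.mul_mem _ (Subgroup.mul_mem _ hε₁ hε₃) (Subgroup.inv_mem _ hε₂)
    rcases hP.mem_zp.mp hLR with h1 | h1
    · calc z * R = (z * R * z⁻¹ * R⁻¹) * (R * z) := by group
        _ = R * z := by rw [h1, one_mul]
    · exfalso
      apply hF2 R⁻¹ (P.inv_mem hRP)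
      have hsR : s * R = R * s := hP.central hRP
      calc R⁻¹ * z * R⁻¹⁻¹ = R⁻¹ * (z * R * z⁻¹ * R⁻¹) * R * z := by group
        _ = R⁻¹ * (s * R) * z := by rw [h1]; group
        _ = R⁻¹ * (R * s) * z := by rw [hsR]
        _ = s * z := by group
        _ = z * s := hzs.symm
  have hzcent : ∀ y ∈ P, z * y = y * z := by
    intro y hy
    have has21 : (a₂ * a₁)⁻¹ * s = s * (a₂ * a₁)⁻¹ := by
      have has21 : (a₂ * a₁) * s = s * (a₂ * a₁) := by
        calc (a₂ * a₁) * s = a₂ * (a₁ * s) := by group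
          _ = a₂ * (s * a₁) := by rw [has₁]
          _ = (a₂ * s) * a₁ := by group
          _ = s * (a₂ * a₁) := by rw [has₂]; group
      calc (a₂ * a₁)⁻¹ * s = (a₂ * a₁)⁻¹ * (s * (a₂ * a₁)) * (a₂ * a₁)⁻¹ := by group
        _ = (a₂ * a₁)⁻¹ * ((a₂ * a₁) * s) * (a₂ * a₁)⁻¹ := by rw [has21]
        _ = s * (a₂ * a₁)⁻¹ := by group
    have hp : (a₂ * a₁)⁻¹ * y * (a₂ * a₁)⁻¹⁻¹ ∈ P := hP.norm _ has21 y hy
    have := hcommR _ hp
    have e : (a₂ * a₁) * ((a₂ * a₁)⁻¹ * y * (a₂ * a₁)⁻¹⁻¹) * (a₂ * a₁)⁻¹ = y := by group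
    rwa [e] at this
  rcases hP.cent z hzcent with h1 | h1
  · exact h.z_ne h1
  · exact hsz h1.symm

end ESetting

/-- The index of the centralizer of `x` in `N` is the number of `N`-conjugates of `x`. -/
theorem relIndex_inf_centralizer (N : Subgroup G) (x : G) :
    (N ⊓ Subgroup.centralizer {x}).relIndex N = Set.ncard {y | ∃ n ∈ N, y = n * x * n⁻¹} := by
  letI : MulAction N G := MulAction.compHom G ((MulAut.conj (G := G)).comp N.subtype)
  have hsmul : ∀ (n : N) (y : G), n • y = (n : G) * y * (n : G)⁻¹ := fun n y => rfl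
  have h1 : (N ⊓ Subgroup.centralizer {x}).subgroupOf N = MulAction.stabilizer N x := by
    ext n
    rw [Subgroup.mem_subgroupOf, MulAction.mem_stabilizer_iff, hsmul, Subgroup.mem_inf,
      mem_centralizer_singleton]
    constructor
    · rintro ⟨_, h2⟩
      rw [← h2]; group
    · intro h2
      refine ⟨n.2, ?_⟩
      calc x * (n : G) = ((n : G) * x * (n : G)⁻¹) * n := by rw [h2]
        _ = n * x := by group
  have h2 : MulAction.orbit N x = {y | ∃ n ∈ N, y = n * x * n⁻¹} := by
    ext y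
    rw [MulAction.mem_orbit_iff]
    constructor
    · rintro ⟨n, rfl⟩
      exact ⟨n, n.2, hsmul n x⟩
    · rintro ⟨n, hn, rfl⟩
      exact ⟨⟨n, hn⟩, hsmul _ x⟩
  rw [Subgroup.relIndex, h1, MulAction.index_stabilizer, h2]

theorem pow_eq_of_sq {z : G} (hzz : z * z = 1) (i : ℕ) : z ^ i = 1 ∨ z ^ i = z := by
  induction i with
  | zero => left; simp
  | succ n ih =>
    rcases ih with h | h
    · right; rw [pow_succ, h, one_mul]
    · left; rw [pow_succ, h, hzz]

/-- The four-group generated by commuting involutions. -/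
theorem four_mem {z s : G} (hzz : z * z = 1) (hss : s * s = 1) (hzs : z * s = s * z) {x : G} :
    x ∈ Subgroup.zpowers z ⊔ Subgroup.zpowers s ↔ x = 1 ∨ x = z ∨ x = s ∨ x = z * s := by
  constructor
  · intro hx
    have hcz : Commute z s := hzs
    have key : Subgroup.zpowers z ⊔ Subgroup.zpowers s ≤
        ({ carrier := {x | ∃ i j : ℕ, x = z ^ i * s ^ j}
           mul_mem' := by
             rintro a b ⟨i, j, rfl⟩ ⟨k, l, rfl⟩
             refine ⟨i + k, j + l, ?_⟩
             have h1 : Commute (s ^ j) (z ^ k) := (hcz.pow_pow k j).symm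
             calc z ^ i * s ^ j * (z ^ k * s ^ l) = z ^ i * (s ^ j * z ^ k) * s ^ l := by group
               _ = z ^ i * (z ^ k * s ^ j) * s ^ l := by rw [h1.eq]
               _ = z ^ (i + k) * s ^ (j + l) := by rw [pow_add, pow_add]; group
           one_mem' := ⟨0, 0, by simp⟩
           inv_mem' := by
             rintro a ⟨i, j, rfl⟩
             refine ⟨i, j, ?_⟩
             have hzi : z⁻¹ = z := inv_eq_of_mul_eq_one_left hzz
             have hsi : s⁻¹ = s := inv_eq_of_mul_eq_one_left hss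
             have h1 : Commute (s ^ j) (z ^ i) := (hcz.pow_pow i j).symm
             rw [mul_inv_rev, ← inv_pow, ← inv_pow, hzi, hsi, h1.eq] } : Subgroup G) := by
      refine sup_le ?_ ?_
      · rw [Subgroup.zpowers_le]
        exact ⟨1, 0, by simp⟩
      · rw [Subgroup.zpowers_le]
        exact ⟨0, 1, by simp⟩
    obtain ⟨i, j, rfl⟩ := key hx
    rcases pow_eq_of_sq hzz i with h1 | h1 <;> rcases pow_eq_of_sq hss j with h2 | h2 <;>
      rw [h1, h2] <;> simp
  · rintro (rfl | rfl | rfl | rfl)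
    · exact Subgroup.one_mem _
    · exact (le_sup_left : Subgroup.zpowers x ≤ _) (Subgroup.mem_zpowers x)
    · exact (le_sup_right : Subgroup.zpowers x ≤ _) (Subgroup.mem_zpowers x)
    · exact Subgroup.mul_mem _ ((le_sup_left : Subgroup.zpowers z ≤ _) (Subgroup.mem_zpowers z))
        ((le_sup_right : Subgroup.zpowers s ≤ _) (Subgroup.mem_zpowers s))

/-- In a finite group, an element conjugating `V` into itself normalizes `V`. -/
theorem mem_normalizer_of_conj_mem [Finite G] {V : Subgroup G} {n : G}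
    (h : ∀ v ∈ V, n * v * n⁻¹ ∈ V) : n ∈ Subgroup.normalizer (V : Set G) := by
  have hle : V.map (MulAut.conj n).toMonoidHom ≤ V := by
    rintro _ ⟨v, hv, rfl⟩
    exact h v hv
  have hcard : Nat.card (V.map (MulAut.conj n).toMonoidHom) = Nat.card V :=
    Subgroup.card_map_of_injective (MulAut.conj n).injective
  have heq : V.map (MulAut.conj n).toMonoidHom = V :=
    Subgroup.eq_of_le_of_card_ge hle hcard.ge
  rw [Subgroup.mem_normalizer_iff]
  intro v
  constructor
  · exact h v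
  · intro hv
    rw [← heq] at hv
    obtain ⟨u, hu, hu2⟩ := hv
    have : u = v := by
      have h3 : n * u * n⁻¹ = n * v * n⁻¹ := hu2
      have h4 : u = n⁻¹ * (n * u * n⁻¹) * n := by group
      rw [h4, h3]; group
    rw [← this]; exact hu

/-- The normalizer of the four-group `V = ⟨z, s⟩` induces the full symmetric group on the
three involutions of `V` as soon as it contains `q` swapping `s, zs` and `p` swapping `z, zs`. -/
theorem relIndex_four [Finite G] {z s q p : G} (hzz : z * z = 1) (hss : s * s = 1)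
    (hzs : z * s = s * z) (hz1 : z ≠ 1) (hs1 : s ≠ 1) (hzs' : z ≠ s)
    (hqz : q * z = z * q) (hqs : q * s = z * (s * q))
    (hps : p * s = s * p) (hpz : p * z = s * (z * p)) :
    (Subgroup.centralizer ((Subgroup.zpowers z ⊔ Subgroup.zpowers s : Subgroup G) : Set G)).relIndex
      (Subgroup.normalizer ((Subgroup.zpowers z ⊔ Subgroup.zpowers s : Subgroup G) : Set G)) = 6 := by
  set V := Subgroup.zpowers z ⊔ Subgroup.zpowers s with hV
  have hmem : ∀ x : G, x ∈ V ↔ x = 1 ∨ x = z ∨ x = s ∨ x = z * s := fun x => four_mem hzz hss hzs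
  have hzV : z ∈ V := (hmem z).mpr (Or.inr (Or.inl rfl))
  have hsV : s ∈ V := (hmem s).mpr (Or.inr (Or.inr (Or.inl rfl)))
  have hzsV : z * s ∈ V := (hmem _).mpr (Or.inr (Or.inr (Or.inr rfl)))
  have hzs1 : z * s ≠ 1 := by
    intro h1
    apply hzs'
    have : z = s⁻¹ := eq_inv_of_mul_eq_one_left h1
    rw [this, inv_eq_of_mul_eq_one_left hss]
  have hzsz : z * s ≠ z := by
    intro h1
    apply hs1
    have : z * s = z * 1 := by rw [h1, mul_one]
    exact mul_left_cancel this
  have hzss : z * s ≠ s := by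
    intro h1
    apply hz1
    have : z * s = 1 * s := by rw [h1, one_mul]
    exact mul_right_cancel this
  -- conjugation formulas
  have hq_z : q * z * q⁻¹ = z := by rw [hqz]; group
  have hq_s : q * s * q⁻¹ = z * s := by rw [hqs]; group
  have hp_s : p * s * p⁻¹ = s := by rw [hps]; group
  have hp_z : p * z * p⁻¹ = z * s := by
    calc p * z * p⁻¹ = s * (z * p) * p⁻¹ := by rw [hpz]
      _ = s * z := by group
      _ = z * s := hzs.symm
  have hqN : q ∈ Subgroup.normalizer (V : Set G) := by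
    apply mem_normalizer_of_conj_mem
    intro v hv
    rcases (hmem v).mp hv with rfl | rfl | rfl | rfl
    · simp [Subgroup.one_mem]
    · rw [hq_z]; exact hzV
    · rw [hq_s]; exact hzsV
    · have : q * (z * s) * q⁻¹ = (q * z * q⁻¹) * (q * s * q⁻¹) := by group
      rw [this, hq_z, hq_s, ← mul_assoc, hzz, one_mul]; exact hsV
  have hpN : p ∈ Subgroup.normalizer (V : Set G) := by
    apply mem_normalizer_of_conj_mem
    intro v hv
    rcases (hmem v).mp hv with rfl | rfl | rfl | rfl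
    · simp [Subgroup.one_mem]
    · rw [hp_z]; exact hzsV
    · rw [hp_s]; exact hsV
    · have : p * (z * s) * p⁻¹ = (p * z * p⁻¹) * (p * s * p⁻¹) := by group
      rw [this, hp_z, hp_s, mul_assoc, hss, mul_one]; exact hzV
  set N := Subgroup.normalizer (V : Set G) with hN
  have hconjV : ∀ n ∈ N, ∀ v ∈ V, n * v * n⁻¹ ∈ V := fun n hn v hv =>
    (Subgroup.mem_normalizer_iff.mp hn v).mp hv
  have hC : Subgroup.centralizer (V : Set G) = (N ⊓ Subgroup.centralizer {z}) ⊓ Subgroup.centralizer {s} := by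
    apply le_antisymm
    · intro k hk
      have hk' := Subgroup.mem_centralizer_iff.mp hk
      refine Subgroup.mem_inf.mpr ⟨Subgroup.mem_inf.mpr ⟨Subgroup.centralizer_le_normalizer _ hk, ?_⟩, ?_⟩
      · exact mem_centralizer_singleton.mpr (hk' z hzV)
      · exact mem_centralizer_singleton.mpr (hk' s hsV)
    · intro k hk
      have hkz := mem_centralizer_singleton.mp (Subgroup.mem_inf.mp (Subgroup.mem_inf.mp hk).1).2
      have hks := mem_centralizer_singleton.mp (Subgroup.mem_inf.mp hk).2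
      rw [Subgroup.mem_centralizer_iff]
      intro v hv
      rcases (hmem v).mp hv with rfl | rfl | rfl | rfl
      · simp
      · exact hkz
      · exact hks
      · calc z * s * k = z * (s * k) := by group
          _ = z * (k * s) := by rw [hks]
          _ = (z * k) * s := by group
          _ = k * (z * s) := by rw [hkz]; group
  have h3 : (N ⊓ Subgroup.centralizer {z}).relIndex N = 3 := by
    rw [relIndex_inf_centralizer, Set.ncard_eq_three]
    refine ⟨z, s, z * s, hzs', hzsz.symm, hzss.symm, ?_⟩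
    ext y
    simp only [Set.mem_ofPred_eq, Set.mem_insert_iff, Set.mem_singleton_iff]
    constructor
    · rintro ⟨n, hn, rfl⟩
      have h1 := hconjV n hn z hzV
      rcases (hmem _).mp h1 with h2 | h2 | h2 | h2
      · exfalso
        apply hz1
        have : z = n⁻¹ * (n * z * n⁻¹) * n := by group
        rw [this, h2]; group
      · exact Or.inl h2
      · exact Or.inr (Or.inl h2)
      · exact Or.inr (Or.inr h2)
    · rintro (h | h | h)
      · exact ⟨1, Subgroup.one_mem _, by simp [h]⟩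
      · refine ⟨q * p, Subgroup.mul_mem _ hqN hpN, ?_⟩
        have e : q * p * z * (q * p)⁻¹ = q * (p * z * p⁻¹) * q⁻¹ := by group
        have e2 : q * (z * s) * q⁻¹ = (q * z * q⁻¹) * (q * s * q⁻¹) := by group
        rw [h, e, hp_z, e2, hq_z, hq_s, ← mul_assoc, hzz, one_mul]
      · exact ⟨p, hpN, by rw [h, hp_z]⟩
  have h2 : ((N ⊓ Subgroup.centralizer {z}) ⊓ Subgroup.centralizer {s}).relIndex
      (N ⊓ Subgroup.centralizer {z}) = 2 := by
    rw [relIndex_inf_centralizer]
    have : {y | ∃ n ∈ N ⊓ Subgroup.centralizer {z}, y = n * s * n⁻¹} = {s, z * s} := by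
      ext y
      simp only [Set.mem_ofPred_eq, Set.mem_insert_iff, Set.mem_singleton_iff]
      constructor
      · rintro ⟨n, hn, rfl⟩
        have hnN := (Subgroup.mem_inf.mp hn).1
        have hnz := mem_centralizer_singleton.mp (Subgroup.mem_inf.mp hn).2
        have h1 := hconjV n hnN s hsV
        rcases (hmem _).mp h1 with h2 | h2 | h2 | h2
        · exfalso
          apply hs1
          have : s = n⁻¹ * (n * s * n⁻¹) * n := by group
          rw [this, h2]; group
        · exfalso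
          apply hzs'
          have e1 : n * z * n⁻¹ = z := by rw [← hnz]; group
          have : s = n⁻¹ * (n * s * n⁻¹) * n := by group
          rw [this, h2]
          calc z = n⁻¹ * (n * z * n⁻¹) * n := by group
            _ = n⁻¹ * z * n := by rw [e1]
        · exact Or.inl h2
        · exact Or.inr h2
      · rintro (h | h)
        · exact ⟨1, Subgroup.one_mem _, by simp [h]⟩
        · exact ⟨q, Subgroup.mem_inf.mpr ⟨hqN, mem_centralizer_singleton.mpr hqz.symm⟩,
            by rw [h, hq_s]⟩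
    rw [this]
    exact Set.ncard_pair hzss.symm
  rw [hC, ← Subgroup.relIndex_mul_relIndex _ (N ⊓ Subgroup.centralizer {z}) N inf_le_left
    inf_le_left, h2, h3]

end Cfsg.Agent.Lib.Helper92
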