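import Mathlib
import Cfsg.Prelude.Def_MonsterType
import Cfsg.Agent.Lib.Helper92.LargeExtra2

set_option autoImplicit false

namespace Cfsg.Agent.Lib.Helper92

open scoped commutatorElement

variable {G : Type*} [Group G]

/-- Induction over the join of two subgroups. -/
theorem sup_induction_left {H K : Subgroup G} {p : G → Prop} (one : p 1)
    (mulH : ∀ h ∈ H, ∀ y, p y → p (h * y)) (mulK : ∀ k ∈ K, ∀ y, p y → p (k * y)) :
    ∀ x ∈ H ⊔ K, p x := by
  intro x hx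
  have h1 : H ⊔ K = Subgroup.closure ((H : Set G) ∪ (K : Set G)) := by
    rw [Subgroup.closure_union, Subgroup.closure_eq, Subgroup.closure_eq]
  rw [h1] at hx
  induction hx using Subgroup.closure_induction_left with
  | one => exact one
  | mul_left x hx y _ ih =>
    rcases hx with hx | hx
    · exact mulH x hx y ih
    · exact mulK x hx y ih
  | inv_mul_cancel x hx y _ ih =>
    rcases hx with hx | hx
    · exact mulH x⁻¹ (H.inv_mem hx) y ih
    · exact mulK x⁻¹ (K.inv_mem hx) y ih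

theorem le_normalizer_of_conj_mem {H V : Subgroup G} (h : ∀ x ∈ H, ∀ v ∈ V, x * v * x⁻¹ ∈ V) :
    H ≤ Subgroup.normalizer (V : Set G) := by
  intro x hx
  rw [Subgroup.mem_normalizer_iff]
  intro v
  constructor
  · exact h x hx v
  · intro hv
    have h1 := h x⁻¹ (H.inv_mem hx) _ hv
    have e : x⁻¹ * (x * v * x⁻¹) * x⁻¹⁻¹ = v := by group
    rwa [e] at h1

theorem conj_mem_of_mem_normalizer {V : Subgroup G} {x v : G}
    (hx : x ∈ Subgroup.normalizer (V : Set G)) (hv : v ∈ V) : x * v * x⁻¹ ∈ V :=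
  (Subgroup.mem_normalizer_iff.mp hx v).mp hv

theorem conj_mem_centralizer {V : Subgroup G} {x c : G}
    (hx : x ∈ Subgroup.normalizer (V : Set G))
    (hc : c ∈ Subgroup.centralizer (V : Set G)) :
    x * c * x⁻¹ ∈ Subgroup.centralizer (V : Set G) := by
  rw [Subgroup.mem_centralizer_iff] at hc ⊢
  intro v hv
  have hv' : x⁻¹ * v * x⁻¹⁻¹ ∈ V :=
    conj_mem_of_mem_normalizer (Subgroup.inv_mem _ hx) hv
  have h1 := hc _ hv'
  calc v * (x * c * x⁻¹) = x * ((x⁻¹ * v * x⁻¹⁻¹) * c) * x⁻¹ := by group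
    _ = x * (c * (x⁻¹ * v * x⁻¹⁻¹)) * x⁻¹ := by rw [h1]
    _ = x * c * x⁻¹ * v := by group

/-- The elements of `N(E)` whose commutator with `y` lies in `E`. -/
def commSub (E : Subgroup G) (y : G) : Subgroup G where
  carrier := {x | x ∈ Subgroup.normalizer (E : Set G) ∧ x * y * x⁻¹ * y⁻¹ ∈ E}
  mul_mem' := by
    rintro a b ⟨ha, ha'⟩ ⟨hb, hb'⟩
    refine ⟨Subgroup.mul_mem _ ha hb, ?_⟩
    have e : a * b * y * (a * b)⁻¹ * y⁻¹ =
        a * (b * y * b⁻¹ * y⁻¹) * a⁻¹ * (a * y * a⁻¹ * y⁻¹) := by group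
    rw [e]
    exact E.mul_mem (conj_mem_of_mem_normalizer ha hb') ha'
  one_mem' := ⟨Subgroup.one_mem _, by simp⟩
  inv_mem' := by
    rintro a ⟨ha, ha'⟩
    refine ⟨Subgroup.inv_mem _ ha, ?_⟩
    have e : a⁻¹ * y * a⁻¹⁻¹ * y⁻¹ = a⁻¹ * (a * y * a⁻¹ * y⁻¹)⁻¹ * a⁻¹⁻¹ := by group
    rw [e]
    exact conj_mem_of_mem_normalizer (Subgroup.inv_mem _ ha) (E.inv_mem ha')

theorem mem_commSub {E : Subgroup G} {y x : G} :
    x ∈ commSub E y ↔ x ∈ Subgroup.normalizer (E : Set G) ∧ x * y * x⁻¹ * y⁻¹ ∈ E := Iff.rfl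

/-- If `H`, `K` normalize `E` and are elementary abelian modulo `E` and commute modulo `E`,
then `H ⊔ K` is elementary abelian modulo `E`. -/
theorem comm_sq_sup {E H K : Subgroup G}
    (hH : H ≤ Subgroup.normalizer (E : Set G)) (hK : K ≤ Subgroup.normalizer (E : Set G))
    (hHH : ∀ x ∈ H, ∀ y ∈ H, x * y * x⁻¹ * y⁻¹ ∈ E)
    (hKK : ∀ x ∈ K, ∀ y ∈ K, x * y * x⁻¹ * y⁻¹ ∈ E)
    (hHK : ∀ x ∈ H, ∀ y ∈ K, x * y * x⁻¹ * y⁻¹ ∈ E)
    (hH2 : ∀ x ∈ H, x * x ∈ E) (hK2 : ∀ x ∈ K, x * x ∈ E) :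
    ∀ x ∈ H ⊔ K, ∀ y ∈ H ⊔ K, x * y * x⁻¹ * y⁻¹ ∈ E ∧ x * x ∈ E := by
  have hinv : ∀ x y : G, x * y * x⁻¹ * y⁻¹ ∈ E → y * x * y⁻¹ * x⁻¹ ∈ E := by
    intro x y h
    have e : y * x * y⁻¹ * x⁻¹ = (x * y * x⁻¹ * y⁻¹)⁻¹ := by group
    rw [e]; exact E.inv_mem h
  have hKH : ∀ x ∈ K, ∀ y ∈ H, x * y * x⁻¹ * y⁻¹ ∈ E :=
    fun x hx y hy => hinv _ _ (hHK y hy x hx)
  have step1H : ∀ y ∈ H, H ⊔ K ≤ commSub E y := fun y hy =>
    sup_le (fun x hx => mem_commSub.mpr ⟨hH hx, hHH x hx y hy⟩)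
      (fun x hx => mem_commSub.mpr ⟨hK hx, hKH x hx y hy⟩)
  have step1K : ∀ y ∈ K, H ⊔ K ≤ commSub E y := fun y hy =>
    sup_le (fun x hx => mem_commSub.mpr ⟨hH hx, hHK x hx y hy⟩)
      (fun x hx => mem_commSub.mpr ⟨hK hx, hKK x hx y hy⟩)
  have step2 : ∀ x ∈ H ⊔ K, H ⊔ K ≤ commSub E x := fun x hx =>
    sup_le (fun y hy => mem_commSub.mpr ⟨hH hy, hinv _ _ (mem_commSub.mp (step1H y hy hx)).2⟩)
      (fun y hy => mem_commSub.mpr ⟨hK hy, hinv _ _ (mem_commSub.mp (step1K y hy hx)).2⟩)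
  have hcomm : ∀ x ∈ H ⊔ K, ∀ y ∈ H ⊔ K, x * y * x⁻¹ * y⁻¹ ∈ E := fun x hx y hy =>
    (mem_commSub.mp (step2 y hy hx)).2
  have hsq : ∀ x ∈ H ⊔ K, x * x ∈ E := by
    have key : H ⊔ K ≤ ({ carrier := {x | x ∈ H ⊔ K ∧ x * x ∈ E}
                          mul_mem' := by
                            rintro a b ⟨ha, ha2⟩ ⟨hb, hb2⟩
                            refine ⟨Subgroup.mul_mem _ ha hb, ?_⟩
                            have e : a * b * (a * b) =
                                (a * a) * (a⁻¹ * b * a⁻¹⁻¹ * b⁻¹) * (b * b) := by group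
                            rw [e]
                            exact E.mul_mem (E.mul_mem ha2
                              (hcomm _ (Subgroup.inv_mem _ ha) _ hb)) hb2
                          one_mem' := ⟨Subgroup.one_mem _, by simp⟩
                          inv_mem' := by
                            rintro a ⟨ha, ha2⟩
                            refine ⟨Subgroup.inv_mem _ ha, ?_⟩
                            have e : a⁻¹ * a⁻¹ = (a * a)⁻¹ := by group
                            rw [e]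
                            exact E.inv_mem ha2 } : Subgroup G) :=
      sup_le (fun x hx => ⟨(le_sup_left : H ≤ H ⊔ K) hx, hH2 x hx⟩)
        (fun x hx => ⟨(le_sup_right : K ≤ H ⊔ K) hx, hK2 x hx⟩)
    exact fun x hx => (key hx).2
  exact fun x hx y hy => ⟨hcomm x hx y hy, hsq x hx⟩

/-! ### The permutation representation of the normalizer of a four-group -/

/-- The three involutions of the four-group `⟨z, s⟩`. -/
def fourE (z s : G) : Fin 3 → G := ![z, s, z * s]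

theorem fourE_zero (z s : G) : fourE z s 0 = z := rfl
theorem fourE_one (z s : G) : fourE z s 1 = s := rfl
theorem fourE_two (z s : G) : fourE z s 2 = z * s := rfl

theorem fourE_injective {z s : G} (hz1 : z ≠ 1) (hs1 : s ≠ 1) (hne : z ≠ s) :
    Function.Injective (fourE z s) := by
  intro i j h
  fin_cases i <;> fin_cases j <;> simp [fourE] at h ⊢
  · exact hne h
  · exact hs1 h
  · exact hne h.symm
  · exact hz1 h
  · exact hs1 h
  · exact hz1 h

theorem closure_pair (z s : G) :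
    Subgroup.closure ({z, s} : Set G) = Subgroup.zpowers z ⊔ Subgroup.zpowers s := by
  rw [Set.insert_eq, Subgroup.closure_union, Subgroup.zpowers_eq_closure,
    Subgroup.zpowers_eq_closure]

theorem exists_fourRep {z s : G} (hzz : z * z = 1) (hss : s * s = 1) (hzs : z * s = s * z)
    (hz1 : z ≠ 1) (hs1 : s ≠ 1) (hne : z ≠ s) :
    ∃ φ : ↥(Subgroup.normalizer ((Subgroup.zpowers z ⊔ Subgroup.zpowers s : Subgroup G) : Set G))
        →* Equiv.Perm (Fin 3),
      ∀ n i, fourE z s (φ n i) = (n : G) * fourE z s i * (n : G)⁻¹ := by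
  classical
  set V := Subgroup.zpowers z ⊔ Subgroup.zpowers s with hV
  have hmem : ∀ x : G, x ∈ V ↔ x = 1 ∨ x = z ∨ x = s ∨ x = z * s :=
    fun x => four_mem hzz hss hzs
  have hzs1 : z * s ≠ 1 := by
    intro h1
    apply hne
    have : z = s⁻¹ := eq_inv_of_mul_eq_one_left h1
    rw [this, inv_eq_of_mul_eq_one_left hss]
  have hE : ∀ i, fourE z s i ∈ V ∧ fourE z s i ≠ 1 := by
    intro i; fin_cases i
    · exact ⟨(hmem _).mpr (Or.inr (Or.inl rfl)), hz1⟩
    · exact ⟨(hmem _).mpr (Or.inr (Or.inr (Or.inl rfl))), hs1⟩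
    · exact ⟨(hmem _).mpr (Or.inr (Or.inr (Or.inr rfl))), hzs1⟩
  have hV' : ∀ x ∈ V, x ≠ 1 → ∃ j, x = fourE z s j := by
    intro x hx hx1
    rcases (hmem x).mp hx with h | h | h | h
    · exact absurd h hx1
    · exact ⟨0, h⟩
    · exact ⟨1, h⟩
    · exact ⟨2, h⟩
  have hinj : Function.Injective (fourE z s) := fourE_injective hz1 hs1 hne
  have hex : ∀ (n : ↥(Subgroup.normalizer (V : Set G))) (i : Fin 3),
      ∃ j, fourE z s j = (n : G) * fourE z s i * (n : G)⁻¹ := by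
    intro n i
    have h1 : (n : G) * fourE z s i * (n : G)⁻¹ ∈ V := conj_mem_of_mem_normalizer n.2 (hE i).1
    have h2 : (n : G) * fourE z s i * (n : G)⁻¹ ≠ 1 := by
      intro h
      apply (hE i).2
      have e : fourE z s i = (n : G)⁻¹ * ((n : G) * fourE z s i * (n : G)⁻¹) * (n : G) := by group
      rw [e, h]; group
    obtain ⟨j, hj⟩ := hV' _ h1 h2
    exact ⟨j, hj.symm⟩
  choose f hf using hex
  let _ : MulAction ↥(Subgroup.normalizer (V : Set G)) (Fin 3) :=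
    { smul := f
      one_smul := fun i => hinj (by
        show fourE z s (f 1 i) = fourE z s i
        rw [hf]; simp)
      mul_smul := fun n m i => hinj (by
        show fourE z s (f (n * m) i) = fourE z s (f n (f m i))
        rw [hf, hf, hf]; simp [mul_assoc]) }
  refine ⟨MulAction.toPermHom ↥(Subgroup.normalizer (V : Set G)) (Fin 3), fun n i => ?_⟩
  exact hf n i

theorem perm3_cases (σ : Equiv.Perm (Fin 3)) :
    σ = 1 ∨ σ = Equiv.swap 1 2 ∨ σ = Equiv.swap 0 2 ∨ σ = Equiv.swap 1 2 * Equiv.swap 0 2 ∨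
      σ = Equiv.swap 0 2 * Equiv.swap 1 2 ∨ σ = Equiv.swap 1 2 * Equiv.swap 0 2 * Equiv.swap 1 2 := by
  revert σ; decide

/-- A group generated by two involutions satisfying the braid relation has at most six
elements. -/
theorem six_of_braid {K : Type*} [Group K] {u v : K} (hu : u * u = 1) (hv : v * v = 1)
    (hb : u * v * u = v * u * v) :
    ∀ x ∈ Subgroup.closure ({u, v} : Set K),
      x = 1 ∨ x = u ∨ x = v ∨ x = u * v ∨ x = v * u ∨ x = u * v * u := by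
  have hU : ∀ y : K, (y = 1 ∨ y = u ∨ y = v ∨ y = u * v ∨ y = v * u ∨ y = u * v * u) →
      (u * y = 1 ∨ u * y = u ∨ u * y = v ∨ u * y = u * v ∨ u * y = v * u ∨ u * y = u * v * u) := by
    rintro y (rfl | rfl | rfl | rfl | rfl | rfl)
    · right; left; rw [mul_one]
    · left; exact hu
    · right; right; right; left; rfl
    · right; right; left; rw [← mul_assoc, hu, one_mul]
    · right; right; right; right; right; rw [← mul_assoc]
    · right; right; right; right; left; rw [← mul_assoc, ← mul_assoc, hu, one_mul]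
  have hV : ∀ y : K, (y = 1 ∨ y = u ∨ y = v ∨ y = u * v ∨ y = v * u ∨ y = u * v * u) →
      (v * y = 1 ∨ v * y = u ∨ v * y = v ∨ v * y = u * v ∨ v * y = v * u ∨ v * y = u * v * u) := by
    rintro y (rfl | rfl | rfl | rfl | rfl | rfl)
    · right; right; left; rw [mul_one]
    · right; right; right; right; left; rfl
    · left; exact hv
    · right; right; right; right; right; rw [← mul_assoc, hb]
    · right; left; rw [← mul_assoc, hv, one_mul]
    · right; right; right; left; rw [hb, ← mul_assoc, ← mul_assoc, hv, one_mul]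
  have hui : u⁻¹ = u := inv_eq_of_mul_eq_one_left hu
  have hvi : v⁻¹ = v := inv_eq_of_mul_eq_one_left hv
  intro x hx
  induction hx using Subgroup.closure_induction_left with
  | one => left; rfl
  | mul_left x hx y _ ih =>
    rcases hx with rfl | rfl
    · exact hU y ih
    · exact hV y ih
  | inv_mul_cancel x hx y _ ih =>
    rcases hx with rfl | rfl
    · rw [hui]; exact hU y ih
    · rw [hvi]; exact hV y ih

/-! ### The pair setting -/

/-- Two conjugate "large extraspecial" subgroups `Q`, `P` with centres `⟨z⟩`, `⟨s⟩`, `s ∈ Q`,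
`z ∈ P`, `z ≠ s`. -/
structure PairSetting (Q P : Subgroup G) (z s : G) : Prop where
  hQ : ESetting Q z
  hP : ESetting P s
  sQ : s ∈ Q
  zP : z ∈ P
  ne : z ≠ s
  conjQ : ∀ k : G, k * z * k⁻¹ = s → ∀ y : G, (y ∈ P ↔ k⁻¹ * y * k ∈ Q)
  conjP : ∀ k : G, k * s * k⁻¹ = z → ∀ y : G, (y ∈ Q ↔ k⁻¹ * y * k ∈ P)

theorem pairSetting_of_conj [Finite G] {Q : Subgroup G} {z g : G} (h : ESetting Q z)
    (hcard : 32 ≤ Nat.card Q) (hs : g * z * g⁻¹ ∈ Q) (hsz : g * z * g⁻¹ ≠ z) :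
    PairSetting Q (Q.map (MulAut.conj g).toMonoidHom) z (g * z * g⁻¹) := by
  have hzP := h.center_mem_conj hcard hs hsz
  refine ⟨h, h.conj g, hs, hzP, Ne.symm hsz, ?_, ?_⟩
  · intro k hk y
    rw [mem_conj]
    have hc : (g⁻¹ * k) * z = z * (g⁻¹ * k) := by
      calc (g⁻¹ * k) * z = g⁻¹ * (k * z * k⁻¹) * k := by group
        _ = g⁻¹ * (g * z * g⁻¹) * k := by rw [hk]
        _ = z * (g⁻¹ * k) := by group
    have hc' : (g⁻¹ * k)⁻¹ * z = z * (g⁻¹ * k)⁻¹ := by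
      calc (g⁻¹ * k)⁻¹ * z = (g⁻¹ * k)⁻¹ * (z * (g⁻¹ * k)) * (g⁻¹ * k)⁻¹ := by group
        _ = (g⁻¹ * k)⁻¹ * ((g⁻¹ * k) * z) * (g⁻¹ * k)⁻¹ := by rw [hc]
        _ = z * (g⁻¹ * k)⁻¹ := by group
    constructor
    · intro hy
      have h1 := h.norm _ hc' _ hy
      have e : (g⁻¹ * k)⁻¹ * (g⁻¹ * y * g) * (g⁻¹ * k)⁻¹⁻¹ = k⁻¹ * y * k := by group
      rwa [e] at h1
    · intro hy
      have h1 := h.norm _ hc _ hy
      have e : (g⁻¹ * k) * (k⁻¹ * y * k) * (g⁻¹ * k)⁻¹ = g⁻¹ * y * g := by group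
      rwa [e] at h1
  · intro k hk y
    rw [mem_conj]
    have hc : (k * g) * z = z * (k * g) := by
      calc (k * g) * z = k * (g * z * g⁻¹) * k⁻¹ * (k * g) := by group
        _ = z * (k * g) := by rw [hk]
    have hc' : (k * g)⁻¹ * z = z * (k * g)⁻¹ := by
      calc (k * g)⁻¹ * z = (k * g)⁻¹ * (z * (k * g)) * (k * g)⁻¹ := by group
        _ = (k * g)⁻¹ * ((k * g) * z) * (k * g)⁻¹ := by rw [hc]
        _ = z * (k * g)⁻¹ := by group
    constructor
    · intro hy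
      have h1 := h.norm _ hc' _ hy
      have e : (k * g)⁻¹ * y * (k * g)⁻¹⁻¹ = g⁻¹ * (k⁻¹ * y * k) * g := by group
      rwa [e] at h1
    · intro hy
      have h1 := h.norm _ hc _ hy
      have e : (k * g) * (g⁻¹ * (k⁻¹ * y * k) * g) * (k * g)⁻¹ = y := by group
      rwa [e] at h1

theorem pairSetting_of_large [Finite G] (Q : Subgroup G) (hQ : Cfsg.IsLargeExtraspecial Q)
    (z : G) (hz : (Subgroup.center ↥Q).map Q.subtype = Subgroup.zpowers z) (hz2 : orderOf z = 2)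
    (w : ℕ) (hw : 2 ≤ w) (hcard : Nat.card ↥Q = 2 ^ (2 * w + 1)) (g : G)
    (hgH : g ∉ Subgroup.centralizer ({z} : Set G)) (hgQ : g * z * g⁻¹ ∈ Q) :
    PairSetting Q (Q.map (MulAut.conj g).toMonoidHom) z (g * z * g⁻¹) := by
  obtain ⟨hL1, hL2, hL3, -⟩ := hQ
  obtain ⟨z', hES, hmemZ⟩ := esetting_of_extraspecial Q hL1 hL2 hL3
  have hz1 : z ≠ 1 := by
    intro h1
    rw [h1, orderOf_one] at hz2
    omega
  have hzz' : z = z' := by
    have h1 : z ∈ (Subgroup.center ↥Q).map Q.subtype := by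
      rw [hz]; exact Subgroup.mem_zpowers z
    rcases (hmemZ z).mp h1 with h2 | h2
    · exact absurd h2 hz1
    · exact h2
  subst hzz'
  have hcard32 : 32 ≤ Nat.card Q := by
    rw [hcard]
    calc 32 = 2 ^ 5 := by norm_num
      _ ≤ 2 ^ (2 * w + 1) := Nat.pow_le_pow_right (by norm_num) (by omega)
  have hsz : g * z * g⁻¹ ≠ z := by
    intro h1
    apply hgH
    rw [mem_centralizer_singleton]
    calc z * g = (g * z * g⁻¹) * g := by rw [h1]
      _ = g * z := by group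
  exact pairSetting_of_conj hES hcard32 hgQ hsz

/-- `R = C_P(z) C_Q(s)`. -/
def RR (Q P : Subgroup G) (z s : G) : Subgroup G :=
  (P ⊓ Subgroup.centralizer {z}) ⊔ (Q ⊓ Subgroup.centralizer {s})

theorem RR_swap (Q P : Subgroup G) (z s : G) : RR P Q s z = RR Q P z s := sup_comm _ _

theorem A_le_RR (Q P : Subgroup G) (z s : G) : Q ⊓ Subgroup.centralizer {s} ≤ RR Q P z s :=
  le_sup_right

theorem B_le_RR (Q P : Subgroup G) (z s : G) : P ⊓ Subgroup.centralizer {z} ≤ RR Q P z s :=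
  le_sup_left

theorem mem_A {Q : Subgroup G} {s a : G} :
    a ∈ Q ⊓ Subgroup.centralizer {s} ↔ a ∈ Q ∧ a * s = s * a := by
  rw [Subgroup.mem_inf, mem_centralizer_singleton]
  constructor
  · rintro ⟨h1, h2⟩; exact ⟨h1, h2.symm⟩
  · rintro ⟨h1, h2⟩; exact ⟨h1, h2.symm⟩

namespace PairSetting

variable {Q P : Subgroup G} {z s : G}

theorem swap (h : PairSetting Q P z s) : PairSetting P Q s z :=
  ⟨h.hP, h.hQ, h.zP, h.sQ, h.ne.symm, h.conjP, h.conjQ⟩

theorem zs (h : PairSetting Q P z s) : z * s = s * z := h.hQ.central h.sQ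

theorem zs_ne_one (h : PairSetting Q P z s) : z * s ≠ 1 := by
  intro h1
  apply h.ne
  have : z = s⁻¹ := eq_inv_of_mul_eq_one_left h1
  rw [this, h.hP.zinv]

theorem zp_inf (h : PairSetting Q P z s) {x : G} (h1 : x ∈ Subgroup.zpowers z)
    (h2 : x ∈ Subgroup.zpowers s) : x = 1 := by
  rcases h.hQ.mem_zp.mp h1 with h3 | h3
  · exact h3
  · rcases h.hP.mem_zp.mp h2 with h4 | h4
    · exact h4
    · exact absurd (h3.symm.trans h4) h.ne

theorem E_comm (h : PairSetting Q P z s) {x y : G} (hxQ : x ∈ Q) (hxP : x ∈ P) (hyQ : y ∈ Q)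
    (hyP : y ∈ P) : x * y = y * x := by
  have h1 := h.zp_inf (h.hQ.comm_mem hxQ hyQ) (h.hP.comm_mem hxP hyP)
  calc x * y = (x * y * x⁻¹ * y⁻¹) * (y * x) := by group
    _ = y * x := by rw [h1, one_mul]

theorem E_sq (h : PairSetting Q P z s) {x : G} (hxQ : x ∈ Q) (hxP : x ∈ P) : x * x = 1 :=
  h.zp_inf (h.hQ.sq_mem hxQ) (h.hP.sq_mem hxP)

theorem mem_V (h : PairSetting Q P z s) {x : G} :
    x ∈ Subgroup.zpowers z ⊔ Subgroup.zpowers s ↔ x = 1 ∨ x = z ∨ x = s ∨ x = z * s :=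
  four_mem h.hQ.zz h.hP.zz h.zs

theorem z_mem_V (h : PairSetting Q P z s) : z ∈ Subgroup.zpowers z ⊔ Subgroup.zpowers s :=
  h.mem_V.mpr (Or.inr (Or.inl rfl))

theorem s_mem_V (h : PairSetting Q P z s) : s ∈ Subgroup.zpowers z ⊔ Subgroup.zpowers s :=
  h.mem_V.mpr (Or.inr (Or.inr (Or.inl rfl)))

theorem mem_CV (h : PairSetting Q P z s) {x : G} :
    x ∈ Subgroup.centralizer ((Subgroup.zpowers z ⊔ Subgroup.zpowers s : Subgroup G) : Set G) ↔
      x * z = z * x ∧ x * s = s * x := by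
  rw [Subgroup.mem_centralizer_iff]
  constructor
  · intro hx
    exact ⟨(hx z h.z_mem_V).symm, (hx s h.s_mem_V).symm⟩
  · rintro ⟨hxz, hxs⟩ v hv
    rcases h.mem_V.mp hv with h1 | h1 | h1 | h1
    · rw [h1]; simp
    · rw [h1]; exact hxz.symm
    · rw [h1]; exact hxs.symm
    · rw [h1]
      calc z * s * x = z * (s * x) := by group
        _ = z * (x * s) := by rw [hxs]
        _ = (z * x) * s := by group
        _ = x * (z * s) := by rw [← hxz]; group

theorem Q_le_NV (h : PairSetting Q P z s) :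
    Q ≤ Subgroup.normalizer ((Subgroup.zpowers z ⊔ Subgroup.zpowers s : Subgroup G) : Set G) := by
  apply le_normalizer_of_conj_mem
  intro x hx v hv
  have hxz : x * z * x⁻¹ = z := by rw [← h.hQ.central hx]; group
  rw [h.mem_V] at hv ⊢
  rcases h.hQ.comm x hx s h.sQ with h1 | h1
  · have hxs : x * s * x⁻¹ = s := by rw [h1]; group
    rcases hv with h2 | h2 | h2 | h2
    · left; rw [h2]; group
    · right; left; rw [h2]; exact hxz
    · right; right; left; rw [h2]; exact hxs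
    · right; right; right; rw [h2]
      calc x * (z * s) * x⁻¹ = (x * z * x⁻¹) * (x * s * x⁻¹) := by group
        _ = z * s := by rw [hxz, hxs]
  · have hxs : x * s * x⁻¹ = z * s := by rw [h1]; group
    rcases hv with h2 | h2 | h2 | h2
    · left; rw [h2]; group
    · right; left; rw [h2]; exact hxz
    · right; right; right; rw [h2]; exact hxs
    · right; right; left; rw [h2]
      calc x * (z * s) * x⁻¹ = (x * z * x⁻¹) * (x * s * x⁻¹) := by group
        _ = z * (z * s) := by rw [hxz, hxs]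
        _ = s := by rw [← mul_assoc, h.hQ.zz, one_mul]

theorem P_le_NV (h : PairSetting Q P z s) :
    P ≤ Subgroup.normalizer ((Subgroup.zpowers z ⊔ Subgroup.zpowers s : Subgroup G) : Set G) := by
  have h1 := h.swap.Q_le_NV
  rwa [sup_comm] at h1

theorem X_le_NV (h : PairSetting Q P z s) :
    Q ⊔ P ≤ Subgroup.normalizer ((Subgroup.zpowers z ⊔ Subgroup.zpowers s : Subgroup G) : Set G) :=
  sup_le h.Q_le_NV h.P_le_NV

theorem A_le_CV (h : PairSetting Q P z s) {a : G} (haQ : a ∈ Q) (has : a * s = s * a) :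
    a ∈ Subgroup.centralizer ((Subgroup.zpowers z ⊔ Subgroup.zpowers s : Subgroup G) : Set G) :=
  h.mem_CV.mpr ⟨(h.hQ.central haQ).symm, has⟩

theorem B_le_CV (h : PairSetting Q P z s) {b : G} (hbP : b ∈ P) (hbz : b * z = z * b) :
    b ∈ Subgroup.centralizer ((Subgroup.zpowers z ⊔ Subgroup.zpowers s : Subgroup G) : Set G) :=
  h.mem_CV.mpr ⟨hbz, (h.hP.central hbP).symm⟩

theorem R_le_CV (h : PairSetting Q P z s) :
    RR Q P z s ≤
      Subgroup.centralizer ((Subgroup.zpowers z ⊔ Subgroup.zpowers s : Subgroup G) : Set G) := by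
  refine sup_le ?_ ?_
  · intro b hb
    obtain ⟨hbP, hbz⟩ := mem_A.mp hb
    exact h.B_le_CV hbP hbz
  · intro a ha
    obtain ⟨haQ, has⟩ := mem_A.mp ha
    exact h.A_le_CV haQ has

theorem R_le_X (Q P : Subgroup G) (z s : G) : RR Q P z s ≤ Q ⊔ P :=
  sup_le (inf_le_left.trans le_sup_right) (inf_le_left.trans le_sup_left)

theorem E_le_A (h : PairSetting Q P z s) : Q ⊓ P ≤ Q ⊓ Subgroup.centralizer {s} := by
  intro x hx
  obtain ⟨hxQ, hxP⟩ := Subgroup.mem_inf.mp hx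
  exact mem_A.mpr ⟨hxQ, (h.hP.central hxP).symm⟩

theorem E_le_B (h : PairSetting Q P z s) : Q ⊓ P ≤ P ⊓ Subgroup.centralizer {z} := by
  intro x hx
  obtain ⟨hxQ, hxP⟩ := Subgroup.mem_inf.mp hx
  exact mem_A.mpr ⟨hxP, (h.hQ.central hxQ).symm⟩

theorem E_le_R (h : PairSetting Q P z s) : Q ⊓ P ≤ RR Q P z s :=
  h.E_le_A.trans (A_le_RR Q P z s)

theorem zpz_le_E (h : PairSetting Q P z s) : Subgroup.zpowers z ≤ Q ⊓ P := by
  rw [Subgroup.zpowers_le]; exact Subgroup.mem_inf.mpr ⟨h.hQ.zQ, h.zP⟩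

theorem zps_le_E (h : PairSetting Q P z s) : Subgroup.zpowers s ≤ Q ⊓ P := by
  rw [Subgroup.zpowers_le]; exact Subgroup.mem_inf.mpr ⟨h.sQ, h.hP.zQ⟩

theorem V_le_E (h : PairSetting Q P z s) : Subgroup.zpowers z ⊔ Subgroup.zpowers s ≤ Q ⊓ P :=
  sup_le h.zpz_le_E h.zps_le_E

theorem comm_AB (h : PairSetting Q P z s) {a b : G} (haQ : a ∈ Q) (has : a * s = s * a)
    (hbP : b ∈ P) (hbz : b * z = z * b) : a * b * a⁻¹ * b⁻¹ ∈ Q ⊓ P := by
  refine Subgroup.mem_inf.mpr ⟨?_, ?_⟩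
  · have e : a * b * a⁻¹ * b⁻¹ = a * (b * a⁻¹ * b⁻¹) := by group
    rw [e]
    exact Q.mul_mem haQ (h.hQ.norm b hbz a⁻¹ (Q.inv_mem haQ))
  · exact P.mul_mem (h.hP.norm a has b hbP) (P.inv_mem hbP)

theorem comm_QB (h : PairSetting Q P z s) {x b : G} (hx : x ∈ Q) (hbP : b ∈ P)
    (hbz : b * z = z * b) : x * b * x⁻¹ * b⁻¹ ∈ Q ⊓ Subgroup.centralizer {s} := by
  rw [mem_A]
  constructor
  · have e : x * b * x⁻¹ * b⁻¹ = x * (b * x⁻¹ * b⁻¹) := by group
    rw [e]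
    exact Q.mul_mem hx (h.hQ.norm b hbz x⁻¹ (Q.inv_mem hx))
  · have hb := h.B_le_CV hbP hbz
    have h1 := conj_mem_centralizer (h.Q_le_NV hx) hb
    have h2 := Subgroup.mul_mem _ h1 (Subgroup.inv_mem _ hb)
    exact (h.mem_CV.mp h2).2

theorem conj_QA (h : PairSetting Q P z s) {x a : G} (hx : x ∈ Q) (haQ : a ∈ Q)
    (has : a * s = s * a) : x * a * x⁻¹ ∈ Q ⊓ Subgroup.centralizer {s} := by
  rw [mem_A]
  refine ⟨Q.mul_mem (Q.mul_mem hx haQ) (Q.inv_mem hx), ?_⟩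
  exact (h.mem_CV.mp (conj_mem_centralizer (h.Q_le_NV hx) (h.A_le_CV haQ has))).2

theorem Q_le_NR (h : PairSetting Q P z s) : Q ≤ Subgroup.normalizer (RR Q P z s : Set G) := by
  apply le_normalizer_of_conj_mem
  intro x hx r hr
  have key : RR Q P z s ≤ (RR Q P z s).comap (MulAut.conj x).toMonoidHom := by
    refine sup_le ?_ ?_
    · intro b hb
      rw [Subgroup.mem_comap]
      show x * b * x⁻¹ ∈ RR Q P z s
      obtain ⟨hbP, hbz⟩ := mem_A.mp hb
      have e : x * b * x⁻¹ = (x * b * x⁻¹ * b⁻¹) * b := by group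
      rw [e]
      exact Subgroup.mul_mem _ (A_le_RR Q P z s (h.comm_QB hx hbP hbz)) (B_le_RR Q P z s hb)
    · intro a ha
      rw [Subgroup.mem_comap]
      show x * a * x⁻¹ ∈ RR Q P z s
      obtain ⟨haQ, has⟩ := mem_A.mp ha
      exact A_le_RR Q P z s (h.conj_QA hx haQ has)
  exact key hr

theorem P_le_NR (h : PairSetting Q P z s) : P ≤ Subgroup.normalizer (RR Q P z s : Set G) := by
  have h1 := h.swap.Q_le_NR
  rwa [RR_swap] at h1

theorem X_le_NR (h : PairSetting Q P z s) : Q ⊔ P ≤ Subgroup.normalizer (RR Q P z s : Set G) :=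
  sup_le h.Q_le_NR h.P_le_NR

theorem R_comm_sq (h : PairSetting Q P z s) :
    ∀ x ∈ RR Q P z s, ∀ y ∈ RR Q P z s, x * y * x⁻¹ * y⁻¹ ∈ Q ⊓ P ∧ x * x ∈ Q ⊓ P := by
  refine comm_sq_sup (E := Q ⊓ P) (H := P ⊓ Subgroup.centralizer {z})
    (K := Q ⊓ Subgroup.centralizer {s}) ?_ ?_ ?_ ?_ ?_ ?_ ?_
  · apply le_normalizer_of_conj_mem
    intro b hb e he
    obtain ⟨hbP, hbz⟩ := mem_A.mp hb
    obtain ⟨heQ, heP⟩ := Subgroup.mem_inf.mp he
    exact Subgroup.mem_inf.mpr ⟨h.hQ.norm b hbz e heQ,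
      P.mul_mem (P.mul_mem hbP heP) (P.inv_mem hbP)⟩
  · apply le_normalizer_of_conj_mem
    intro a ha e he
    obtain ⟨haQ, has⟩ := mem_A.mp ha
    obtain ⟨heQ, heP⟩ := Subgroup.mem_inf.mp he
    exact Subgroup.mem_inf.mpr ⟨Q.mul_mem (Q.mul_mem haQ heQ) (Q.inv_mem haQ),
      h.hP.norm a has e heP⟩
  · intro x hx y hy
    exact h.zps_le_E (h.hP.comm_mem (mem_A.mp hx).1 (mem_A.mp hy).1)
  · intro x hx y hy
    exact h.zpz_le_E (h.hQ.comm_mem (mem_A.mp hx).1 (mem_A.mp hy).1)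
  · intro b hb a ha
    obtain ⟨hbP, hbz⟩ := mem_A.mp hb
    obtain ⟨haQ, has⟩ := mem_A.mp ha
    have h1 := h.comm_AB haQ has hbP hbz
    have e : b * a * b⁻¹ * a⁻¹ = (a * b * a⁻¹ * b⁻¹)⁻¹ := by group
    rw [e]
    exact Subgroup.inv_mem _ h1
  · intro x hx
    exact h.zps_le_E (h.hP.sq_mem (mem_A.mp hx).1)
  · intro x hx
    exact h.zpz_le_E (h.hQ.sq_mem (mem_A.mp hx).1)

theorem X_comm_E (h : PairSetting Q P z s) :
    ∀ x ∈ Q ⊔ P, ∀ e ∈ Q ⊓ P,
      x * e * x⁻¹ * e⁻¹ ∈ Subgroup.zpowers z ⊔ Subgroup.zpowers s := by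
  have key : Q ⊔ P ≤
      ({ carrier := {x | x ∈ Subgroup.normalizer
              ((Subgroup.zpowers z ⊔ Subgroup.zpowers s : Subgroup G) : Set G) ∧
              ∀ e ∈ Q ⊓ P, x * e * x⁻¹ * e⁻¹ ∈ Subgroup.zpowers z ⊔ Subgroup.zpowers s}
         mul_mem' := by
           rintro a b ⟨ha, ha'⟩ ⟨hb, hb'⟩
           refine ⟨Subgroup.mul_mem _ ha hb, fun e he => ?_⟩
           have e1 : a * b * e * (a * b)⁻¹ * e⁻¹ =
               a * (b * e * b⁻¹ * e⁻¹) * a⁻¹ * (a * e * a⁻¹ * e⁻¹) := by group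
           rw [e1]
           exact Subgroup.mul_mem _ (conj_mem_of_mem_normalizer ha (hb' e he)) (ha' e he)
         one_mem' := ⟨Subgroup.one_mem _, fun e he => by simp⟩
         inv_mem' := by
           rintro a ⟨ha, ha'⟩
           refine ⟨Subgroup.inv_mem _ ha, fun e he => ?_⟩
           have e1 : a⁻¹ * e * a⁻¹⁻¹ * e⁻¹ = a⁻¹ * (a * e * a⁻¹ * e⁻¹)⁻¹ * a⁻¹⁻¹ := by group
           rw [e1]
           exact conj_mem_of_mem_normalizer (Subgroup.inv_mem _ ha)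
             (Subgroup.inv_mem _ (ha' e he)) } : Subgroup G) := by
    refine sup_le ?_ ?_
    · intro x hx
      refine ⟨h.Q_le_NV hx, fun e he => ?_⟩
      exact (le_sup_left : Subgroup.zpowers z ≤ Subgroup.zpowers z ⊔ Subgroup.zpowers s)
        (h.hQ.comm_mem hx (Subgroup.mem_inf.mp he).1)
    · intro x hx
      refine ⟨h.P_le_NV hx, fun e he => ?_⟩
      exact (le_sup_right : Subgroup.zpowers s ≤ Subgroup.zpowers z ⊔ Subgroup.zpowers s)
        (h.hP.comm_mem hx (Subgroup.mem_inf.mp he).2)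
  exact fun x hx => (key hx).2

/-- If `x` centralizes `z`, `s` and `C_P(z)`, then `[x, P] ≤ ⟨s⟩`. -/
theorem comm_P_mem_zps (h : PairSetting Q P z s) {x : G} (_hxz : x * z = z * x)
    (hxs : x * s = s * x) (hxB : ∀ b ∈ P, b * z = z * b → x * b = b * x) :
    ∀ y ∈ P, x * y * x⁻¹ * y⁻¹ ∈ Subgroup.zpowers s := by
  intro y hy
  obtain ⟨d, hd⟩ : ∃ d, d = x * y * x⁻¹ * y⁻¹ := ⟨_, rfl⟩
  have hdP : d ∈ P := by
    rw [hd]; exact P.mul_mem (h.hP.norm x hxs y hy) (P.inv_mem hy)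
  have hcomm : ∀ b ∈ P, b * z = z * b → b * d = d * b := by
    intro b hb hbz
    have hxb : x * b = b * x := hxB b hb hbz
    obtain ⟨ε, hεdef⟩ : ∃ ε, ε = b * y * b⁻¹ * y⁻¹ := ⟨_, rfl⟩
    have hε : ε ∈ Subgroup.zpowers s := by rw [hεdef]; exact h.hP.comm_mem hb hy
    have hxε : x * ε = ε * x := by
      rcases h.hP.mem_zp.mp hε with h1 | h1
      · rw [h1]; simp
      · rw [h1]; exact hxs
    have hεd : ε * d = d * ε := h.hP.zp_central hε hdP
    have hbx : b * x * b⁻¹ = x := by rw [← hxb]; group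
    have hby : b * y * b⁻¹ = ε * y := by rw [hεdef]; group
    calc b * d = (b * x * b⁻¹) * (b * y * b⁻¹) * (b * x * b⁻¹)⁻¹ * (b * y * b⁻¹)⁻¹ * b := by
          rw [hd]; group
      _ = x * (ε * y) * x⁻¹ * (ε * y)⁻¹ * b := by rw [hbx, hby]
      _ = (x * ε) * y * x⁻¹ * y⁻¹ * ε⁻¹ * b := by group
      _ = (ε * x) * y * x⁻¹ * y⁻¹ * ε⁻¹ * b := by rw [hxε]
      _ = (ε * d) * ε⁻¹ * b := by rw [hd]; group
      _ = (d * ε) * ε⁻¹ * b := by rw [hεd]
      _ = d * b := by group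
  have hy2 : y * y ∈ Subgroup.zpowers s := h.hP.sq_mem hy
  have hxy2 : x * (y * y) = (y * y) * x := by
    rcases h.hP.mem_zp.mp hy2 with h1 | h1
    · rw [h1]; simp
    · rw [h1]; exact hxs
  have hsq : (d * y) * (d * y) = y * y := by
    have e : d * y = x * y * x⁻¹ := by rw [hd]; group
    rw [e]
    calc x * y * x⁻¹ * (x * y * x⁻¹) = x * (y * y) * x⁻¹ := by group
      _ = (y * y) * x * x⁻¹ := by rw [hxy2]
      _ = y * y := by group
  have hyz_or := h.hP.comm y hy z h.zP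
  have hnc : ¬ (y * z = z * y) → d ≠ z ∧ d ≠ z * s := by
    intro hyz
    have hyz' : y * z = s * (z * y) := by
      rcases hyz_or with h1 | h1
      · exact absurd h1 hyz
      · exact h1
    constructor
    · intro h1
      rw [h1] at hsq
      apply h.hP.z_ne
      have h2 : s * (y * y) = y * y := by
        calc s * (y * y) = s * (z * z) * (y * y) := by rw [h.hQ.zz, mul_one]
          _ = (s * z) * z * y * y := by group
          _ = (z * s) * z * y * y := by rw [h.zs]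
          _ = z * (s * (z * y)) * y := by group
          _ = z * (y * z) * y := by rw [hyz']
          _ = z * y * (z * y) := by group
          _ = y * y := hsq
      exact mul_right_cancel (h2.trans (one_mul _).symm)
    · intro h1
      rw [h1] at hsq
      apply h.hP.z_ne
      have hsy : s * y = y * s := h.hP.central hy
      have h2 : (y * y) * s = y * y := by
        calc y * y * s = y * (y * s) := by group
          _ = y * (s * y) := by rw [hsy]
          _ = (z * z) * y * s * y := by rw [h.hQ.zz]; group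
          _ = z * (s * s) * z * y * s * y := by rw [h.hP.zz]; group
          _ = z * s * (s * (z * y)) * s * y := by group
          _ = z * s * (y * z) * s * y := by rw [hyz']
          _ = z * s * y * (z * s * y) := by group
          _ = y * y := hsq
      exact mul_left_cancel (h2.trans (mul_one _).symm)
  rcases h.hP.double_centralizer h.zP h.hQ.zz hdP hcomm with h1 | h1 | h1 | h1
  · rw [← hd, h1]; exact Subgroup.one_mem _
  · rw [← hd, h1]; exact Subgroup.mem_zpowers _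
  · exfalso
    by_cases hyz : y * z = z * y
    · have hxy : x * y = y * x := hxB y hy hyz
      have : d = 1 := by rw [hd, hxy]; group
      exact h.hQ.z_ne (h1.symm.trans this)
    · exact (hnc hyz).1 h1
  · exfalso
    by_cases hyz : y * z = z * y
    · have hxy : x * y = y * x := hxB y hy hyz
      have : d = 1 := by rw [hd, hxy]; group
      exact h.zs_ne_one (h1.symm.trans this)
    · exact (hnc hyz).2 h1

theorem conj_facts (h : PairSetting Q P z s) {q : G} (hqQ : q ∈ Q) (hq : q * s = z * (s * q)) :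
    q * z * q⁻¹ = z ∧ q * s * q⁻¹ = z * s ∧ q * (z * s) * q⁻¹ = s ∧
      q⁻¹ * z * q = z ∧ q⁻¹ * s * q = z * s ∧ q⁻¹ * (z * s) * q = s := by
  have hqz : q * z = z * q := (h.hQ.central hqQ).symm
  have c1 : q * z * q⁻¹ = z := by rw [hqz]; group
  have c2 : q * s * q⁻¹ = z * s := by rw [hq]; group
  have c4 : q⁻¹ * z * q = z := by
    calc q⁻¹ * z * q = q⁻¹ * (z * q) := by group
      _ = q⁻¹ * (q * z) := by rw [hqz]
      _ = z := by group
  have c5 : q⁻¹ * s * q = z * s := by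
    calc q⁻¹ * s * q = q⁻¹ * ((z * z) * (s * q)) := by rw [h.hQ.zz]; group
      _ = q⁻¹ * (z * (z * (s * q))) := by group
      _ = q⁻¹ * (z * (q * s)) := by rw [hq]
      _ = q⁻¹ * ((z * q) * s) := by group
      _ = q⁻¹ * ((q * z) * s) := by rw [hqz]
      _ = z * s := by group
  refine ⟨c1, c2, ?_, c4, c5, ?_⟩
  · calc q * (z * s) * q⁻¹ = (q * z * q⁻¹) * (q * s * q⁻¹) := by group
      _ = z * (z * s) := by rw [c1, c2]
      _ = s := by rw [← mul_assoc, h.hQ.zz, one_mul]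
  · calc q⁻¹ * (z * s) * q = (q⁻¹ * z * q) * (q⁻¹ * s * q) := by group
      _ = z * (z * s) := by rw [c4, c5]
      _ = s := by rw [← mul_assoc, h.hQ.zz, one_mul]

theorem conj_facts' (h : PairSetting Q P z s) {p : G} (hpP : p ∈ P) (hp : p * z = s * (z * p)) :
    p * s * p⁻¹ = s ∧ p * z * p⁻¹ = z * s ∧ p * (z * s) * p⁻¹ = z ∧
      p⁻¹ * s * p = s ∧ p⁻¹ * z * p = z * s ∧ p⁻¹ * (z * s) * p = z := by
  have h1 := h.swap.conj_facts hpP hp
  rw [← h.zs] at h1
  exact h1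

/-- An element `a` of `Q` with `[a, P] ≤ ⟨s⟩` lies in `P`. -/
theorem mem_P_of_comm (h : PairSetting Q P z s) {a : G} (haQ : a ∈ Q)
    (haP : ∀ y ∈ P, a * y * a⁻¹ * y⁻¹ ∈ Subgroup.zpowers s) : a ∈ P := by
  obtain ⟨q, hqQ, hq⟩ := h.hQ.exists_anti h.sQ h.hP.z_ne h.ne.symm
  obtain ⟨p, hpP, hp⟩ := h.hP.exists_anti h.zP h.hQ.z_ne h.ne
  have hqz : q * z = z * q := (h.hQ.central hqQ).symm
  -- step 1
  have h1 : p⁻¹ * a * p ∈ Q := by
    have h2 := haP p⁻¹ (P.inv_mem hpP)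
    have h3 : a * p⁻¹ * a⁻¹ * p⁻¹⁻¹ ∈ Q := h.hP.zp_le.trans (le_refl _) |> fun _ =>
      (Subgroup.zpowers_le.mpr h.sQ) h2
    have e : p⁻¹ * a * p = (a * p⁻¹ * a⁻¹ * p⁻¹⁻¹)⁻¹ * a := by group
    rw [e]
    exact Q.mul_mem (Q.inv_mem h3) haQ
  -- step 2
  have hk : (q * p) * z * (q * p)⁻¹ = s := by
    calc (q * p) * z * (q * p)⁻¹ = q * (p * z) * p⁻¹ * q⁻¹ := by group
      _ = q * (s * (z * p)) * p⁻¹ * q⁻¹ := by rw [hp]
      _ = (q * s) * z * q⁻¹ := by group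
      _ = z * (s * q) * z * q⁻¹ := by rw [hq]
      _ = z * s * (q * z) * q⁻¹ := by group
      _ = z * s * (z * q) * q⁻¹ := by rw [hqz]
      _ = (z * s) * z := by group
      _ = (s * z) * z := by rw [h.zs]
      _ = s := by rw [mul_assoc, h.hQ.zz, mul_one]
  have h4 : q * a * q⁻¹ ∈ P := by
    rw [h.conjQ _ hk]
    have e : (q * p)⁻¹ * (q * a * q⁻¹) * (q * p) = p⁻¹ * a * p := by group
    rw [e]; exact h1
  -- step 3
  have h5 : q * a * q⁻¹ * a⁻¹ ∈ P := h.zpz_le_E.trans inf_le_right (h.hQ.comm_mem hqQ haQ)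
  have e : a = (q * a * q⁻¹ * a⁻¹)⁻¹ * (q * a * q⁻¹) := by group
  rw [e]
  exact P.mul_mem (P.inv_mem h5) h4

open scoped Pointwise in
/-- The centre of `R` is `V`. -/
theorem center_R (h : PairSetting Q P z s) {x : G} (hx : x ∈ RR Q P z s)
    (hc : ∀ y ∈ RR Q P z s, x * y = y * x) :
    x ∈ Subgroup.zpowers z ⊔ Subgroup.zpowers s := by
  have hBA : P ⊓ Subgroup.centralizer {z} ≤
      Subgroup.normalizer ((Q ⊓ Subgroup.centralizer {s} : Subgroup G) : Set G) := by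
    apply le_normalizer_of_conj_mem
    intro b hb a ha
    obtain ⟨hbP, hbz⟩ := mem_A.mp hb
    obtain ⟨haQ, has⟩ := mem_A.mp ha
    rw [mem_A]
    refine ⟨h.hQ.norm b hbz a haQ, ?_⟩
    have h1 := Subgroup.mul_mem _ (Subgroup.mul_mem _ (h.B_le_CV hbP hbz) (h.A_le_CV haQ has))
      (Subgroup.inv_mem _ (h.B_le_CV hbP hbz))
    exact (h.mem_CV.mp h1).2
  have hx' : x ∈ ((P ⊓ Subgroup.centralizer {z} : Subgroup G) : Set G) *
      ((Q ⊓ Subgroup.centralizer {s} : Subgroup G) : Set G) := by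
    rw [← Subgroup.coe_mul_of_left_le_normalizer_right _ _ hBA]
    exact hx
  obtain ⟨b, hb, a, ha, hxba⟩ := Set.mem_mul.mp hx'
  have hb : b ∈ P ⊓ Subgroup.centralizer {z} := hb
  have ha : a ∈ Q ⊓ Subgroup.centralizer {s} := ha
  obtain ⟨hbP, hbz⟩ := mem_A.mp hb
  obtain ⟨haQ, has⟩ := mem_A.mp ha
  obtain ⟨hxz, hxs⟩ := h.mem_CV.mp (h.R_le_CV hx)
  have hM : ∀ y ∈ P, x * y * x⁻¹ * y⁻¹ ∈ Subgroup.zpowers s :=
    h.comm_P_mem_zps hxz hxs (fun b' hb' hb'z => hc b' (B_le_RR Q P z s (mem_A.mpr ⟨hb', hb'z⟩)))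
  have hM' : ∀ y ∈ Q, x * y * x⁻¹ * y⁻¹ ∈ Subgroup.zpowers z :=
    h.swap.comm_P_mem_zps hxs hxz
      (fun a' ha' ha's => hc a' (A_le_RR Q P z s (mem_A.mpr ⟨ha', ha's⟩)))
  have haP : a ∈ P := by
    apply h.mem_P_of_comm haQ
    intro y hy
    have h1 := hM y hy
    rw [← hxba] at h1
    have h2 : b * y * b⁻¹ * y⁻¹ ∈ Subgroup.zpowers s := h.hP.comm_mem hbP hy
    have h3 : (b * a) * y * (b * a)⁻¹ * y⁻¹ * (b * y * b⁻¹ * y⁻¹)⁻¹ ∈ Subgroup.zpowers s :=
      Subgroup.mul_mem _ h1 (Subgroup.inv_mem _ h2)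
    have h4 := h.hP.zp_central h3 hbP
    have e : a * y * a⁻¹ * y⁻¹ =
        b⁻¹ * (((b * a) * y * (b * a)⁻¹ * y⁻¹ * (b * y * b⁻¹ * y⁻¹)⁻¹) * b) := by group
    rw [e, h4]
    have e2 : b⁻¹ * (b * ((b * a) * y * (b * a)⁻¹ * y⁻¹ * (b * y * b⁻¹ * y⁻¹)⁻¹)) =
        (b * a) * y * (b * a)⁻¹ * y⁻¹ * (b * y * b⁻¹ * y⁻¹)⁻¹ := by group
    rw [e2]; exact h3
  have hbQ : b ∈ Q := by
    apply h.swap.mem_P_of_comm hbP
    intro y hy
    have h1 := hM' y hy
    rw [← hxba] at h1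
    have h2 : a * y * a⁻¹ * y⁻¹ ∈ Subgroup.zpowers z := h.hQ.comm_mem haQ hy
    have h3 : b * (a * y * a⁻¹ * y⁻¹) * b⁻¹ = a * y * a⁻¹ * y⁻¹ := by
      rcases h.hQ.mem_zp.mp h2 with h4 | h4
      · rw [h4]; group
      · rw [h4, hbz]; group
    have e : b * y * b⁻¹ * y⁻¹ =
        (b * (a * y * a⁻¹ * y⁻¹) * b⁻¹)⁻¹ * ((b * a) * y * (b * a)⁻¹ * y⁻¹) := by group
    rw [e, h3]
    exact Subgroup.mul_mem _ (Subgroup.inv_mem _ h2) h1
  have hxQ : x ∈ Q := by rw [← hxba]; exact Q.mul_mem hbQ haQ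
  rcases h.hQ.double_centralizer h.sQ h.hP.zz hxQ
    (fun a' ha' ha's => (hc a' (A_le_RR Q P z s (mem_A.mpr ⟨ha', ha's⟩))).symm) with
    h1 | h1 | h1 | h1
  · exact h.mem_V.mpr (Or.inl h1)
  · exact h.mem_V.mpr (Or.inr (Or.inl h1))
  · exact h.mem_V.mpr (Or.inr (Or.inr (Or.inl h1)))
  · exact h.mem_V.mpr (Or.inr (Or.inr (Or.inr (h1.trans h.zs.symm))))

theorem V_le_R (h : PairSetting Q P z s) :
    Subgroup.zpowers z ⊔ Subgroup.zpowers s ≤ RR Q P z s := h.V_le_E.trans h.E_le_R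

/-- The structure of `R` (statement S5431 in abstract form). -/
theorem radical (h : PairSetting Q P z s) :
    (Subgroup.center ↥(RR Q P z s)).map (RR Q P z s).subtype =
        Subgroup.zpowers z ⊔ Subgroup.zpowers s ∧
      Q ⊓ P ≤ (Subgroup.upperCentralSeries ↥(RR Q P z s) 2).map (RR Q P z s).subtype ∧
      Subgroup.upperCentralSeries ↥(RR Q P z s) 3 = ⊤ ∧
      Cfsg.IsElementaryAbelian 2 (Q ⊓ P) ∧
      (∀ x ∈ RR Q P z s, ∀ y ∈ RR Q P z s, x * y * x⁻¹ * y⁻¹ ∈ Q ⊓ P ∧ x ^ 2 ∈ Q ⊓ P) ∧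
      (P ⊓ Subgroup.centralizer ({z} : Set G)) ⊓ (Q ⊓ Subgroup.centralizer ({s} : Set G)) = Q ⊓ P ∧
      ⁅Q ⊔ P, Q ⊓ P⁆ ≤ Subgroup.zpowers z ⊔ Subgroup.zpowers s := by
  have hcomV : ∀ e ∈ Q ⊓ P, ∀ y ∈ RR Q P z s, ∀ g ∈ RR Q P z s,
      g * (e * y * e⁻¹ * y⁻¹) = (e * y * e⁻¹ * y⁻¹) * g := by
    intro e he y hy g hg
    have h1 := h.X_comm_E y (R_le_X Q P z s hy) e he
    have h2 : e * y * e⁻¹ * y⁻¹ ∈ Subgroup.zpowers z ⊔ Subgroup.zpowers s := by
      have e1 : e * y * e⁻¹ * y⁻¹ = (y * e * y⁻¹ * e⁻¹)⁻¹ := by group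
      rw [e1]; exact Subgroup.inv_mem _ h1
    exact (Subgroup.mem_centralizer_iff.mp (h.R_le_CV hg) _ h2).symm
  have hE2 : ∀ e : ↥(RR Q P z s), (e : G) ∈ Q ⊓ P →
      e ∈ Subgroup.upperCentralSeries ↥(RR Q P z s) 2 := by
    intro e he
    refine (Subgroup.mem_upperCentralSeries_succ_iff (n := 1)).mpr ?_
    intro y
    rw [Subgroup.upperCentralSeries_one, Subgroup.mem_center_iff]
    intro g
    apply Subtype.ext
    exact hcomV e he y y.2 g g.2
  refine ⟨?_, ?_, ?_, ?_, ?_, ?_, ?_⟩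
  · ext x
    constructor
    · rintro ⟨c, hc, rfl⟩
      have h1 := Subgroup.mem_center_iff.mp hc
      apply h.center_R c.2
      intro y hy
      exact (congrArg Subtype.val (h1 ⟨y, hy⟩)).symm
    · intro hx
      refine ⟨⟨x, h.V_le_R hx⟩, Subgroup.mem_center_iff.mpr ?_, rfl⟩
      intro g
      apply Subtype.ext
      exact (Subgroup.mem_centralizer_iff.mp (h.R_le_CV g.2) x hx).symm
  · intro e he
    exact ⟨⟨e, h.E_le_R he⟩, hE2 _ he, rfl⟩
  · rw [eq_top_iff]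
    intro x _
    refine (Subgroup.mem_upperCentralSeries_succ_iff (n := 2)).mpr ?_
    intro y
    apply hE2
    exact (h.R_comm_sq x x.2 y y.2).1
  · refine ⟨⟨⟨fun a b => Subtype.ext ?_⟩⟩, fun a ha => ?_⟩
    · exact h.E_comm (Subgroup.mem_inf.mp a.2).1 (Subgroup.mem_inf.mp a.2).2
        (Subgroup.mem_inf.mp b.2).1 (Subgroup.mem_inf.mp b.2).2
    · rw [pow_two]
      exact h.E_sq (Subgroup.mem_inf.mp ha).1 (Subgroup.mem_inf.mp ha).2
  · intro x hx y hy
    rw [pow_two]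
    exact h.R_comm_sq x hx y hy
  · apply le_antisymm
    · intro x hx
      obtain ⟨h1, h2⟩ := Subgroup.mem_inf.mp hx
      exact Subgroup.mem_inf.mpr ⟨(Subgroup.mem_inf.mp h2).1, (Subgroup.mem_inf.mp h1).1⟩
    · exact le_inf h.E_le_B h.E_le_A
  · rw [Subgroup.commutator_le]
    intro g₁ h₁ g₂ h₂
    rw [commutatorElement_def]
    exact h.X_comm_E g₁ h₁ g₂ h₂

end PairSetting

end Cfsg.Agent.Lib.Helper92
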