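import Mathlib
import Cfsg.Prelude.Def_MonsterType
import Cfsg.Agent.Lib.Helper92.LargeExtra3

set_option autoImplicit false

namespace Cfsg.Agent.Lib.Helper92

open scoped commutatorElement

variable {G : Type*} [Group G]

theorem fin3_forall {p : Fin 3 → Prop} (h0 : p 0) (h1 : p 1) (h2 : p 2) : ∀ i, p i := by
  intro i; fin_cases i <;> assumption

theorem perm3_sq_of_sq_sq (ρ : Equiv.Perm (Fin 3)) : (ρ ^ 2) ^ 2 = 1 → ρ ^ 2 = 1 := by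
  revert ρ; decide

theorem perm3_sq_of_two_pow (k : ℕ) : ∀ ρ : Equiv.Perm (Fin 3), ρ ^ 2 ^ k = 1 → ρ ^ 2 = 1 := by
  induction k with
  | zero =>
    intro ρ h
    rw [pow_zero, pow_one] at h
    rw [h, one_pow]
  | succ n ih =>
    intro ρ h
    rw [pow_succ', pow_mul] at h
    exact perm3_sq_of_sq_sq ρ (ih (ρ ^ 2) h)

set_option maxRecDepth 100000 in
theorem perm3_normal_two_aux (σ : Equiv.Perm (Fin 3)) :
    σ ^ 2 = 1 → (∀ τ : Equiv.Perm (Fin 3), (σ * (τ * σ * τ⁻¹)) ^ 2 = 1) → σ = 1 := by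
  revert σ; decide

/-- A normal `2`-subgroup of `S₃` is trivial (elementwise form). -/
theorem perm3_normal_two (σ : Equiv.Perm (Fin 3)) (h1 : ∃ k : ℕ, σ ^ 2 ^ k = 1)
    (h2 : ∀ τ : Equiv.Perm (Fin 3), ∃ k : ℕ, (σ * (τ * σ * τ⁻¹)) ^ 2 ^ k = 1) : σ = 1 := by
  have a1 : σ ^ 2 = 1 := by
    obtain ⟨k, hk⟩ := h1
    exact perm3_sq_of_two_pow k σ hk
  have a2 : ∀ τ : Equiv.Perm (Fin 3), (σ * (τ * σ * τ⁻¹)) ^ 2 = 1 := fun τ => by
    obtain ⟨k, hk⟩ := h2 τ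
    exact perm3_sq_of_two_pow k _ hk
  exact perm3_normal_two_aux σ a1 a2

theorem perm3_ne :
    Equiv.swap (1 : Fin 3) 2 ≠ 1 ∧ Equiv.swap (0 : Fin 3) 2 ≠ 1 ∧
    Equiv.swap (1 : Fin 3) 2 * Equiv.swap 0 2 ≠ 1 ∧ Equiv.swap (0 : Fin 3) 2 * Equiv.swap 1 2 ≠ 1 ∧
    Equiv.swap (1 : Fin 3) 2 * Equiv.swap 0 2 * Equiv.swap 1 2 ≠ 1 := by
  decide

namespace PairSetting

variable {Q P : Subgroup G} {z s : G}

/-- The braid relation modulo `R`. -/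
theorem braid (h : PairSetting Q P z s) {q p : G} (hqQ : q ∈ Q) (hq : q * s = z * (s * q))
    (hpP : p ∈ P) (hp : p * z = s * (z * p)) :
    q * p⁻¹ * q⁻¹ * p * q * p⁻¹ ∈ RR Q P z s := by
  obtain ⟨cq1, cq2, cq3, cq4, cq5, cq6⟩ := h.conj_facts hqQ hq
  obtain ⟨cp1, cp2, cp3, cp4, cp5, cp6⟩ := h.conj_facts' hpP hp
  have hk : (p⁻¹ * q) * s * (p⁻¹ * q)⁻¹ = z := by
    calc (p⁻¹ * q) * s * (p⁻¹ * q)⁻¹ = p⁻¹ * (q * s * q⁻¹) * p := by group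
      _ = p⁻¹ * (z * s) * p := by rw [cq2]
      _ = z := cp6
  have h1 : p⁻¹ * q * p⁻¹ * q⁻¹ * p ∈ Q := by
    rw [h.conjP _ hk]
    have e : (p⁻¹ * q)⁻¹ * (p⁻¹ * q * p⁻¹ * q⁻¹ * p) * (p⁻¹ * q) = p⁻¹ := by group
    rw [e]; exact P.inv_mem hpP
  have hwQ : p⁻¹ * q * p⁻¹ * q⁻¹ * p * q ∈ Q := Q.mul_mem h1 hqQ
  have hws : (p⁻¹ * q * p⁻¹ * q⁻¹ * p * q) * s * (p⁻¹ * q * p⁻¹ * q⁻¹ * p * q)⁻¹ = s := by
    calc (p⁻¹ * q * p⁻¹ * q⁻¹ * p * q) * s * (p⁻¹ * q * p⁻¹ * q⁻¹ * p * q)⁻¹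
        = p⁻¹ * q * p⁻¹ * q⁻¹ * p * (q * s * q⁻¹) * p⁻¹ * q * p * q⁻¹ * p := by group
      _ = p⁻¹ * q * p⁻¹ * q⁻¹ * (p * (z * s) * p⁻¹) * q * p * q⁻¹ * p := by rw [cq2]; group
      _ = p⁻¹ * q * p⁻¹ * (q⁻¹ * z * q) * p * q⁻¹ * p := by rw [cp3]; group
      _ = p⁻¹ * q * (p⁻¹ * z * p) * q⁻¹ * p := by rw [cq4]; group
      _ = p⁻¹ * (q * (z * s) * q⁻¹) * p := by rw [cp5]; group
      _ = p⁻¹ * s * p := by rw [cq3]
      _ = s := cp4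
  have hws' : (p⁻¹ * q * p⁻¹ * q⁻¹ * p * q) * s = s * (p⁻¹ * q * p⁻¹ * q⁻¹ * p * q) := by
    calc (p⁻¹ * q * p⁻¹ * q⁻¹ * p * q) * s
        = ((p⁻¹ * q * p⁻¹ * q⁻¹ * p * q) * s * (p⁻¹ * q * p⁻¹ * q⁻¹ * p * q)⁻¹) *
            (p⁻¹ * q * p⁻¹ * q⁻¹ * p * q) := by group
      _ = s * (p⁻¹ * q * p⁻¹ * q⁻¹ * p * q) := by rw [hws]
  have hwR : p⁻¹ * q * p⁻¹ * q⁻¹ * p * q ∈ RR Q P z s :=
    A_le_RR Q P z s (mem_A.mpr ⟨hwQ, hws'⟩)
  have h2 := conj_mem_of_mem_normalizer (h.P_le_NR hpP) hwR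
  have e : p * (p⁻¹ * q * p⁻¹ * q⁻¹ * p * q) * p⁻¹ = q * p⁻¹ * q⁻¹ * p * q * p⁻¹ := by group
  rwa [e] at h2

theorem fourE_mem_V (h : PairSetting Q P z s) (i : Fin 3) :
    fourE z s i ∈ Subgroup.zpowers z ⊔ Subgroup.zpowers s := by
  revert i
  exact fin3_forall h.z_mem_V h.s_mem_V (h.mem_V.mpr (Or.inr (Or.inr (Or.inr rfl))))

/-- The centralizer of `V` normalizes `X = ⟨Q, P⟩`. -/
theorem CV_le_NX (h : PairSetting Q P z s) :
    Subgroup.centralizer ((Subgroup.zpowers z ⊔ Subgroup.zpowers s : Subgroup G) : Set G) ≤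
      Subgroup.normalizer ((Q ⊔ P : Subgroup G) : Set G) := by
  apply le_normalizer_of_conj_mem
  intro c hc x hx
  obtain ⟨hcz, hcs⟩ := h.mem_CV.mp hc
  have key : Q ⊔ P ≤ (Q ⊔ P).comap (MulAut.conj c).toMonoidHom := by
    refine sup_le ?_ ?_
    · intro a ha
      rw [Subgroup.mem_comap]
      show c * a * c⁻¹ ∈ Q ⊔ P
      exact (le_sup_left : Q ≤ Q ⊔ P) (h.hQ.norm c hcz a ha)
    · intro b hb
      rw [Subgroup.mem_comap]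
      show c * b * c⁻¹ ∈ Q ⊔ P
      exact (le_sup_right : P ≤ Q ⊔ P) (h.hP.norm c hcs b hb)
  exact key hx

theorem R_normal (h : PairSetting Q P z s) : ((RR Q P z s).subgroupOf (Q ⊔ P)).Normal := by
  constructor
  intro n hn g
  rw [Subgroup.mem_subgroupOf] at hn ⊢
  exact conj_mem_of_mem_normalizer (h.X_le_NR g.2) hn

theorem R_isPGroup (h : PairSetting Q P z s) : IsPGroup 2 ↥((RR Q P z s).subgroupOf (Q ⊔ P)) := by
  intro g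
  refine ⟨2, ?_⟩
  have hg : ((g : ↥(Q ⊔ P)) : G) ∈ RR Q P z s := Subgroup.mem_subgroupOf.mp g.2
  have h1 := (h.R_comm_sq _ hg _ hg).2
  have h2 := h.E_sq (Subgroup.mem_inf.mp h1).1 (Subgroup.mem_inf.mp h1).2
  apply Subtype.ext
  apply Subtype.ext
  show ((g : ↥(Q ⊔ P)) : G) ^ 2 ^ 2 = 1
  have e : (2 : ℕ) ^ 2 = 2 + 2 := rfl
  rw [e, pow_add, pow_two]
  exact h2

/-- The structure of `X = ⟨Q, P⟩` (statement S5430 in abstract form). -/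
theorem sym3 (h : PairSetting Q P z s) :
    RR Q P z s = (Q ⊔ P) ⊓
        Subgroup.centralizer ((Subgroup.zpowers z ⊔ Subgroup.zpowers s : Subgroup G) : Set G) ∧
    RR Q P z s = (Cfsg.pCore 2 ↥(Q ⊔ P)).map (Q ⊔ P).subtype ∧
    (∃ _ : ((RR Q P z s).subgroupOf (Q ⊔ P)).Normal,
      Nonempty (↥(Q ⊔ P) ⧸ (RR Q P z s).subgroupOf (Q ⊔ P) ≃* Equiv.Perm (Fin 3))) ∧
    Subgroup.normalizer ((Subgroup.zpowers z ⊔ Subgroup.zpowers s : Subgroup G) : Set G) =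
      (Q ⊔ P) ⊔ (Subgroup.centralizer ({z} : Set G) ⊓
        Subgroup.centralizer ((Subgroup.zpowers z ⊔ Subgroup.zpowers s : Subgroup G) : Set G)) ∧
    (∀ y ∈ Subgroup.normalizer ((Subgroup.zpowers z ⊔ Subgroup.zpowers s : Subgroup G) : Set G),
      ∀ x ∈ Q ⊔ P, y * x * y⁻¹ ∈ Q ⊔ P) ∧
    RR Q P z s ≤ Subgroup.centralizer ({z} : Set G) ⊓
      Subgroup.centralizer ((Subgroup.zpowers z ⊔ Subgroup.zpowers s : Subgroup G) : Set G) ∧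
    (∀ x ∈ Q ⊔ P, ∀ c ∈ Subgroup.centralizer ({z} : Set G) ⊓
        Subgroup.centralizer ((Subgroup.zpowers z ⊔ Subgroup.zpowers s : Subgroup G) : Set G),
      x * c * x⁻¹ * c⁻¹ ∈ RR Q P z s) ∧
    (Q ⊔ P) ⊓ (Subgroup.centralizer ({z} : Set G) ⊓
      Subgroup.centralizer ((Subgroup.zpowers z ⊔ Subgroup.zpowers s : Subgroup G) : Set G)) =
      RR Q P z s := by
  classical
  obtain ⟨q, hqQ, hq⟩ := h.hQ.exists_anti h.sQ h.hP.z_ne h.ne.symm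
  obtain ⟨p, hpP, hp⟩ := h.hP.exists_anti h.zP h.hQ.z_ne h.ne
  obtain ⟨cq1, cq2, cq3, cq4, cq5, cq6⟩ := h.conj_facts hqQ hq
  obtain ⟨cp1, cp2, cp3, cp4, cp5, cp6⟩ := h.conj_facts' hpP hp
  have hbraid := h.braid hqQ hq hpP hp
  obtain ⟨φ, hφ⟩ := exists_fourRep h.hQ.zz h.hP.zz h.zs h.hQ.z_ne h.hP.z_ne h.ne
  have hinj := fourE_injective h.hQ.z_ne h.hP.z_ne h.ne
  -- the kernel of `φ`
  have hker : ∀ n : ↥(Subgroup.normalizer
      ((Subgroup.zpowers z ⊔ Subgroup.zpowers s : Subgroup G) : Set G)),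
      φ n = 1 ↔ (n : G) ∈ Subgroup.centralizer
        ((Subgroup.zpowers z ⊔ Subgroup.zpowers s : Subgroup G) : Set G) := by
    intro n
    constructor
    · intro hn
      rw [h.mem_CV]
      have h0 := hφ n 0
      have h1 := hφ n 1
      rw [hn, Equiv.Perm.one_apply] at h0 h1
      have h0' : z = (n : G) * z * (n : G)⁻¹ := h0
      have h1' : s = (n : G) * s * (n : G)⁻¹ := h1
      constructor
      · calc (n : G) * z = ((n : G) * z * (n : G)⁻¹) * n := by group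
          _ = z * n := by rw [← h0']
      · calc (n : G) * s = ((n : G) * s * (n : G)⁻¹) * n := by group
          _ = s * n := by rw [← h1']
    · intro hn
      apply Equiv.ext
      intro i
      apply hinj
      rw [hφ, Equiv.Perm.one_apply]
      have h1 := Subgroup.mem_centralizer_iff.mp hn _ (h.fourE_mem_V i)
      rw [← h1]; group
  have hqN := h.Q_le_NV hqQ
  have hpN := h.P_le_NV hpP
  have e120 : Equiv.swap (1 : Fin 3) 2 0 = 0 := by decide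
  have e121 : Equiv.swap (1 : Fin 3) 2 1 = 2 := by decide
  have e122 : Equiv.swap (1 : Fin 3) 2 2 = 1 := by decide
  have e020 : Equiv.swap (0 : Fin 3) 2 0 = 2 := by decide
  have e021 : Equiv.swap (0 : Fin 3) 2 1 = 1 := by decide
  have e022 : Equiv.swap (0 : Fin 3) 2 2 = 0 := by decide
  have hφq : φ ⟨q, hqN⟩ = Equiv.swap 1 2 := by
    apply Equiv.ext
    refine fin3_forall (hinj ?_) (hinj ?_) (hinj ?_)
    · rw [hφ, e120]; exact cq1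
    · rw [hφ, e121]; exact cq2
    · rw [hφ, e122]; exact cq3
  have hφp : φ ⟨p, hpN⟩ = Equiv.swap 0 2 := by
    apply Equiv.ext
    refine fin3_forall (hinj ?_) (hinj ?_) (hinj ?_)
    · rw [hφ, e020]; exact cp2
    · rw [hφ, e021]; exact cp1
    · rw [hφ, e022]; exact cp3
  -- restriction to `X`
  obtain ⟨φX, hφXdef⟩ : ∃ φX : ↥(Q ⊔ P) →* Equiv.Perm (Fin 3),
      ∀ x : ↥(Q ⊔ P), φX x = φ ⟨x, h.X_le_NV x.2⟩ :=
    ⟨φ.comp (Subgroup.inclusion h.X_le_NV), fun x => rfl⟩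
  have hφX : ∀ x : ↥(Q ⊔ P), φX x = 1 ↔ (x : G) ∈ Subgroup.centralizer
      ((Subgroup.zpowers z ⊔ Subgroup.zpowers s : Subgroup G) : Set G) := by
    intro x
    rw [hφXdef]
    exact hker _
  have hqX : q ∈ Q ⊔ P := (le_sup_left : Q ≤ Q ⊔ P) hqQ
  have hpX : p ∈ Q ⊔ P := (le_sup_right : P ≤ Q ⊔ P) hpP
  have hφXq : φX ⟨q, hqX⟩ = Equiv.swap 1 2 := by rw [hφXdef]; exact hφq
  have hφXp : φX ⟨p, hpX⟩ = Equiv.swap 0 2 := by rw [hφXdef]; exact hφp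
  have hsurj : Function.Surjective φX := by
    intro σ
    rcases perm3_cases σ with h1 | h1 | h1 | h1 | h1 | h1
    · exact ⟨1, by rw [map_one, h1]⟩
    · exact ⟨⟨q, hqX⟩, by rw [hφXq, h1]⟩
    · exact ⟨⟨p, hpX⟩, by rw [hφXp, h1]⟩
    · exact ⟨⟨q, hqX⟩ * ⟨p, hpX⟩, by rw [map_mul, hφXq, hφXp, h1]⟩
    · exact ⟨⟨p, hpX⟩ * ⟨q, hqX⟩, by rw [map_mul, hφXq, hφXp, h1]⟩
    · exact ⟨⟨q, hqX⟩ * ⟨p, hpX⟩ * ⟨q, hqX⟩, by rw [map_mul, map_mul, hφXq, hφXp, h1]⟩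
  -- the quotient `X / R`
  have hRX : RR Q P z s ≤ Q ⊔ P := R_le_X Q P z s
  have hnorm : ((RR Q P z s).subgroupOf (Q ⊔ P)).Normal := h.R_normal
  obtain ⟨π, hπdef⟩ : ∃ π : ↥(Q ⊔ P) →* ↥(Q ⊔ P) ⧸ (RR Q P z s).subgroupOf (Q ⊔ P),
      π = QuotientGroup.mk' ((RR Q P z s).subgroupOf (Q ⊔ P)) := ⟨_, rfl⟩
  have hπ : ∀ x : ↥(Q ⊔ P), π x = 1 ↔ (x : G) ∈ RR Q P z s := by
    intro x
    rw [hπdef, QuotientGroup.mk'_apply, QuotientGroup.eq_one_iff, Subgroup.mem_subgroupOf]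
  have hu : π ⟨q, hqX⟩ * π ⟨q, hqX⟩ = 1 := by
    rw [← map_mul]
    exact (hπ _).mpr (h.E_le_R (h.zpz_le_E (h.hQ.sq_mem hqQ)))
  have hv : π ⟨p, hpX⟩ * π ⟨p, hpX⟩ = 1 := by
    rw [← map_mul]
    exact (hπ _).mpr (h.E_le_R (h.zps_le_E (h.hP.sq_mem hpP)))
  have hui : (π ⟨q, hqX⟩)⁻¹ = π ⟨q, hqX⟩ := inv_eq_of_mul_eq_one_left hu
  have hvi : (π ⟨p, hpX⟩)⁻¹ = π ⟨p, hpX⟩ := inv_eq_of_mul_eq_one_left hv
  have hb : π ⟨q, hqX⟩ * π ⟨p, hpX⟩ * π ⟨q, hqX⟩ = π ⟨p, hpX⟩ * π ⟨q, hqX⟩ * π ⟨p, hpX⟩ := by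
    have h1 : π ((⟨q, hqX⟩ : ↥(Q ⊔ P)) * (⟨p, hpX⟩ : ↥(Q ⊔ P))⁻¹ * (⟨q, hqX⟩ : ↥(Q ⊔ P))⁻¹ *
        ⟨p, hpX⟩ * ⟨q, hqX⟩ * (⟨p, hpX⟩ : ↥(Q ⊔ P))⁻¹) = 1 := (hπ _).mpr hbraid
    rw [map_mul, map_mul, map_mul, map_mul, map_mul, map_inv, map_inv, hui, hvi] at h1
    calc π ⟨q, hqX⟩ * π ⟨p, hpX⟩ * π ⟨q, hqX⟩
        = (π ⟨q, hqX⟩ * π ⟨p, hpX⟩ * π ⟨q, hqX⟩ * π ⟨p, hpX⟩ * π ⟨q, hqX⟩ * π ⟨p, hpX⟩) *
            ((π ⟨p, hpX⟩)⁻¹ * (π ⟨q, hqX⟩)⁻¹ * (π ⟨p, hpX⟩)⁻¹) := by group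
      _ = π ⟨p, hpX⟩ * π ⟨q, hqX⟩ * π ⟨p, hpX⟩ := by rw [h1, one_mul, hui, hvi]
  have hqi : q⁻¹ * s = z * (s * q⁻¹) := by
    calc q⁻¹ * s = (q⁻¹ * s * q) * q⁻¹ := by group
      _ = z * s * q⁻¹ := by rw [cq5]
      _ = z * (s * q⁻¹) := by group
  have hpi : p⁻¹ * z = s * (z * p⁻¹) := by
    calc p⁻¹ * z = (p⁻¹ * z * p) * p⁻¹ := by group
      _ = z * s * p⁻¹ := by rw [cp5]
      _ = s * z * p⁻¹ := by rw [h.zs]
      _ = s * (z * p⁻¹) := by group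
  have hQcase : ∀ a ∈ Q, ∀ haX : a ∈ Q ⊔ P, π ⟨a, haX⟩ = 1 ∨ π ⟨a, haX⟩ = π ⟨q, hqX⟩ := by
    intro a ha haX
    rcases h.hQ.comm a ha s h.sQ with h1 | h1
    · left; rw [hπ]; exact A_le_RR Q P z s (mem_A.mpr ⟨ha, h1⟩)
    · right
      have h2 : (q⁻¹ * a) * s = s * (q⁻¹ * a) :=
        anti_mul_anti h.hQ.zz (h.hQ.central (Q.inv_mem hqQ)) hqi h1
      have h3 : q⁻¹ * a ∈ RR Q P z s :=
        A_le_RR Q P z s (mem_A.mpr ⟨Q.mul_mem (Q.inv_mem hqQ) ha, h2⟩)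
      have h4 : π ((⟨q, hqX⟩ : ↥(Q ⊔ P))⁻¹ * ⟨a, haX⟩) = 1 := (hπ _).mpr h3
      rw [map_mul, map_inv] at h4
      exact (inv_mul_eq_one.mp h4).symm
  have hPcase : ∀ b ∈ P, ∀ hbX : b ∈ Q ⊔ P, π ⟨b, hbX⟩ = 1 ∨ π ⟨b, hbX⟩ = π ⟨p, hpX⟩ := by
    intro b hb hbX
    rcases h.hP.comm b hb z h.zP with h1 | h1
    · left; rw [hπ]; exact B_le_RR Q P z s (mem_A.mpr ⟨hb, h1⟩)
    · right
      have h2 : (p⁻¹ * b) * z = z * (p⁻¹ * b) :=
        anti_mul_anti h.hP.zz (h.hP.central (P.inv_mem hpP)) hpi h1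
      have h3 : p⁻¹ * b ∈ RR Q P z s :=
        B_le_RR Q P z s (mem_A.mpr ⟨P.mul_mem (P.inv_mem hpP) hb, h2⟩)
      have h4 : π ((⟨p, hpX⟩ : ↥(Q ⊔ P))⁻¹ * ⟨b, hbX⟩) = 1 := (hπ _).mpr h3
      rw [map_mul, map_inv] at h4
      exact (inv_mul_eq_one.mp h4).symm
  have hgen : ∀ g ∈ Q ⊔ P, ∀ hg : g ∈ Q ⊔ P,
      π ⟨g, hg⟩ ∈ Subgroup.closure ({π ⟨q, hqX⟩, π ⟨p, hpX⟩} : Set _) := by
    refine sup_induction_left (p := fun g => ∀ hg : g ∈ Q ⊔ P,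
      π ⟨g, hg⟩ ∈ Subgroup.closure ({π ⟨q, hqX⟩, π ⟨p, hpX⟩} : Set _)) ?_ ?_ ?_
    · intro hg
      have e : (⟨1, hg⟩ : ↥(Q ⊔ P)) = 1 := rfl
      rw [e, map_one]; exact Subgroup.one_mem _
    · intro a ha y ih hg
      have haX : a ∈ Q ⊔ P := (le_sup_left : Q ≤ Q ⊔ P) ha
      have hyX : y ∈ Q ⊔ P := by
        have h1 := Subgroup.mul_mem _ (Subgroup.inv_mem _ haX) hg
        rwa [inv_mul_cancel_left] at h1
      have e : (⟨a * y, hg⟩ : ↥(Q ⊔ P)) = ⟨a, haX⟩ * ⟨y, hyX⟩ := rfl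
      rw [e, map_mul]
      refine Subgroup.mul_mem _ ?_ (ih hyX)
      rcases hQcase a ha haX with h1 | h1
      · rw [h1]; exact Subgroup.one_mem _
      · rw [h1]; exact Subgroup.subset_closure (Set.mem_insert _ _)
    · intro b hb y ih hg
      have hbX : b ∈ Q ⊔ P := (le_sup_right : P ≤ Q ⊔ P) hb
      have hyX : y ∈ Q ⊔ P := by
        have h1 := Subgroup.mul_mem _ (Subgroup.inv_mem _ hbX) hg
        rwa [inv_mul_cancel_left] at h1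
      have e : (⟨b * y, hg⟩ : ↥(Q ⊔ P)) = ⟨b, hbX⟩ * ⟨y, hyX⟩ := rfl
      rw [e, map_mul]
      refine Subgroup.mul_mem _ ?_ (ih hyX)
      rcases hPcase b hb hbX with h1 | h1
      · rw [h1]; exact Subgroup.one_mem _
      · rw [h1]; exact Subgroup.subset_closure (Set.mem_insert_of_mem _ rfl)
  have hsix := six_of_braid hu hv hb
  obtain ⟨ne1, ne2, ne3, ne4, ne5⟩ := perm3_ne
  -- the kernel of `φX` is `R`
  have hkerR : ∀ x : ↥(Q ⊔ P), φX x = 1 → (x : G) ∈ RR Q P z s := by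
    intro x hx
    have hcontra : ∀ c : ↥(Q ⊔ P), φX c ≠ 1 → π x ≠ π c := by
      intro c hc heq
      have h1 : π (c⁻¹ * x) = 1 := by rw [map_mul, map_inv, heq, inv_mul_cancel]
      have h2 : φX (c⁻¹ * x) = 1 := (hφX _).mpr (h.R_le_CV ((hπ _).mp h1))
      rw [map_mul, map_inv, hx, mul_one, inv_eq_one] at h2
      exact hc h2
    rcases hsix (π x) (hgen x x.2 x.2) with h1 | h1 | h1 | h1 | h1 | h1
    · exact (hπ x).mp h1
    · exact absurd h1 (hcontra _ (by rw [hφXq]; exact ne1))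
    · exact absurd h1 (hcontra _ (by rw [hφXp]; exact ne2))
    · rw [← map_mul] at h1
      exact absurd h1 (hcontra _ (by rw [map_mul, hφXq, hφXp]; exact ne3))
    · rw [← map_mul] at h1
      exact absurd h1 (hcontra _ (by rw [map_mul, hφXq, hφXp]; exact ne4))
    · rw [← map_mul, ← map_mul] at h1
      exact absurd h1 (hcontra _ (by rw [map_mul, map_mul, hφXq, hφXp]; exact ne5))
  -- (a)
  have hA : RR Q P z s = (Q ⊔ P) ⊓
      Subgroup.centralizer ((Subgroup.zpowers z ⊔ Subgroup.zpowers s : Subgroup G) : Set G) := by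
    apply le_antisymm (le_inf hRX h.R_le_CV)
    intro x hx
    obtain ⟨hxX, hxC⟩ := Subgroup.mem_inf.mp hx
    exact hkerR ⟨x, hxX⟩ ((hφX _).mpr hxC)
  have hCz : Subgroup.centralizer ((Subgroup.zpowers z ⊔ Subgroup.zpowers s : Subgroup G) : Set G)
      ≤ Subgroup.centralizer ({z} : Set G) :=
    Subgroup.centralizer_le (Set.singleton_subset_iff.mpr h.z_mem_V)
  have hCC : Subgroup.centralizer ({z} : Set G) ⊓
      Subgroup.centralizer ((Subgroup.zpowers z ⊔ Subgroup.zpowers s : Subgroup G) : Set G) =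
      Subgroup.centralizer ((Subgroup.zpowers z ⊔ Subgroup.zpowers s : Subgroup G) : Set G) :=
    inf_eq_right.mpr hCz
  -- (d)
  have hD : Subgroup.normalizer ((Subgroup.zpowers z ⊔ Subgroup.zpowers s : Subgroup G) : Set G) =
      (Q ⊔ P) ⊔
        Subgroup.centralizer ((Subgroup.zpowers z ⊔ Subgroup.zpowers s : Subgroup G) : Set G) := by
    apply le_antisymm
    · intro n hn
      obtain ⟨x, hx⟩ := hsurj (φ ⟨n, hn⟩)
      have h1 : φ ((⟨x, h.X_le_NV x.2⟩ : ↥(Subgroup.normalizer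
          ((Subgroup.zpowers z ⊔ Subgroup.zpowers s : Subgroup G) : Set G)))⁻¹ * ⟨n, hn⟩) = 1 := by
        rw [map_mul, map_inv, ← hφXdef, hx, inv_mul_cancel]
      have h2 := (hker _).mp h1
      have h3 : n = (x : G) * ((x : G)⁻¹ * n) := by group
      rw [h3]
      exact Subgroup.mul_mem_sup x.2 h2
    · exact sup_le h.X_le_NV (Subgroup.centralizer_le_normalizer _)
  have hNX : Subgroup.normalizer ((Subgroup.zpowers z ⊔ Subgroup.zpowers s : Subgroup G) : Set G) ≤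
      Subgroup.normalizer ((Q ⊔ P : Subgroup G) : Set G) := by
    rw [hD]
    exact sup_le Subgroup.le_normalizer h.CV_le_NX
  refine ⟨hA, ?_, ?_, ?_, ?_, ?_, ?_, ?_⟩
  · -- (b)
    apply le_antisymm
    · have h1 : (RR Q P z s).subgroupOf (Q ⊔ P) ≤ Cfsg.pCore 2 ↥(Q ⊔ P) :=
        le_sSup ⟨hnorm, h.R_isPGroup⟩
      have h2 := Subgroup.map_mono (f := (Q ⊔ P).subtype) h1
      rwa [Subgroup.map_subgroupOf_eq_of_le hRX] at h2
    · rintro _ ⟨n, hn, rfl⟩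
      have h1 : Cfsg.pCore 2 ↥(Q ⊔ P) ≤ (RR Q P z s).subgroupOf (Q ⊔ P) := by
        apply sSup_le
        rintro N ⟨hNn, hN2⟩ m hm
        rw [Subgroup.mem_subgroupOf]
        apply hkerR
        have hpow : ∀ y ∈ N, ∃ k : ℕ, φX y ^ 2 ^ k = 1 := by
          intro y hy
          obtain ⟨k, hk⟩ := hN2 ⟨y, hy⟩
          refine ⟨k, ?_⟩
          have h3 : y ^ 2 ^ k = 1 := by
            have := congrArg Subtype.val hk
            simpa using this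
          rw [← map_pow, h3, map_one]
        apply perm3_normal_two
        · exact hpow m hm
        · intro τ
          obtain ⟨t, rfl⟩ := hsurj τ
          have h4 : m * (t * m * t⁻¹) ∈ N := N.mul_mem hm (hNn.conj_mem m hm t)
          have h5 := hpow _ h4
          rw [map_mul, map_mul, map_mul, map_inv] at h5
          exact h5
      exact Subgroup.mem_subgroupOf.mp (h1 hn)
  · -- (c)
    have hk : (RR Q P z s).subgroupOf (Q ⊔ P) = φX.ker := by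
      ext x
      rw [Subgroup.mem_subgroupOf, MonoidHom.mem_ker]
      exact ⟨fun hx => (hφX x).mpr (h.R_le_CV hx), hkerR x⟩
    exact ⟨hnorm, ⟨(QuotientGroup.quotientMulEquivOfEq hk).trans
      (QuotientGroup.quotientKerEquivOfSurjective φX hsurj)⟩⟩
  · -- (d)
    rw [hCC]; exact hD
  · -- (e)
    intro y hy x hx
    exact conj_mem_of_mem_normalizer (hNX hy) hx
  · -- (f)
    rw [hCC]; exact h.R_le_CV
  · -- (g)
    intro x hx c hc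
    rw [hCC] at hc
    rw [hA]
    refine Subgroup.mem_inf.mpr ⟨?_, ?_⟩
    · have e : x * c * x⁻¹ * c⁻¹ = x * (c * x⁻¹ * c⁻¹) := by group
      rw [e]
      exact Subgroup.mul_mem _ hx
        (conj_mem_of_mem_normalizer (h.CV_le_NX hc) (Subgroup.inv_mem _ hx))
    · exact Subgroup.mul_mem _ (conj_mem_centralizer (h.X_le_NV hx) hc) (Subgroup.inv_mem _ hc)
  · -- (h)
    rw [hCC]; exact hA.symm

end PairSetting

end Cfsg.Agent.Lib.Helper92
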