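-- In a group of Monster type: the intersection of `Q` with a conjugate `g Q g⁻¹` for which
-- `g z g⁻¹` lies in `Q` and differs from `z` has order `2 ^ 13`.
import Mathlib
import Cfsg.Agent.Lib.Helper92.CrossPi

set_option autoImplicit false
open Cfsg
open scoped commutatorElement

namespace Cfsg.Agent.Lib.Helper92

open Cfsg.Agent.S5408 Cfsg.Agent.S5552 Cfsg.Agent.Lib.Helper10 Cfsg.Agent.S5392

theorem negC_sq : negC * negC = 1 := by
  apply Subtype.ext
  apply Equiv.ext
  intro v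
  show negPerm (negPerm v) = v
  rw [negPerm_apply, negPerm_apply, neg_neg]

section Meet
variable {G : Type*} [Group G] {z : G} {Q : Subgroup (Subgroup.centralizer ({z} : Set G))}
  [Q.Normal] {e : (Subgroup.centralizer ({z} : Set G)) ⧸ Q ≃* Spor.Co1}
  {ψ : leechLattice → Q ⧸ Subgroup.center Q} {ζ : Q}

/-- Changing the identifications by a lattice automorphism. -/
theorem MS.twist (hM : MS z Q e ψ ζ) (γ0 : Co0) :
    MS z Q (e.trans (MulAut.conj (QuotientGroup.mk γ0 : Spor.Co1)⁻¹))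
      (fun v => ψ (γ0 • v)) ζ where
  xs := hM.xs
  card := hM.card
  zz := hM.zz
  z1 := hM.z1
  ζz := hM.ζz
  ψ1 := fun v w => by
    show ψ (γ0 • (v + w)) = _
    rw [co0_add, hM.ψ1]
  ψ2 := fun y => by
    obtain ⟨v, hv⟩ := hM.ψ2 y
    refine ⟨γ0⁻¹ • v, ?_⟩
    show ψ (γ0 • γ0⁻¹ • v) = y
    rw [smul_inv_smul, hv]
  ψ3 := fun v => by
    show ψ (γ0 • v) = 1 ↔ _
    rw [hM.ψ3]
    constructor
    · rintro ⟨w, hw⟩
      refine ⟨γ0⁻¹ • w, ?_⟩
      rw [← co0_add, ← hw, inv_smul_smul]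
    · rintro ⟨w, hw⟩
      exact ⟨γ0 • w, by rw [hw, co0_add]⟩
  ψ4 := fun h γ hγ v q hv => by
    show ψ (γ0 • γ • v) = _
    have h1 : (QuotientGroup.mk (γ0 * γ * γ0⁻¹) : Spor.Co1) = e (QuotientGroup.mk h) := by
      have h3 : (QuotientGroup.mk γ : Spor.Co1) = (QuotientGroup.mk γ0 : Spor.Co1)⁻¹ *
          e (QuotientGroup.mk h) * (QuotientGroup.mk γ0 : Spor.Co1)⁻¹⁻¹ := hγ
      rw [QuotientGroup.mk_mul, QuotientGroup.mk_mul, h3, QuotientGroup.mk_inv]
      group
    have h2 := hM.ψ4 h (γ0 * γ * γ0⁻¹) h1 (γ0 • v) q hv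
    rw [← h2]
    congr 1
    rw [mul_smul, mul_smul, inv_smul_smul]
  qeq := fun v => by
    have h1 : ψ (γ0 • v) = QuotientGroup.mk (lift (fun v => ψ (γ0 • v)) v) :=
      (mk_lift (fun v => ψ (γ0 • v)) v).symm
    have h2 := sqv_of_mk hM.xs ψ (γ0 • v) _ h1
    show sqv (lift (fun v => ψ (γ0 • v)) v) = q0 v
    rw [h2, hM.qeq]
    unfold q0
    rw [co0_norm]

/-- the inclusion of `Q` in `G` -/
def incl (Q : Subgroup (Subgroup.centralizer ({z} : Set G))) : Q →* G :=
  (Subgroup.centralizer ({z} : Set G)).subtype.comp Q.subtype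

theorem incl_apply (q : Q) : incl Q q = ((q : Subgroup.centralizer ({z} : Set G)) : G) := rfl

theorem incl_injective : Function.Injective (incl Q) := fun a b h =>
  Subtype.ext (Subtype.ext h)

theorem map_eq_range : Q.map (Subgroup.centralizer ({z} : Set G)).subtype = (incl Q).range := by
  ext y
  constructor
  · rintro ⟨c, hc, rfl⟩
    exact ⟨⟨c, hc⟩, rfl⟩
  · rintro ⟨q, rfl⟩
    exact ⟨q.1, q.2, rfl⟩

theorem mem_QG {y : G} : y ∈ Q.map (Subgroup.centralizer ({z} : Set G)).subtype ↔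
    ∃ q : Q, ((q : Subgroup.centralizer ({z} : Set G)) : G) = y := by
  rw [map_eq_range]
  rfl

theorem mem_PG {y g : G} : y ∈ (Q.map (Subgroup.centralizer ({z} : Set G)).subtype).map
      (MulAut.conj g).toMonoidHom ↔
    ∃ q : Q, g * ((q : Subgroup.centralizer ({z} : Set G)) : G) * g⁻¹ = y := by
  constructor
  · rintro ⟨y', hy', rfl⟩
    obtain ⟨q, rfl⟩ := mem_QG.mp hy'
    exact ⟨q, rfl⟩
  · rintro ⟨q, rfl⟩
    exact ⟨_, mem_QG.mpr ⟨q, rfl⟩, rfl⟩

/-- the hypotheses of the computation of `Q ∩ g Q g⁻¹`, in standard position -/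
structure MeetData (z : G) (Q : Subgroup (Subgroup.centralizer ({z} : Set G))) [Q.Normal]
    (e : (Subgroup.centralizer ({z} : Set G)) ⧸ Q ≃* Spor.Co1)
    (ψ : leechLattice → Q ⧸ Subgroup.center Q) (ζ : Q) (x : Q) (g : G) : Prop where
  ms : MS z Q e ψ ζ
  hx : ψ (axisVec none) = QuotientGroup.mk x
  hg : g * z * g⁻¹ = ((x : Subgroup.centralizer ({z} : Set G)) : G)

variable {x : Q} {g : G}

theorem MeetData.xc (hD : MeetData z Q e ψ ζ x g) : x ∉ Subgroup.center Q :=
  hD.ms.noncentral (axisVec none) x hD.hx (Or.inr (axis_norm none))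

theorem MeetData.sz (hD : MeetData z Q e ψ ζ x g) :
    ((x : Subgroup.centralizer ({z} : Set G)) : G) ≠ z := by
  intro h
  apply hD.xc
  rw [hD.ms.center_iff]
  right
  apply Subtype.ext
  apply Subtype.ext
  rw [h, hD.ms.ζz]

/-- commutators of elements of `Q`, in `G` -/
theorem MS.commG (hM : MS z Q e ψ ζ) (q q' : Q) :
    ((q : Subgroup.centralizer ({z} : Set G)) : G) * q' * (q : G)⁻¹ * (q' : G)⁻¹ = 1 ∨
      ((q : Subgroup.centralizer ({z} : Set G)) : G) * q' * (q : G)⁻¹ * (q' : G)⁻¹ = z := by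
  have h1 : incl Q ⁅q, q'⁆ =
      ((q : Subgroup.centralizer ({z} : Set G)) : G) * q' * (q : G)⁻¹ * (q' : G)⁻¹ := by
    rw [commutatorElement_def]
    rfl
  rw [← h1]
  rcases hM.xs.comm q q' with h | h
  · left
    rw [h, map_one]
  · right
    rw [h, incl_apply, hM.ζz]

theorem comm_z (c : Subgroup.centralizer ({z} : Set G)) : (c : G) * z = z * c :=
  (Subgroup.mem_centralizer_iff.mp c.2 z rfl).symm

theorem mem_cent {y : G} (h : y * z = z * y) : y ∈ Subgroup.centralizer ({z} : Set G) := by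
  rw [Subgroup.mem_centralizer_iff]
  intro t ht
  rw [Set.mem_singleton_iff.mp ht]
  exact h.symm

/-- `g z g⁻¹` is central in `g Q g⁻¹`. -/
theorem MeetData.comm_s (hD : MeetData z Q e ψ ζ x g) (p : Q) :
    g * ((p : Subgroup.centralizer ({z} : Set G)) : G) * g⁻¹ *
        ((x : Subgroup.centralizer ({z} : Set G)) : G) =
      ((x : Subgroup.centralizer ({z} : Set G)) : G) *
        (g * ((p : Subgroup.centralizer ({z} : Set G)) : G) * g⁻¹) := by
  rw [← hD.hg]
  have h1 := comm_z (p : Subgroup.centralizer ({z} : Set G))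
  calc g * (p : G) * g⁻¹ * (g * z * g⁻¹) = g * ((p : G) * z) * g⁻¹ := by group
    _ = g * (z * (p : G)) * g⁻¹ := by rw [h1]
    _ = g * z * g⁻¹ * (g * (p : G) * g⁻¹) := by group

/-- `g Q g⁻¹` is normalized by the centralizer of `g z g⁻¹`. -/
theorem MeetData.conj_P (hD : MeetData z Q e ψ ζ x g) (w : G)
    (hw : w * ((x : Subgroup.centralizer ({z} : Set G)) : G) =
      ((x : Subgroup.centralizer ({z} : Set G)) : G) * w) (p : Q) :
    ∃ p' : Q, w * (g * ((p : Subgroup.centralizer ({z} : Set G)) : G) * g⁻¹) * w⁻¹ =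
      g * ((p' : Subgroup.centralizer ({z} : Set G)) : G) * g⁻¹ := by
  rw [← hD.hg] at hw
  have hc : g⁻¹ * w * g ∈ Subgroup.centralizer ({z} : Set G) := by
    apply mem_cent
    calc g⁻¹ * w * g * z = g⁻¹ * (w * (g * z * g⁻¹)) * g := by group
      _ = g⁻¹ * (g * z * g⁻¹ * w) * g := by rw [hw]
      _ = z * (g⁻¹ * w * g) := by group
  refine ⟨⟨⟨g⁻¹ * w * g, hc⟩ * p * ⟨g⁻¹ * w * g, hc⟩⁻¹,
    (inferInstance : Q.Normal).conj_mem p p.2 _⟩, ?_⟩
  show w * (g * (p : G) * g⁻¹) * w⁻¹ = g * ((g⁻¹ * w * g) * (p : G) * (g⁻¹ * w * g)⁻¹) * g⁻¹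
  group

/-- `Q ∩ g Q g⁻¹` is abelian. -/
theorem MeetData.comm_of (hD : MeetData z Q e ψ ζ x g) (q q' p p' : Q)
    (hq : ((q : Subgroup.centralizer ({z} : Set G)) : G) =
      g * ((p : Subgroup.centralizer ({z} : Set G)) : G) * g⁻¹)
    (hq' : ((q' : Subgroup.centralizer ({z} : Set G)) : G) =
      g * ((p' : Subgroup.centralizer ({z} : Set G)) : G) * g⁻¹) :
    ((q : Subgroup.centralizer ({z} : Set G)) : G) * q' = q' * q := by
  have h1 := hD.ms.commG q q'
  have h2 := hD.ms.commG p p'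
  have h3 : ((q : Subgroup.centralizer ({z} : Set G)) : G) * q' * (q : G)⁻¹ * (q' : G)⁻¹ =
      g * (((p : Subgroup.centralizer ({z} : Set G)) : G) * p' * (p : G)⁻¹ * (p' : G)⁻¹) * g⁻¹ := by
    rw [hq, hq']
    group
  have h4 : ((q : Subgroup.centralizer ({z} : Set G)) : G) * q' * (q : G)⁻¹ * (q' : G)⁻¹ = 1 := by
    rcases h1 with h1 | h1
    · exact h1
    · exfalso
      rcases h2 with h2 | h2
      · rw [h2, h1] at h3
        apply hD.ms.z1
        rw [h3]
        group
      · rw [h2, h1, hD.hg] at h3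
        exact hD.sz h3.symm
  calc ((q : Subgroup.centralizer ({z} : Set G)) : G) * q'
      = ((q : G) * q' * (q : G)⁻¹ * (q' : G)⁻¹) * (q' * q) := by group
    _ = q' * q := by rw [h4, one_mul]

/-- `|Q ∩ g Q g⁻¹| ≤ 2 ^ 13`. -/
theorem MeetData.card_le [Finite G] (hD : MeetData z Q e ψ ζ x g) :
    Nat.card ↥((Q.map (Subgroup.centralizer ({z} : Set G)).subtype) ⊓
      (Q.map (Subgroup.centralizer ({z} : Set G)).subtype).map (MulAut.conj g).toMonoidHom) ≤
      2 ^ 13 := by
  obtain ⟨E, hE⟩ : ∃ E : Subgroup G, E = (Q.map (Subgroup.centralizer ({z} : Set G)).subtype) ⊓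
      (Q.map (Subgroup.centralizer ({z} : Set G)).subtype).map (MulAut.conj g).toMonoidHom :=
    ⟨_, rfl⟩
  rw [← hE]
  have hEr : E ≤ (incl Q).range := by
    intro y hy
    rw [hE] at hy
    rw [← map_eq_range]
    exact hy.1
  have hcard : Nat.card (E.comap (incl Q)) = Nat.card E := by
    rw [← Subgroup.card_map_of_injective (incl_injective (Q := Q)),
      Subgroup.map_comap_eq_self hEr]
  have hab : ∀ a ∈ E.comap (incl Q), ∀ b ∈ E.comap (incl Q), a * b = b * a := by
    intro a ha b hb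
    have ha' : incl Q a ∈ E := ha
    have hb' : incl Q b ∈ E := hb
    rw [hE] at ha' hb'
    obtain ⟨p, hp⟩ := mem_PG.mp ha'.2
    obtain ⟨p', hp'⟩ := mem_PG.mp hb'.2
    apply incl_injective
    rw [map_mul, map_mul]
    exact hD.comm_of a b p p' hp.symm hp'.symm
  have h1 := abelian_bound hD.ms.xs (E.comap (incl Q)) hab
  rw [hcard, hD.ms.card] at h1
  by_contra hcon
  push Not at hcon
  have h2 : (2 ^ 13 + 1) * (2 ^ 13 + 1) ≤ Nat.card E * Nat.card E := Nat.mul_le_mul hcon hcon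
  norm_num at h1 h2
  omega

/-- `z` lies in `g Q g⁻¹`. -/
theorem MeetData.z_mem [Finite G] (hD : MeetData z Q e ψ ζ x g) :
    ∃ b : Q, g * ((b : Subgroup.centralizer ({z} : Set G)) : G) * g⁻¹ = z := by
  by_contra hz
  push Not at hz
  have hM := hD.ms
  have h3a : ∀ q p : Q, ((q : Subgroup.centralizer ({z} : Set G)) : G) =
      g * ((p : Subgroup.centralizer ({z} : Set G)) : G) * g⁻¹ → q = 1 ∨ q = x := by
    intro q p hqp
    have hdc : ∀ t : Q, t * x = x * t → t * q = q * t := by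
      intro t ht
      have ht' : ((t : Subgroup.centralizer ({z} : Set G)) : G) * (x : G) = (x : G) * t :=
        congrArg (incl Q) ht
      obtain ⟨p', hp'⟩ := hD.conj_P _ ht' p
      rcases hM.xs.comm t q with h1 | h1
      · exact commutatorElement_eq_one_iff_mul_comm.mp h1
      · exfalso
        apply hz (p' * p⁻¹)
        have h2 : incl Q ⁅t, q⁆ = ((t : Subgroup.centralizer ({z} : Set G)) : G) * q *
            (t : G)⁻¹ * (q : G)⁻¹ := by
          rw [commutatorElement_def]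
          rfl
        rw [h1, incl_apply, hM.ζz, hqp, hp'] at h2
        refine Eq.trans ?_ h2.symm
        show g * (((p' : Subgroup.centralizer ({z} : Set G)) : G) * (p : G)⁻¹) * g⁻¹ = _
        group
    rcases double_centralizer hM.xs x q hdc with h | h | h | h
    · exact Or.inl h
    · exfalso
      apply hz p
      rw [← hqp, h, hM.ζz]
    · exact Or.inr h
    · exfalso
      apply hz (ζ⁻¹ * p)
      have h2 : ((q : Subgroup.centralizer ({z} : Set G)) : G) = (x : G) * z := by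
        rw [h]
        show ((x : Subgroup.centralizer ({z} : Set G)) : G) *
          ((ζ : Subgroup.centralizer ({z} : Set G)) : G) = _
        rw [hM.ζz]
      show g * (((ζ : Subgroup.centralizer ({z} : Set G)) : G)⁻¹ * (p : G)) * g⁻¹ = z
      rw [hM.ζz]
      calc g * (z⁻¹ * (p : G)) * g⁻¹ = (g * z * g⁻¹)⁻¹ * (g * (p : G) * g⁻¹) := by group
        _ = ((x : Subgroup.centralizer ({z} : Set G)) : G)⁻¹ * ((x : G) * z) := by
            rw [hD.hg, ← hqp, h2]
        _ = z := by group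
  have hK := card_le_two_mul_centralizer hM.xs x
  rw [hM.card] at hK
  obtain ⟨X', hX'⟩ : ∃ X' : Subgroup G,
      X' = (Q.map (Subgroup.centralizer ({z} : Set G)).subtype).map
        (MulAut.conj g⁻¹).toMonoidHom ⊓ Subgroup.centralizer ({z} : Set G) := ⟨_, rfl⟩
  have hX'C : X' ≤ Subgroup.centralizer ({z} : Set G) := by
    rw [hX']
    exact inf_le_right
  have hinj : Function.Injective ((MulAut.conj g⁻¹).toMonoidHom.comp (incl Q)) :=
    (MulAut.conj g⁻¹).injective.comp incl_injective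
  have hKX : (Subgroup.centralizer ({x} : Set Q)).map
      ((MulAut.conj g⁻¹).toMonoidHom.comp (incl Q)) ≤ X' := by
    rintro _ ⟨t, ht, rfl⟩
    rw [hX']
    have htx : t * x = x * t := (Subgroup.mem_centralizer_iff.mp ht x rfl).symm
    have htx' : ((t : Subgroup.centralizer ({z} : Set G)) : G) * (x : G) = (x : G) * t :=
      congrArg (incl Q) htx
    constructor
    · exact ⟨_, mem_QG.mpr ⟨t, rfl⟩, rfl⟩
    · apply mem_cent
      show g⁻¹ * ((t : Subgroup.centralizer ({z} : Set G)) : G) * g⁻¹⁻¹ * z =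
        z * (g⁻¹ * (t : G) * g⁻¹⁻¹)
      rw [← hD.hg] at htx'
      calc g⁻¹ * ((t : Subgroup.centralizer ({z} : Set G)) : G) * g⁻¹⁻¹ * z
          = g⁻¹ * ((t : G) * (g * z * g⁻¹)) * g := by group
        _ = g⁻¹ * (g * z * g⁻¹ * (t : G)) * g := by rw [htx']
        _ = z * (g⁻¹ * (t : G) * g⁻¹⁻¹) := by group
  have hcardX' : 2 ^ 24 ≤ Nat.card X' := by
    have h1 := Subgroup.card_le_of_le hKX
    rw [Subgroup.card_map_of_injective hinj] at h1
    omega
  have hcX'C : Nat.card (X'.subgroupOf (Subgroup.centralizer ({z} : Set G))) = Nat.card X' :=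
    Nat.card_congr (Subgroup.subgroupOfEquivOfLe hX'C).toEquiv
  have hmul := card_inf_ker_mul_card_map (QuotientGroup.mk' Q)
    (X'.subgroupOf (Subgroup.centralizer ({z} : Set G)))
  rw [QuotientGroup.ker_mk'] at hmul
  have hsmall : Nat.card ↥(Q ⊓ X'.subgroupOf (Subgroup.centralizer ({z} : Set G))) ≤ 2 := by
    have hsub : ((Q ⊓ X'.subgroupOf (Subgroup.centralizer ({z} : Set G)) : Subgroup _) :
        Set (Subgroup.centralizer ({z} : Set G))) ⊆
        {1, (ζ : Subgroup.centralizer ({z} : Set G))} := by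
      intro c hc
      obtain ⟨hcQ, hcX⟩ := hc
      have hcX2 : (c : G) ∈ X' := hcX
      rw [hX'] at hcX2
      obtain ⟨p, hp⟩ := mem_PG.mp hcX2.1
      have h5 : ((p : Subgroup.centralizer ({z} : Set G)) : G) =
          g * (((⟨c, hcQ⟩ : Q) : Subgroup.centralizer ({z} : Set G)) : G) * g⁻¹ := by
        show ((p : Subgroup.centralizer ({z} : Set G)) : G) = g * (c : G) * g⁻¹
        rw [← hp]
        group
      rcases h3a p ⟨c, hcQ⟩ h5 with h6 | h6
      · left
        apply Subtype.ext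
        rw [h6] at h5
        have h7 : g * (c : G) * g⁻¹ = 1 := h5.symm
        exact conj_eq_one_iff.mp h7
      · right
        apply Subtype.ext
        rw [h6, ← hD.hg] at h5
        rw [hM.ζz]
        exact (mul_left_cancel (mul_right_cancel h5)).symm
    calc Nat.card ↥(Q ⊓ X'.subgroupOf (Subgroup.centralizer ({z} : Set G)))
        = ((Q ⊓ X'.subgroupOf (Subgroup.centralizer ({z} : Set G)) : Subgroup _) :
            Set (Subgroup.centralizer ({z} : Set G))).ncard := Nat.card_coe_set_eq _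
      _ ≤ ({1, (ζ : Subgroup.centralizer ({z} : Set G))} :
            Set (Subgroup.centralizer ({z} : Set G))).ncard :=
          Set.ncard_le_ncard hsub (Set.toFinite _)
      _ ≤ 2 := by
          have h8 := Set.ncard_insert_le (1 : Subgroup.centralizer ({z} : Set G))
            {(ζ : Subgroup.centralizer ({z} : Set G))}
          rw [Set.ncard_singleton] at h8
          exact h8
  have hXbar : 2 ^ 23 ≤ Nat.card ((X'.subgroupOf (Subgroup.centralizer ({z} : Set G))).map
      (QuotientGroup.mk' Q)) := by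
    rw [hcX'C] at hmul
    nlinarith
  have hdvd1 : Nat.card ((X'.subgroupOf (Subgroup.centralizer ({z} : Set G))).map
      (QuotientGroup.mk' Q)) ∣ 2 ^ 25 := by
    have h1 := Subgroup.card_map_dvd (H := X'.subgroupOf (Subgroup.centralizer ({z} : Set G)))
      (QuotientGroup.mk' Q)
    rw [hcX'C] at h1
    have h2 : Nat.card X' ∣ Nat.card ((Q.map (Subgroup.centralizer ({z} : Set G)).subtype).map
        (MulAut.conj g⁻¹).toMonoidHom) := Subgroup.card_dvd_of_le (by
      rw [hX']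
      exact inf_le_left)
    rw [Subgroup.card_map_of_injective (MulAut.conj g⁻¹).injective,
      Subgroup.card_map_of_injective (Subgroup.subtype_injective _), hM.card] at h2
    exact h1.trans h2
  obtain ⟨k, hk, hk2⟩ := (Nat.dvd_prime_pow Nat.prime_two).mp hdvd1
  have hdvd2 : Nat.card ((X'.subgroupOf (Subgroup.centralizer ({z} : Set G))).map
      (QuotientGroup.mk' Q)) ∣ 8315553613086720000 := by
    have h1 := Subgroup.card_subgroup_dvd_card
      ((X'.subgroupOf (Subgroup.centralizer ({z} : Set G))).map (QuotientGroup.mk' Q))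
    rw [Nat.card_congr e.toEquiv] at h1
    have h2 := Subgroup.card_quotient_dvd_card (Subgroup.center Co0)
    rw [card_co0] at h2
    exact h1.trans h2
  rw [hk2] at hXbar hdvd2
  have hk23 : 23 ≤ k := (Nat.pow_le_pow_iff_right (by norm_num)).mp hXbar
  have h9 : 2 ^ 23 ∣ 8315553613086720000 := (pow_dvd_pow 2 hk23).trans hdvd2
  norm_num at h9

/-- the image in `C / Q` of `g Q g⁻¹ ∩ C` -/
def yBar (Q : Subgroup (Subgroup.centralizer ({z} : Set G))) [Q.Normal] (g : G) :
    Subgroup ((Subgroup.centralizer ({z} : Set G)) ⧸ Q) :=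
  (((Q.map (Subgroup.centralizer ({z} : Set G)).subtype).map (MulAut.conj g).toMonoidHom ⊓
    Subgroup.centralizer ({z} : Set G)).subgroupOf (Subgroup.centralizer ({z} : Set G))).map
      (QuotientGroup.mk' Q)

theorem mem_yBar_iff (t : (Subgroup.centralizer ({z} : Set G)) ⧸ Q) : t ∈ yBar Q g ↔
    ∃ (c : Subgroup.centralizer ({z} : Set G)) (p : Q), t = QuotientGroup.mk c ∧
      (c : G) = g * ((p : Subgroup.centralizer ({z} : Set G)) : G) * g⁻¹ := by
  constructor
  · rintro ⟨c, hc, rfl⟩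
    have hc2 : (c : G) ∈ (Q.map (Subgroup.centralizer ({z} : Set G)).subtype).map
        (MulAut.conj g).toMonoidHom ⊓ Subgroup.centralizer ({z} : Set G) := hc
    obtain ⟨p, hp⟩ := mem_PG.mp hc2.1
    exact ⟨c, p, rfl, hp.symm⟩
  · rintro ⟨c, p, rfl, hcp⟩
    refine ⟨c, ?_, rfl⟩
    show (c : G) ∈ (Q.map (Subgroup.centralizer ({z} : Set G)).subtype).map
        (MulAut.conj g).toMonoidHom ⊓ Subgroup.centralizer ({z} : Set G)
    exact ⟨mem_PG.mpr ⟨p, hcp.symm⟩, c.2⟩

/-- the lattice automorphisms inducing the elements of `yBar` -/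
def yLift (e : (Subgroup.centralizer ({z} : Set G)) ⧸ Q ≃* Spor.Co1) (g : G) : Subgroup Co0 :=
  ((yBar Q g).map e.toMonoidHom).comap (QuotientGroup.mk' (Subgroup.center Co0))

theorem mem_yLift_iff (n : Co0) : n ∈ yLift e g ↔
    ∃ (c : Subgroup.centralizer ({z} : Set G)) (p : Q),
      (QuotientGroup.mk n : Spor.Co1) = e (QuotientGroup.mk c) ∧
      (c : G) = g * ((p : Subgroup.centralizer ({z} : Set G)) : G) * g⁻¹ := by
  constructor
  · rintro ⟨t, ht, hte⟩
    obtain ⟨c, p, rfl, hcp⟩ := (mem_yBar_iff t).mp ht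
    exact ⟨c, p, hte.symm, hcp⟩
  · rintro ⟨c, p, hn, hcp⟩
    exact ⟨QuotientGroup.mk c, (mem_yBar_iff _).mpr ⟨c, p, rfl, hcp⟩, hn.symm⟩

/-- the stabilizer of the standard cross, in terms of `ψ` -/
theorem MS.cross_iff (hM : MS z Q e ψ ζ) (δ : Co0) :
    δ ∈ crossSub ↔ ψ (δ • axisVec none) = ψ (axisVec none) := by
  rw [mem_crossSub_iff]
  constructor
  · rintro ⟨w, hw, hw2⟩
    have h2 : δ • axisVec none = axisVec none + ((⟨w, hw⟩ : leechLattice) + ⟨w, hw⟩) := by
      apply Subtype.ext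
      show ((δ • axisVec none : leechLattice) : GolayPt → ℤ) =
        ((axisVec none : leechLattice) : GolayPt → ℤ) + (w + w)
      rw [two_nsmul] at hw2
      rw [← hw2]
      abel
    rw [h2, hM.ψ_double]
  · intro h
    exact hM.ψ_eq _ _ h

theorem MeetData.yLift_le (hD : MeetData z Q e ψ ζ x g) : yLift e g ≤ crossSub := by
  intro n hn
  have hM := hD.ms
  obtain ⟨c, p, hnc, hcp⟩ := (mem_yLift_iff n).mp hn
  have h1 : c * (x : Subgroup.centralizer ({z} : Set G)) * c⁻¹ = x := by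
    apply Subtype.ext
    show (c : G) * ((x : Subgroup.centralizer ({z} : Set G)) : G) * (c : G)⁻¹ = x
    rw [hcp, hD.comm_s p]
    group
  have h2 := hM.ψ4 c n hnc (axisVec none) x hD.hx
  rw [hM.cross_iff, h2, hD.hx]
  congr 1
  exact Subtype.ext h1

theorem MeetData.yLift_conj (hD : MeetData z Q e ψ ζ x g) (δ : Co0) (hδ : δ ∈ crossSub)
    (n : Co0) (hn : n ∈ yLift e g) : δ * n * δ⁻¹ ∈ yLift e g := by
  have hM := hD.ms
  obtain ⟨c, p, hnc, hcp⟩ := (mem_yLift_iff n).mp hn
  have h1 : ψ (δ • axisVec none) = ψ (axisVec none) := (hM.cross_iff δ).mp hδ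
  obtain ⟨h, hh, hhx⟩ := hM.conj_e x x (axisVec none) (axisVec none) δ hD.hx hD.hx h1 hD.xc
  have hhs : (h : G) * ((x : Subgroup.centralizer ({z} : Set G)) : G) = (x : G) * h := by
    have h3 : (h : G) * ((x : Subgroup.centralizer ({z} : Set G)) : G) * (h : G)⁻¹ = (x : G) :=
      congrArg Subtype.val hhx
    calc (h : G) * ((x : Subgroup.centralizer ({z} : Set G)) : G)
        = (h : G) * (x : G) * (h : G)⁻¹ * h := by group
      _ = (x : G) * h := by rw [h3]
  obtain ⟨p', hp'⟩ := hD.conj_P (h : G) hhs p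
  rw [mem_yLift_iff]
  refine ⟨h * c * h⁻¹, p', ?_, ?_⟩
  · rw [QuotientGroup.mk_mul, QuotientGroup.mk_mul, QuotientGroup.mk_inv, ← hh, hnc,
      QuotientGroup.mk_mul, QuotientGroup.mk_mul, QuotientGroup.mk_inv, map_mul, map_mul, map_inv]
  · show (h : G) * (c : G) * (h : G)⁻¹ = _
    rw [hcp, hp']

theorem MeetData.yLift_pow (hD : MeetData z Q e ψ ζ x g) (n : Co0) (hn : n ∈ yLift e g) :
    n ^ 2 ^ 3 = 1 := by
  have hM := hD.ms
  obtain ⟨c, p, hnc, hcp⟩ := (mem_yLift_iff n).mp hn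
  have hp4 : p ^ 4 = 1 := by
    have h0 : p ^ 4 = (p * p) * (p * p) := by
      rw [← pow_two, ← pow_two, ← pow_mul]
    rw [h0]
    rcases hM.xs.sqm p with h | h
    · rw [h, one_mul]
    · rw [h, hM.xs.sq]
  have hc4 : c ^ 4 = 1 := by
    apply Subtype.ext
    show (c : G) ^ 4 = 1
    rw [hcp, conj_pow]
    have h5 : ((p : Subgroup.centralizer ({z} : Set G)) : G) ^ 4 = 1 := by
      have h6 := congrArg (incl Q) hp4
      rwa [map_pow, map_one] at h6
    rw [h5]
    group
  have h1 : (QuotientGroup.mk (n ^ 4) : Spor.Co1) = 1 := by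
    rw [QuotientGroup.mk_pow, hnc, ← map_pow, ← QuotientGroup.mk_pow, hc4, QuotientGroup.mk_one,
      map_one]
  have h2 : n ^ 4 ∈ Subgroup.center Co0 := (QuotientGroup.eq_one_iff _).mp h1
  have h3 : n ^ 2 ^ 3 = n ^ 4 * n ^ 4 := by
    rw [← pow_add]
    norm_num
  rw [h3]
  rcases center_co0_cases _ h2 with h | h
  · rw [h, one_mul]
  · rw [h, negC_sq]

/-- The lattice automorphisms inducing the elements of the image of `g Q g⁻¹ ∩ C` are sign
changes. -/
theorem MeetData.yLift_le_sgnK (hD : MeetData z Q e ψ ζ x g) : yLift e g ≤ sgnK := by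
  have hnorm : ((yLift e g).subgroupOf crossSub).Normal := by
    constructor
    intro n hn δ
    exact hD.yLift_conj δ δ.2 n hn
  have hle := normal_two_le_ker ((yLift e g).subgroupOf crossSub) hnorm (by
    intro n hn
    refine ⟨3, ?_⟩
    apply Subtype.ext
    exact hD.yLift_pow n hn)
  intro γ hγ
  have hγc := hD.yLift_le hγ
  have h5 : (⟨γ, hγc⟩ : crossSub) ∈ crossPi.ker :=
    hle (show (⟨γ, hγc⟩ : crossSub) ∈ (yLift e g).subgroupOf crossSub from hγ)
  exact (mem_sgnK_iff γ).mpr ⟨hγc, h5⟩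

theorem MeetData.yBar_le (hD : MeetData z Q e ψ ζ x g) :
    (yBar Q g).map e.toMonoidHom ≤ sgnK.map (QuotientGroup.mk' (Subgroup.center Co0)) := by
  intro t ht
  obtain ⟨γ, rfl⟩ := QuotientGroup.mk_surjective t
  exact ⟨γ, hD.yLift_le_sgnK (show γ ∈ yLift e g from ht), rfl⟩

/-- `2 ^ 13 ≤ |Q ∩ g Q g⁻¹|`. -/
theorem MeetData.card_ge [Finite G] (hD : MeetData z Q e ψ ζ x g) :
    2 ^ 13 ≤ Nat.card ↥((Q.map (Subgroup.centralizer ({z} : Set G)).subtype) ⊓
      (Q.map (Subgroup.centralizer ({z} : Set G)).subtype).map (MulAut.conj g).toMonoidHom) := by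
  obtain ⟨b, hb⟩ := hD.z_mem
  have hM := hD.ms
  have hK := card_le_two_mul_centralizer hM.xs b
  rw [hM.card] at hK
  obtain ⟨Y, hY⟩ : ∃ Y : Subgroup G,
      Y = (Q.map (Subgroup.centralizer ({z} : Set G)).subtype).map
        (MulAut.conj g).toMonoidHom ⊓ Subgroup.centralizer ({z} : Set G) := ⟨_, rfl⟩
  have hYC : Y ≤ Subgroup.centralizer ({z} : Set G) := by
    rw [hY]
    exact inf_le_right
  have hinj : Function.Injective ((MulAut.conj g).toMonoidHom.comp (incl Q)) :=
    (MulAut.conj g).injective.comp incl_injective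
  have hKY : (Subgroup.centralizer ({b} : Set Q)).map
      ((MulAut.conj g).toMonoidHom.comp (incl Q)) ≤ Y := by
    rintro _ ⟨t, ht, rfl⟩
    rw [hY]
    have htb : t * b = b * t := (Subgroup.mem_centralizer_iff.mp ht b rfl).symm
    have htb' : ((t : Subgroup.centralizer ({z} : Set G)) : G) * (b : G) = (b : G) * t :=
      congrArg (incl Q) htb
    constructor
    · exact mem_PG.mpr ⟨t, rfl⟩
    · apply mem_cent
      show g * ((t : Subgroup.centralizer ({z} : Set G)) : G) * g⁻¹ * z =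
        z * (g * (t : G) * g⁻¹)
      have e1 : g * ((t : Subgroup.centralizer ({z} : Set G)) : G) * g⁻¹ *
          (g * (b : G) * g⁻¹) = g * (b : G) * g⁻¹ * (g * (t : G) * g⁻¹) := by
        calc g * ((t : Subgroup.centralizer ({z} : Set G)) : G) * g⁻¹ * (g * (b : G) * g⁻¹)
            = g * ((t : G) * (b : G)) * g⁻¹ := by group
          _ = g * ((b : G) * (t : G)) * g⁻¹ := by rw [htb']
          _ = g * (b : G) * g⁻¹ * (g * (t : G) * g⁻¹) := by group
      rw [hb] at e1
      exact e1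
  have hcardY : 2 ^ 24 ≤ Nat.card Y := by
    have h1 := Subgroup.card_le_of_le hKY
    rw [Subgroup.card_map_of_injective hinj] at h1
    omega
  have hcYC : Nat.card (Y.subgroupOf (Subgroup.centralizer ({z} : Set G))) = Nat.card Y :=
    Nat.card_congr (Subgroup.subgroupOfEquivOfLe hYC).toEquiv
  have hmul := card_inf_ker_mul_card_map (QuotientGroup.mk' Q)
    (Y.subgroupOf (Subgroup.centralizer ({z} : Set G)))
  rw [QuotientGroup.ker_mk', hcYC] at hmul
  have hker : Nat.card ↥(Q ⊓ Y.subgroupOf (Subgroup.centralizer ({z} : Set G))) ≤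
      Nat.card ↥((Q.map (Subgroup.centralizer ({z} : Set G)).subtype) ⊓
        (Q.map (Subgroup.centralizer ({z} : Set G)).subtype).map
          (MulAut.conj g).toMonoidHom) := by
    have h1 : (Q ⊓ Y.subgroupOf (Subgroup.centralizer ({z} : Set G))).map
        (Subgroup.centralizer ({z} : Set G)).subtype ≤
        (Q.map (Subgroup.centralizer ({z} : Set G)).subtype) ⊓
          (Q.map (Subgroup.centralizer ({z} : Set G)).subtype).map
            (MulAut.conj g).toMonoidHom := by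
      rintro _ ⟨c, ⟨hcQ, hcY⟩, rfl⟩
      have hcY2 : (c : G) ∈ Y := hcY
      rw [hY] at hcY2
      exact ⟨⟨c, hcQ, rfl⟩, hcY2.1⟩
    have h2 := Subgroup.card_le_of_le h1
    rw [Subgroup.card_map_of_injective (Subgroup.subtype_injective _)] at h2
    exact h2
  have himg : Nat.card ((Y.subgroupOf (Subgroup.centralizer ({z} : Set G))).map
      (QuotientGroup.mk' Q)) ≤ 2048 := by
    have h5 : (Y.subgroupOf (Subgroup.centralizer ({z} : Set G))).map (QuotientGroup.mk' Q) =
        yBar Q g := by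
      rw [hY]
      rfl
    rw [h5]
    haveI : Finite Co0 := co0_finite
    have h6 := Subgroup.card_le_of_le hD.yBar_le
    rw [Subgroup.card_map_of_injective e.injective] at h6
    exact h6.trans card_sgnK_map_le
  nlinarith

/-- `|Q ∩ g Q g⁻¹| = 2 ^ 13`, in standard position. -/
theorem MeetData.card_eq [Finite G] (hD : MeetData z Q e ψ ζ x g) :
    Nat.card ↥((Q.map (Subgroup.centralizer ({z} : Set G)).subtype) ⊓
      (Q.map (Subgroup.centralizer ({z} : Set G)).subtype).map (MulAut.conj g).toMonoidHom) =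
      2 ^ 13 :=
  le_antisymm hD.card_le hD.card_ge

/-- In a group of Monster type, the data can be put in standard position. -/
theorem MS.exists_meetData [Finite G] (hM : MS z Q e ψ ζ) (x : Q) (g : G)
    (hg : g * z * g⁻¹ = ((x : Subgroup.centralizer ({z} : Set G)) : G))
    (hne : ((x : Subgroup.centralizer ({z} : Set G)) : G) ≠ z) :
    ∃ (e' : (Subgroup.centralizer ({z} : Set G)) ⧸ Q ≃* Spor.Co1)
      (ψ' : leechLattice → Q ⧸ Subgroup.center Q), MeetData z Q e' ψ' ζ x g := by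
  have hc : IsConj z ((x : Subgroup.centralizer ({z} : Set G)) : G) := isConj_iff.mpr ⟨g, hg⟩
  obtain ⟨u, hn, hu⟩ := type4_of_conj hM x hc hne
  obtain ⟨γ0, hγ0⟩ := trans_norm64 (axisVec none) u (axis_norm none) hn
  refine ⟨_, _, hM.twist γ0, ?_, hg⟩
  show ψ (γ0 • axisVec none) = QuotientGroup.mk x
  rw [hγ0, hu]

end Meet

end Cfsg.Agent.Lib.Helper92
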