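-- In a group of Monster type: the image in `C / Q` of the centralizer of a conjugate `s` of `z`
-- in `Q` splits as an elementary abelian group of order `2 ^ 11` extended by the Mathieu group.
import Mathlib
import Cfsg.Agent.Lib.Helper92.MonsterMeet

set_option autoImplicit false
open Cfsg
open scoped commutatorElement

namespace Cfsg.Agent.Lib.Helper92

open Cfsg.Agent.S5408 Cfsg.Agent.S5552 Cfsg.Agent.Lib.Helper10 Cfsg.Agent.S5392
  Cfsg.Agent.Lib.Helper9

theorem signedPerm_one (c : Finset GolayPt) (v : GolayPt → ℤ) (i : GolayPt) :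
    signedPerm 1 c v i = if i ∈ c then -v i else v i := rfl

theorem isMono_one_of_sgnK {γ : Co0} (h : γ ∈ sgnK) : IsMono γ 1 := by
  obtain ⟨hc, hπ⟩ := (mem_sgnK_iff γ).mp h
  have h1 := crossPi_spec ⟨γ, hc⟩
  rw [hπ] at h1
  exact h1

theorem sgnK_comm {γ γ' : Co0} (h : γ ∈ sgnK) (h' : γ' ∈ sgnK) : γ * γ' = γ' * γ := by
  obtain ⟨c, hc, hf⟩ := isMono_one_of_sgnK h
  obtain ⟨c', hc', hf'⟩ := isMono_one_of_sgnK h'
  apply Subtype.ext
  apply Equiv.ext
  intro v
  apply Subtype.ext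
  show (((γ * γ') • v : leechLattice) : GolayPt → ℤ) =
    (((γ' * γ) • v : leechLattice) : GolayPt → ℤ)
  rw [mul_smul, mul_smul, hf, hf', hf', hf]
  funext i
  simp only [signedPerm_one]
  split_ifs <;> first | rfl | simp

theorem sgnK_sq {γ : Co0} (h : γ ∈ sgnK) : γ * γ = 1 := by
  obtain ⟨c, hc, hf⟩ := isMono_one_of_sgnK h
  apply Subtype.ext
  apply Equiv.ext
  intro v
  apply Subtype.ext
  show (((γ * γ) • v : leechLattice) : GolayPt → ℤ) = (v : GolayPt → ℤ)
  rw [mul_smul, hf, hf]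
  funext i
  simp only [signedPerm_one]
  split_ifs <;> first | rfl | simp

theorem sgnK_le_cross : sgnK ≤ crossSub := fun γ hγ => ((mem_sgnK_iff γ).mp hγ).1

theorem sgnK_conj {δ γ : Co0} (hδ : δ ∈ crossSub) (hγ : γ ∈ sgnK) : δ * γ * δ⁻¹ ∈ sgnK := by
  obtain ⟨hc, hπ⟩ := (mem_sgnK_iff γ).mp hγ
  rw [mem_sgnK_iff]
  refine ⟨crossSub.mul_mem (crossSub.mul_mem hδ hc) (crossSub.inv_mem hδ), ?_⟩
  have h1 : (⟨δ * γ * δ⁻¹, crossSub.mul_mem (crossSub.mul_mem hδ hc) (crossSub.inv_mem hδ)⟩ :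
      crossSub) = ⟨δ, hδ⟩ * ⟨γ, hc⟩ * ⟨δ, hδ⟩⁻¹ := rfl
  rw [h1, map_mul, map_mul, map_inv, hπ, mul_one, mul_inv_cancel]

/-- The coordinate permutations from the Mathieu group, as automorphisms preserving the standard
cross. -/
noncomputable def permHom : M24 →* crossSub :=
  MonoidHom.mk' (fun σ => monoC σ.1 σ.2 ∅ Spor.empty_mem_supports_golayCode) (by
    intro σ σ'
    apply Subtype.ext
    apply Subtype.ext
    apply Equiv.ext
    intro v
    apply Subtype.ext
    funext i
    show signedPerm ((σ : Equiv.Perm GolayPt) * (σ' : Equiv.Perm GolayPt)) ∅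
        (v : GolayPt → ℤ) i =
      signedPerm (σ : Equiv.Perm GolayPt) ∅
        (signedPerm (σ' : Equiv.Perm GolayPt) ∅ (v : GolayPt → ℤ)) i
    unfold signedPerm
    simp
    rfl)

theorem crossPi_permHom (σ : M24) : crossPi (permHom σ) = σ :=
  crossPi_monoC σ.1 σ.2 ∅ Spor.empty_mem_supports_golayCode

section Split
variable {G : Type*} [Group G] {z : G} {Q : Subgroup (Subgroup.centralizer ({z} : Set G))}
  [Q.Normal] {e : (Subgroup.centralizer ({z} : Set G)) ⧸ Q ≃* Spor.Co1}
  {ψ : leechLattice → Q ⧸ Subgroup.center Q} {ζ : Q} {x : Q} {g : G}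

/-- the image in `C / Q` of the centralizer of `s` in `C` -/
def xBar (Q : Subgroup (Subgroup.centralizer ({z} : Set G))) [Q.Normal] (s : G) :
    Subgroup ((Subgroup.centralizer ({z} : Set G)) ⧸ Q) :=
  ((Subgroup.centralizer ({z} : Set G) ⊓ Subgroup.centralizer ({s} : Set G)).subgroupOf
    (Subgroup.centralizer ({z} : Set G))).map (QuotientGroup.mk' Q)

theorem mem_xBar_iff (s : G) (t : (Subgroup.centralizer ({z} : Set G)) ⧸ Q) : t ∈ xBar Q s ↔
    ∃ c : Subgroup.centralizer ({z} : Set G), t = QuotientGroup.mk c ∧ (c : G) * s = s * c := by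
  constructor
  · rintro ⟨c, hc, rfl⟩
    have hc2 : (c : G) ∈ Subgroup.centralizer ({z} : Set G) ⊓
        Subgroup.centralizer ({s} : Set G) := hc
    exact ⟨c, rfl, (Subgroup.mem_centralizer_iff.mp hc2.2 s rfl).symm⟩
  · rintro ⟨c, rfl, hc⟩
    refine ⟨c, ?_, rfl⟩
    show (c : G) ∈ Subgroup.centralizer ({z} : Set G) ⊓ Subgroup.centralizer ({s} : Set G)
    refine Subgroup.mem_inf.mpr ⟨c.2, ?_⟩
    rw [Subgroup.mem_centralizer_iff]
    intro t ht
    rw [Set.mem_singleton_iff.mp ht]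
    exact hc.symm

theorem MeetData.xBar_iff (hD : MeetData z Q e ψ ζ x g)
    (t : (Subgroup.centralizer ({z} : Set G)) ⧸ Q) :
    t ∈ xBar Q ((x : Subgroup.centralizer ({z} : Set G)) : G) ↔
      ∃ δ ∈ crossSub, e t = QuotientGroup.mk δ := by
  have hM := hD.ms
  constructor
  · intro ht
    obtain ⟨c, rfl, hc⟩ := (mem_xBar_iff _ t).mp ht
    obtain ⟨δ, hδ⟩ := QuotientGroup.mk_surjective (e (QuotientGroup.mk c))
    refine ⟨δ, ?_, hδ.symm⟩
    have h1 : c * (x : Subgroup.centralizer ({z} : Set G)) * c⁻¹ = x := by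
      apply Subtype.ext
      show (c : G) * ((x : Subgroup.centralizer ({z} : Set G)) : G) * (c : G)⁻¹ = x
      rw [hc]
      group
    have h2 := hM.ψ4 c δ hδ (axisVec none) x hD.hx
    rw [hM.cross_iff, h2, hD.hx]
    congr 1
    exact Subtype.ext h1
  · rintro ⟨δ, hδ, h⟩
    have h1 := (hM.cross_iff δ).mp hδ
    obtain ⟨h', hh, hhx⟩ :=
      hM.conj_e x x (axisVec none) (axisVec none) δ hD.hx hD.hx h1 hD.xc
    have h2 : t = QuotientGroup.mk h' := e.injective (by rw [h, hh])
    rw [h2, mem_xBar_iff]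
    refine ⟨h', rfl, ?_⟩
    have h3 : (h' : G) * ((x : Subgroup.centralizer ({z} : Set G)) : G) * (h' : G)⁻¹ = (x : G) :=
      congrArg Subtype.val hhx
    calc (h' : G) * ((x : Subgroup.centralizer ({z} : Set G)) : G)
        = (h' : G) * (x : G) * (h' : G)⁻¹ * h' := by group
      _ = (x : G) * h' := by rw [h3]

/-- The image in `C / Q` of `g Q g⁻¹ ∩ C` has order `2 ^ 11`. -/
theorem MeetData.card_yBar [Finite G] (hD : MeetData z Q e ψ ζ x g) :
    Nat.card (yBar Q g) = 2 ^ 11 := by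
  obtain ⟨b, hb⟩ := hD.z_mem
  have hM := hD.ms
  have hK := card_le_two_mul_centralizer hM.xs b
  rw [hM.card] at hK
  obtain ⟨Y, hY⟩ : ∃ Y : Subgroup G,
      Y = (Q.map (Subgroup.centralizer ({z} : Set G)).subtype).map
        (MulAut.conj g).toMonoidHom ⊓ Subgroup.centralizer ({z} : Set G) := ⟨_, rfl⟩
  have hYC : Y ≤ Subgroup.centralizer ({z} : Set G) := by
    rw [hY]
    exact inf_le_right
  have hinj : Function.Injective ((MulAut.conj g).toMonoidHom.comp (incl Q)) :=
    (MulAut.conj g).injective.comp incl_injective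
  have hKY : (Subgroup.centralizer ({b} : Set Q)).map
      ((MulAut.conj g).toMonoidHom.comp (incl Q)) ≤ Y := by
    rintro _ ⟨t, ht, rfl⟩
    rw [hY]
    have htb : t * b = b * t := (Subgroup.mem_centralizer_iff.mp ht b rfl).symm
    have htb' : ((t : Subgroup.centralizer ({z} : Set G)) : G) * (b : G) = (b : G) * t :=
      congrArg (incl Q) htb
    constructor
    · exact mem_PG.mpr ⟨t, rfl⟩
    · apply mem_cent
      show g * ((t : Subgroup.centralizer ({z} : Set G)) : G) * g⁻¹ * z =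
        z * (g * (t : G) * g⁻¹)
      have e1 : g * ((t : Subgroup.centralizer ({z} : Set G)) : G) * g⁻¹ *
          (g * (b : G) * g⁻¹) = g * (b : G) * g⁻¹ * (g * (t : G) * g⁻¹) := by
        calc g * ((t : Subgroup.centralizer ({z} : Set G)) : G) * g⁻¹ * (g * (b : G) * g⁻¹)
            = g * ((t : G) * (b : G)) * g⁻¹ := by group
          _ = g * ((b : G) * (t : G)) * g⁻¹ := by rw [htb']
          _ = g * (b : G) * g⁻¹ * (g * (t : G) * g⁻¹) := by group
      rw [hb] at e1
      exact e1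
  have hcardY : 2 ^ 24 ≤ Nat.card Y := by
    have h1 := Subgroup.card_le_of_le hKY
    rw [Subgroup.card_map_of_injective hinj] at h1
    omega
  have hcYC : Nat.card (Y.subgroupOf (Subgroup.centralizer ({z} : Set G))) = Nat.card Y :=
    Nat.card_congr (Subgroup.subgroupOfEquivOfLe hYC).toEquiv
  have hmul := card_inf_ker_mul_card_map (QuotientGroup.mk' Q)
    (Y.subgroupOf (Subgroup.centralizer ({z} : Set G)))
  rw [QuotientGroup.ker_mk', hcYC] at hmul
  have hker : Nat.card ↥(Q ⊓ Y.subgroupOf (Subgroup.centralizer ({z} : Set G))) ≤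
      Nat.card ↥((Q.map (Subgroup.centralizer ({z} : Set G)).subtype) ⊓
        (Q.map (Subgroup.centralizer ({z} : Set G)).subtype).map
          (MulAut.conj g).toMonoidHom) := by
    have h1 : (Q ⊓ Y.subgroupOf (Subgroup.centralizer ({z} : Set G))).map
        (Subgroup.centralizer ({z} : Set G)).subtype ≤
        (Q.map (Subgroup.centralizer ({z} : Set G)).subtype) ⊓
          (Q.map (Subgroup.centralizer ({z} : Set G)).subtype).map
            (MulAut.conj g).toMonoidHom := by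
      rintro _ ⟨c, ⟨hcQ, hcY⟩, rfl⟩
      have hcY2 : (c : G) ∈ Y := hcY
      rw [hY] at hcY2
      exact ⟨⟨c, hcQ, rfl⟩, hcY2.1⟩
    have h2 := Subgroup.card_le_of_le h1
    rw [Subgroup.card_map_of_injective (Subgroup.subtype_injective _)] at h2
    exact h2
  rw [hD.card_eq] at hker
  have h5 : (Y.subgroupOf (Subgroup.centralizer ({z} : Set G))).map (QuotientGroup.mk' Q) =
      yBar Q g := by
    rw [hY]
    rfl
  rw [h5] at hmul
  have himg : Nat.card (yBar Q g) ≤ 2048 := by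
    haveI : Finite Co0 := co0_finite
    have h6 := Subgroup.card_le_of_le hD.yBar_le
    rw [Subgroup.card_map_of_injective e.injective] at h6
    exact h6.trans card_sgnK_map_le
  have h7 : 2 ^ 24 ≤ 2 ^ 13 * Nat.card (yBar Q g) := by
    calc 2 ^ 24 ≤ Nat.card Y := hcardY
      _ = Nat.card ↥(Q ⊓ Y.subgroupOf (Subgroup.centralizer ({z} : Set G))) *
          Nat.card (yBar Q g) := hmul.symm
      _ ≤ 2 ^ 13 * Nat.card (yBar Q g) := Nat.mul_le_mul_right _ hker
  omega

/-- The structure of the image in `C / Q` of the centralizer of `s = g z g⁻¹`. -/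
theorem MeetData.split [Finite G] (hD : MeetData z Q e ψ ζ x g) :
    yBar Q g ≤ xBar Q ((x : Subgroup.centralizer ({z} : Set G)) : G) ∧
    (∀ a ∈ xBar Q ((x : Subgroup.centralizer ({z} : Set G)) : G), ∀ y ∈ yBar Q g,
      a * y * a⁻¹ ∈ yBar Q g) ∧
    Cfsg.IsElementaryAbelian 2 (yBar Q g) ∧ Nat.card (yBar Q g) = 2 ^ 11 ∧
    ∃ K : Subgroup ((Subgroup.centralizer ({z} : Set G)) ⧸ Q),
      K ≤ xBar Q ((x : Subgroup.centralizer ({z} : Set G)) : G) ∧ yBar Q g ⊓ K = ⊥ ∧
      yBar Q g ⊔ K = xBar Q ((x : Subgroup.centralizer ({z} : Set G)) : G) ∧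
      Nonempty (K ≃* Cfsg.M24) := by
  have hM := hD.ms
  haveI : Finite Co0 := co0_finite
  have hcard := hD.card_yBar
  have hE : (yBar Q g).map e.toMonoidHom =
      sgnK.map (QuotientGroup.mk' (Subgroup.center Co0)) := by
    apply Subgroup.eq_of_le_of_card_ge hD.yBar_le
    have h6 : Nat.card ((yBar Q g).map e.toMonoidHom) = Nat.card (yBar Q g) :=
      Subgroup.card_map_of_injective e.injective
    rw [h6, hcard]
    exact card_sgnK_map_le.trans (by norm_num)
  have hEmem : ∀ t, t ∈ yBar Q g ↔ ∃ γ ∈ sgnK, e t = QuotientGroup.mk γ := by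
    intro t
    constructor
    · intro ht
      have h1 : e t ∈ (yBar Q g).map e.toMonoidHom := ⟨t, ht, rfl⟩
      rw [hE] at h1
      obtain ⟨γ, hγ, h⟩ := h1
      exact ⟨γ, hγ, h.symm⟩
    · rintro ⟨γ, hγ, h⟩
      have h1 : e t ∈ (yBar Q g).map e.toMonoidHom := by
        rw [hE]
        exact ⟨γ, hγ, h.symm⟩
      obtain ⟨t', ht', h'⟩ := h1
      have h2 : t' = t := e.injective h'
      rw [← h2]
      exact ht'
  have hXmem := hD.xBar_iff
  have hEX : yBar Q g ≤ xBar Q ((x : Subgroup.centralizer ({z} : Set G)) : G) := by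
    intro t ht
    obtain ⟨γ, hγ, h⟩ := (hEmem t).mp ht
    exact (hXmem t).mpr ⟨γ, sgnK_le_cross hγ, h⟩
  refine ⟨hEX, ?_, ?_, hcard, ?_⟩
  · intro a ha y hy
    obtain ⟨δ, hδ, h1⟩ := (hXmem a).mp ha
    obtain ⟨γ, hγ, h2⟩ := (hEmem y).mp hy
    refine (hEmem _).mpr ⟨δ * γ * δ⁻¹, sgnK_conj hδ hγ, ?_⟩
    rw [map_mul, map_mul, map_inv, h1, h2]
    rfl
  · constructor
    · refine ⟨⟨fun a b => ?_⟩⟩
      apply Subtype.ext
      apply e.injective
      obtain ⟨γ, hγ, h1⟩ := (hEmem a).mp a.2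
      obtain ⟨γ', hγ', h2⟩ := (hEmem b).mp b.2
      show e ((a : (Subgroup.centralizer ({z} : Set G)) ⧸ Q) * b) = e (b * a)
      rw [map_mul, map_mul, h1, h2, ← QuotientGroup.mk_mul, ← QuotientGroup.mk_mul,
        sgnK_comm hγ hγ']
    · intro a ha
      obtain ⟨γ, hγ, h1⟩ := (hEmem a).mp ha
      apply e.injective
      rw [map_pow, h1, map_one, pow_two, ← QuotientGroup.mk_mul, sgnK_sq hγ]
      rfl
  · obtain ⟨κ, hκ⟩ : ∃ κ : M24 →* (Subgroup.centralizer ({z} : Set G)) ⧸ Q,
        ∀ σ, e (κ σ) = QuotientGroup.mk ((permHom σ : crossSub) : Co0) :=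
      ⟨e.symm.toMonoidHom.comp ((QuotientGroup.mk' (Subgroup.center Co0)).comp
        (crossSub.subtype.comp permHom)), fun σ => e.apply_symm_apply _⟩
    have hκinj : Function.Injective κ := by
      rw [injective_iff_map_eq_one]
      intro σ hσ
      have h1 : (QuotientGroup.mk ((permHom σ : crossSub) : Co0) : Spor.Co1) = 1 := by
        rw [← hκ, hσ, map_one]
      have h2 := (QuotientGroup.eq_one_iff _).mp h1
      rcases center_co0_cases _ h2 with h | h
      · have h3 : permHom σ = 1 := Subtype.ext h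
        rw [← crossPi_permHom σ, h3, map_one]
      · have h3 : permHom σ = ⟨negC, negC_mem_crossSub⟩ := Subtype.ext h
        rw [← crossPi_permHom σ, h3, crossPi_negC]
    have hKX : κ.range ≤ xBar Q ((x : Subgroup.centralizer ({z} : Set G)) : G) := by
      rintro _ ⟨σ, rfl⟩
      exact (hXmem _).mpr ⟨_, (permHom σ).2, hκ σ⟩
    refine ⟨κ.range, hKX, ?_, ?_, ⟨(MonoidHom.ofInjective hκinj).symm⟩⟩
    · rw [eq_bot_iff]
      rintro t ⟨ht1, ⟨σ, rfl⟩⟩
      obtain ⟨γ, hγ, h1⟩ := (hEmem _).mp ht1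
      rw [hκ] at h1
      have h2 : γ⁻¹ * ((permHom σ : crossSub) : Co0) ∈ Subgroup.center Co0 :=
        QuotientGroup.eq.mp h1.symm
      have h3 : ((permHom σ : crossSub) : Co0) ∈ sgnK := by
        rcases center_co0_cases _ h2 with h | h
        · have h4 : ((permHom σ : crossSub) : Co0) = γ := by
            calc ((permHom σ : crossSub) : Co0) = γ * (γ⁻¹ * ((permHom σ : crossSub) : Co0)) := by
                  group
              _ = γ := by rw [h, mul_one]
          rw [h4]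
          exact hγ
        · have h4 : ((permHom σ : crossSub) : Co0) = γ * negC := by
            calc ((permHom σ : crossSub) : Co0) = γ * (γ⁻¹ * ((permHom σ : crossSub) : Co0)) := by
                  group
              _ = γ * negC := by rw [h]
          rw [h4]
          exact mul_mem hγ negC_mem_sgnK
      obtain ⟨hc, h4⟩ := (mem_sgnK_iff _).mp h3
      have h5 : σ = 1 := by
        rw [← crossPi_permHom σ]
        exact h4
      rw [Subgroup.mem_bot, h5, map_one]
    · apply le_antisymm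
      · exact sup_le hEX hKX
      · intro t ht
        obtain ⟨δ, hδ, h1⟩ := (hXmem t).mp ht
        have h2 : (⟨δ, hδ⟩ : crossSub) * (permHom (crossPi ⟨δ, hδ⟩))⁻¹ ∈ crossPi.ker := by
          rw [MonoidHom.mem_ker, map_mul, map_inv, crossPi_permHom, mul_inv_cancel]
        have h3 : δ * ((permHom (crossPi ⟨δ, hδ⟩) : crossSub) : Co0)⁻¹ ∈ sgnK := ⟨_, h2, rfl⟩
        have h4 : t = e.symm (QuotientGroup.mk
            (δ * ((permHom (crossPi ⟨δ, hδ⟩) : crossSub) : Co0)⁻¹)) * κ (crossPi ⟨δ, hδ⟩) := by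
          apply e.injective
          rw [map_mul, hκ, e.apply_symm_apply, h1, ← QuotientGroup.mk_mul]
          congr 1
          group
        rw [h4]
        exact Subgroup.mul_mem_sup ((hEmem _).mpr ⟨_, h3, e.apply_symm_apply _⟩) ⟨_, rfl⟩

end Split

end Cfsg.Agent.Lib.Helper92
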