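-- In a group of Monster type: the centralizer of an involution `t` of `Q` not conjugate to `z`
-- (facts inside the group, before passing to the quotient by `⟨t⟩`).
import Mathlib
import Cfsg.Agent.Lib.Helper92.MonsterSplit
import Cfsg.Agent.S5407
import Cfsg.Agent.Lib.Helper30.Basic

set_option autoImplicit false
open Cfsg
open scoped commutatorElement

namespace Cfsg.Agent.Lib.Helper92

open Cfsg.Agent.S5408 Cfsg.Agent.S5552 Cfsg.Agent.Lib.Helper10 Cfsg.Agent.S5392
  Cfsg.Agent.Lib.Helper9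

/-- An element normalizing an extraspecial 2-group `Q`, commuting with the involution `x` of `Q`
and centralizing `C_Q(x)` modulo `⟨x⟩`, has order dividing 8, if `Q` contains its centralizer. -/
theorem pow_eight_of_xs {C : Type*} [Group C] (Q : Subgroup C) [hQn : Q.Normal] {ζ : Q}
    (hX : XS Q ζ) (hcq : ∀ c : C, (∀ q : Q, c * (q : C) = (q : C) * c) → c ∈ Q) (x : Q)
    (hxx : x * x = 1) (d : C) (hd : d * (x : C) = (x : C) * d)
    (hc : ∀ r : Q, r * x = x * r → d * (r : C) * d⁻¹ = r ∨ d * (r : C) * d⁻¹ = (r : C) * x) :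
    d ^ 8 = 1 := by
  have hxxC : (x : C) * x = 1 := congrArg Subtype.val hxx
  have hdx : d * (x : C) * d⁻¹ = x := by
    rw [hd]
    group
  obtain ⟨a, ha⟩ : ∃ a : C, a = d * d := ⟨_, rfl⟩
  have h2 : ∀ r : Q, r * x = x * r → a * (r : C) * a⁻¹ = r := by
    intro r hr
    rw [ha]
    rcases hc r hr with h | h
    · calc d * d * (r : C) * (d * d)⁻¹ = d * (d * r * d⁻¹) * d⁻¹ := by group
        _ = r := by rw [h, h]
    · calc d * d * (r : C) * (d * d)⁻¹ = d * (d * r * d⁻¹) * d⁻¹ := by group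
        _ = d * ((r : C) * x) * d⁻¹ := by rw [h]
        _ = (d * r * d⁻¹) * (d * x * d⁻¹) := by group
        _ = (r : C) * x * x := by rw [h, hdx]
        _ = r := by rw [mul_assoc, hxxC, mul_one]
  have hinv : ∀ q : Q, cmv q⁻¹ x = cmv q x := by
    intro q
    have h1 := cmv_mul_left hX q q⁻¹ x
    rw [mul_inv_cancel, (cmv_eq_zero_iff 1 x).mpr (by rw [one_mul, mul_one])] at h1
    have key : ∀ u v : ZMod 2, 0 = u + v → v = u := by decide
    exact key _ _ h1
  have h4 : ∀ q : Q, a * a * (q : C) = (q : C) * (a * a) := by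
    intro q
    obtain ⟨q', hq'⟩ : ∃ q' : Q, (q' : C) = a * q * a⁻¹ := ⟨⟨_, hQn.conj_mem q q.2 a⟩, rfl⟩
    have hm : ∀ t : Q, t * x = x * t → t * (q⁻¹ * q') = (q⁻¹ * q') * t := by
      intro t ht
      have hr' : (q * t * q⁻¹) * x = x * (q * t * q⁻¹) := by
        rw [← cmv_eq_zero_iff, cmv_mul_left hX, cmv_mul_left hX, (cmv_eq_zero_iff t x).mpr ht,
          hinv, add_zero]
        have key : ∀ u : ZMod 2, u + u = 0 := by decide
        exact key _
      have h5 : a * ((q : C) * t * (q : C)⁻¹) * a⁻¹ = (q : C) * t * (q : C)⁻¹ :=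
        h2 (q * t * q⁻¹) hr'
      have h6 := h2 t ht
      apply Subtype.ext
      show (t : C) * ((q : C)⁻¹ * q') = (q : C)⁻¹ * q' * t
      rw [hq']
      calc (t : C) * ((q : C)⁻¹ * (a * q * a⁻¹))
          = (q : C)⁻¹ * ((q : C) * t * (q : C)⁻¹) * (a * q * a⁻¹) := by group
        _ = (q : C)⁻¹ * (a * ((q : C) * t * (q : C)⁻¹) * a⁻¹) * (a * q * a⁻¹) := by rw [h5]
        _ = (q : C)⁻¹ * (a * q * a⁻¹) * (a * t * a⁻¹) := by group
        _ = (q : C)⁻¹ * (a * q * a⁻¹) * t := by rw [h6]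
    obtain ⟨m, hmdef⟩ : ∃ m : Q, m = q⁻¹ * q' := ⟨_, rfl⟩
    rw [← hmdef] at hm
    have hmm : m * m = 1 ∧ m * x = x * m := by
      rcases double_centralizer hX x m hm with h | h | h | h
      · rw [h]
        exact ⟨one_mul 1, by rw [one_mul, mul_one]⟩
      · rw [h]
        exact ⟨hX.sq, (hX.cen x).symm⟩
      · rw [h]
        exact ⟨hxx, rfl⟩
      · rw [h]
        constructor
        · calc x * ζ * (x * ζ) = x * (ζ * x) * ζ := by group
            _ = x * (x * ζ) * ζ := by rw [hX.cen x]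
            _ = (x * x) * (ζ * ζ) := by group
            _ = 1 := by rw [hxx, hX.sq, one_mul]
        · calc x * ζ * x = x * (ζ * x) := by group
            _ = x * (x * ζ) := by rw [hX.cen x]
    have hma : a * (m : C) * a⁻¹ = m := h2 m hmm.2
    have hmmC : (m : C) * m = 1 := congrArg Subtype.val hmm.1
    have hq'' : a * (q : C) * a⁻¹ = (q : C) * m := by
      rw [← hq', hmdef]
      show (q' : C) = (q : C) * ((q : C)⁻¹ * q')
      group
    calc a * a * (q : C) = a * (a * q * a⁻¹) * a := by group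
      _ = a * ((q : C) * m) * a := by rw [hq'']
      _ = (a * q * a⁻¹) * (a * m * a⁻¹) * (a * a) := by group
      _ = (q : C) * m * m * (a * a) := by rw [hq'', hma]
      _ = (q : C) * (a * a) := by rw [mul_assoc (q : C), hmmC, mul_one]
  have h5 : a * a ∈ Q := hcq _ h4
  have h6 : (⟨a * a, h5⟩ : Q) = 1 ∨ (⟨a * a, h5⟩ : Q) = ζ := by
    apply hX.ctr
    rw [Subgroup.mem_center_iff]
    intro q
    apply Subtype.ext
    exact (h4 q).symm
  have h7 : a * a * (a * a) = 1 := by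
    rcases h6 with h | h
    · have h8 : a * a = 1 := congrArg Subtype.val h
      rw [h8, one_mul]
    · have h8 : a * a = (ζ : C) := congrArg Subtype.val h
      rw [h8]
      exact congrArg Subtype.val hX.sq
  rw [← h7, ha]
  simp only [pow_succ, pow_zero, one_mul, mul_assoc]

section Baby
variable {G : Type*} [Group G] {z : G} {Q : Subgroup (Subgroup.centralizer ({z} : Set G))}
  [Q.Normal] {e : (Subgroup.centralizer ({z} : Set G)) ⧸ Q ≃* Spor.Co1}
  {ψ : leechLattice → Q ⧸ Subgroup.center Q} {ζ : Q}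

/-- the commutator pairing of `Q` is the inner product modulo 2 -/
theorem MS.cmv_eq (hM : MS z Q e ψ ζ) (v w : leechLattice) (a b : Q)
    (hv : ψ v = QuotientGroup.mk a) (hw : ψ w = QuotientGroup.mk b) : cmv a b = b0 v w := by
  rw [cmv_of_mk hM.xs ψ v w a b hv hw]
  have h1 := (qform_of_xs hM.xs ψ hM.ψ1).q_add v w
  have h2 := qform0.q_add v w
  rw [hM.qeq, hM.qeq, hM.qeq, h2] at h1
  exact (add_left_cancel h1).symm

/-- an automorphism fixing the class of a minimal vector sends it to itself or its negative -/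
theorem MS.pm_of_class (hM : MS z Q e ψ ζ) (v : leechLattice)
    (hv : sqNorm (v : GolayPt → ℤ) = 32) (γ : Co0) (h1 : ψ (γ • v) = ψ v) :
    γ • v = v ∨ γ • v = -v := by
  by_cases hne : ((γ • v : leechLattice) : GolayPt → ℤ) = (v : GolayPt → ℤ)
  · exact Or.inl (Subtype.ext hne)
  · right
    have hn : sqNorm ((γ • v : leechLattice) : GolayPt → ℤ) = 32 := by rw [co0_norm, hv]
    rcases Cfsg.Agent.S5592.result _ _ (γ • v).2 v.2 hne (by rw [hn]; norm_num)
      (by rw [hv]; norm_num) (hM.ψ_eq _ _ h1) with h3 | ⟨h3, -, -⟩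
    · exact Subtype.ext h3
    · rw [hn] at h3
      exact absurd h3 (by norm_num)

/-- the hypotheses for the centralizer of an involution of `Q` not conjugate to `z`, in standard
position -/
structure BabyData (z : G) (Q : Subgroup (Subgroup.centralizer ({z} : Set G))) [Q.Normal]
    (e : (Subgroup.centralizer ({z} : Set G)) ⧸ Q ≃* Spor.Co1)
    (ψ : leechLattice → Q ⧸ Subgroup.center Q) (ζ x : Q) : Prop where
  mt : Cfsg.IsOfMonsterType z Q
  ms : MS z Q e ψ ζ
  hx : ψ Spor.leechU = QuotientGroup.mk x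

variable {x : Q}

theorem BabyData.xc (hB : BabyData z Q e ψ ζ x) : x ∉ Subgroup.center Q :=
  hB.ms.noncentral Spor.leechU x hB.hx (Or.inl nUvec)

theorem BabyData.xx (hB : BabyData z Q e ψ ζ x) : x * x = 1 := by
  rw [hB.ms.sq_iff Spor.leechU x hB.hx]
  unfold q0
  have h : sqNorm ((Spor.leechU : leechLattice) : GolayPt → ℤ) = 32 := nUvec
  rw [h]
  decide

theorem BabyData.nconj [Finite G] (hB : BabyData z Q e ψ ζ x) :
    ¬ IsConj z ((x : Subgroup.centralizer ({z} : Set G)) : G) :=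
  not_conj_of_norm32 hB.ms x Spor.leechU nUvec hB.hx

theorem BabyData.hxζ (hB : BabyData z Q e ψ ζ x) :
    ψ Spor.leechU = QuotientGroup.mk (ζ * x) := by
  rw [hB.hx, QuotientGroup.mk_mul, (hB.ms.mk_eq_one_iff ζ).mpr (Or.inr rfl), one_mul]

theorem BabyData.nconj' [Finite G] (hB : BabyData z Q e ψ ζ x) :
    ¬ IsConj z (((ζ * x : Q) : Subgroup.centralizer ({z} : Set G)) : G) :=
  not_conj_of_norm32 hB.ms (ζ * x) Spor.leechU nUvec hB.hxζ

theorem BabyData.cq [Finite G] (hB : BabyData z Q e ψ ζ x)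
    (c : Subgroup.centralizer ({z} : Set G))
    (hc : ∀ q : Q, c * (q : Subgroup.centralizer ({z} : Set G)) = q * c) : c ∈ Q := by
  obtain ⟨hS, -⟩ := hB.mt
  obtain ⟨-, hF, -⟩ := hS
  have h1 := Cfsg.Agent.Lib.Helper30.centralizer_genFitting_le
    (G := ↥(Subgroup.centralizer ({z} : Set G)))
  rw [hF] at h1
  apply h1
  rw [Subgroup.mem_centralizer_iff]
  intro q hq
  exact (hc ⟨q, hq⟩).symm

/-- An element of `C_G(z) ∩ C_G(x)` induces a lattice automorphism fixing `(4, 4, 0, …)`. -/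
theorem BabyData.exists_lift (hB : BabyData z Q e ψ ζ x)
    (d : Subgroup.centralizer ({z} : Set G))
    (hd : d * (x : Subgroup.centralizer ({z} : Set G)) = x * d) :
    ∃ γ : Co0, γ • Spor.leechU = Spor.leechU ∧
      (QuotientGroup.mk γ : Spor.Co1) = e (QuotientGroup.mk d) := by
  have hM := hB.ms
  obtain ⟨γ0, hγ0⟩ := QuotientGroup.mk_surjective (e (QuotientGroup.mk d))
  have h1 := hM.ψ4 d γ0 hγ0 Spor.leechU x hB.hx
  have h2 : (⟨d * x * d⁻¹, (inferInstance : Q.Normal).conj_mem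
      (x : Subgroup.centralizer ({z} : Set G)) x.2 d⟩ : Q) = x := by
    apply Subtype.ext
    show d * (x : Subgroup.centralizer ({z} : Set G)) * d⁻¹ = x
    rw [hd]
    group
  rw [h2, ← hB.hx] at h1
  rcases hM.pm_of_class Spor.leechU nUvec γ0 h1 with h3 | h3
  · exact ⟨γ0, h3, hγ0⟩
  · refine ⟨negC * γ0, ?_, ?_⟩
    · rw [mul_smul, h3, negC_smul, neg_neg]
    · rw [QuotientGroup.mk_mul, (QuotientGroup.eq_one_iff _).mpr negC_mem_center, one_mul, hγ0]

theorem lift_unique (γ γ' : Co0) (h : γ • Spor.leechU = Spor.leechU)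
    (h' : γ' • Spor.leechU = Spor.leechU)
    (hm : (QuotientGroup.mk γ : Spor.Co1) = QuotientGroup.mk γ') : γ = γ' := by
  have h1 : γ⁻¹ * γ' ∈ Subgroup.center Co0 := QuotientGroup.eq.mp hm
  rcases center_co0_cases _ h1 with h2 | h2
  · exact (inv_mul_eq_one.mp h2)
  · exfalso
    have h3 : (γ⁻¹ * γ') • Spor.leechU = Spor.leechU := by
      rw [mul_smul, h', inv_smul_eq_iff, h]
    rw [h2, negC_smul] at h3
    have h4 := congrFun (congrArg Subtype.val h3) none
    have h5 : -(Spor.vecU none) = Spor.vecU none := h4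
    revert h5
    decide

/-- An element of `C_G(z) ∩ C_G(x)` centralizing `C_Q(x)` modulo `⟨x⟩` has order dividing 8. -/
theorem BabyData.pow_eight [Finite G] (hB : BabyData z Q e ψ ζ x)
    (d : Subgroup.centralizer ({z} : Set G))
    (hd : d * (x : Subgroup.centralizer ({z} : Set G)) = x * d)
    (hc : ∀ r : Q, r * x = x * r → d * (r : Subgroup.centralizer ({z} : Set G)) * d⁻¹ = r ∨
      d * (r : Subgroup.centralizer ({z} : Set G)) * d⁻¹ =
        (r : Subgroup.centralizer ({z} : Set G)) * x) : d ^ 8 = 1 :=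
  pow_eight_of_xs Q hB.ms.xs hB.cq x hB.xx d hd hc

end Baby

/-- the lattice vector with `2` on the octad `{0, 4, 6, 13, 15, 20, 21, ∞}` -/
def wOct : leechLattice :=
  ⟨fun j : GolayPt => if (11575377 : ℕ).testBit (idx j) then (2 : ℤ) else 0,
    mem_LL_of (two_mask_mem (μ := 11575377) (mem_sums_of_inCode (by decide +kernel)))⟩

theorem c0_mem : Cfsg.Agent.Lib.Helper36.ms 8536111 ∈ gsup :=
  ms_mem_gsup (μ := 8536111) (by decide +kernel)

/-- the sign change on the octad `{0, 1, 2, 3, 5, 14, 17, ∞}` -/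
def epsOct : crossSub := monoC 1 (one_mem _) (Cfsg.Agent.Lib.Helper36.ms 8536111) c0_mem

theorem epsOct_mem : (epsOct : Co0) ∈ sgnK :=
  (mem_sgnK_iff _).mpr ⟨epsOct.2, crossPi_monoC _ _ _ _⟩

theorem wOct_key : ∀ q : GolayPt,
    (if (11575377 : ℕ).testBit (idx q) then (2 : ℤ) else 0) +
      (if (8536111 : ℕ).testBit (idx q) = true
        then -(-(if (11575377 : ℕ).testBit (idx q) then (2 : ℤ) else 0))
        else -(if (11575377 : ℕ).testBit (idx q) then (2 : ℤ) else 0)) = Spor.vecU q := by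
  decide +kernel

theorem wOct_eps : wOct + (epsOct : Co0) • (-wOct) = Spor.leechU := by
  apply Subtype.ext
  have h1 : (((epsOct : Co0) • (-wOct) : leechLattice) : GolayPt → ℤ) =
      signedPerm 1 (Cfsg.Agent.Lib.Helper36.ms 8536111) ((-wOct : leechLattice) : GolayPt → ℤ) :=
    monoPerm_apply _ _ _ _ _
  show (wOct : GolayPt → ℤ) + (((epsOct : Co0) • (-wOct) : leechLattice) : GolayPt → ℤ) =
    Spor.vecU
  rw [h1]
  funext q
  rw [Pi.add_apply, signedPerm_one]
  have hk := wOct_key q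
  by_cases hq : q ∈ Cfsg.Agent.Lib.Helper36.ms 8536111
  · rw [if_pos hq]
    rw [if_pos ((Cfsg.Agent.Lib.Helper36.mem_ms _ _).mp hq)] at hk
    exact hk
  · rw [if_neg hq]
    rw [if_neg (fun h => hq ((Cfsg.Agent.Lib.Helper36.mem_ms _ _).mpr h))] at hk
    exact hk

theorem b0_wOct : b0 wOct (axisVec none) = 0 := by
  unfold b0
  rw [dot_axis]
  have h : ((wOct : leechLattice) : GolayPt → ℤ) none = 2 := by decide +kernel
  rw [h]
  decide

section Fuse
variable {G : Type*} [Group G] {z : G} {Q : Subgroup (Subgroup.centralizer ({z} : Set G))}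
  [Q.Normal] {e : (Subgroup.centralizer ({z} : Set G)) ⧸ Q ≃* Spor.Co1}
  {ψ : leechLattice → Q ⧸ Subgroup.center Q} {ζ : Q} {x : Q}

/-- Some element of `C_G(x)` conjugates `z` to an element of `C_Q(x)` outside `⟨z, x⟩`. -/
theorem BabyData.exists_fuse [Finite G] (hB : BabyData z Q e ψ ζ x) :
    ∃ (g : G) (s : Q), g * ((x : Subgroup.centralizer ({z} : Set G)) : G) = (x : G) * g ∧
      g * z * g⁻¹ = ((s : Subgroup.centralizer ({z} : Set G)) : G) ∧
      s * x = x * s ∧ s ≠ ζ ∧ s ≠ ζ * x := by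
  have hM := hB.ms
  have hψ : Cfsg.IsLeechModTwoIso Q e ψ := ⟨hM.ψ1, hM.ψ2, hM.ψ3, hM.ψ4⟩
  obtain ⟨s, hs⟩ : ∃ s : Q, ψ (axisVec none) = QuotientGroup.mk s :=
    ⟨lift ψ (axisVec none), (mk_lift ψ _).symm⟩
  have hsconj := (Cfsg.Agent.S5407.result z Q hB.mt e ψ hψ s).mpr
    ⟨axisVec none, axis_norm none, hs⟩
  obtain ⟨k, hk⟩ := isConj_iff.mp hsconj.1
  have hD : MeetData z Q e ψ ζ s k := ⟨hM, hs, hk⟩
  haveI : Finite Co0 := co0_finite
  have hE : (yBar Q k).map e.toMonoidHom =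
      sgnK.map (QuotientGroup.mk' (Subgroup.center Co0)) := by
    apply Subgroup.eq_of_le_of_card_ge hD.yBar_le
    have h6 : Nat.card ((yBar Q k).map e.toMonoidHom) = Nat.card (yBar Q k) :=
      Subgroup.card_map_of_injective e.injective
    rw [h6, hD.card_yBar]
    exact card_sgnK_map_le.trans (by norm_num)
  have h1 : (QuotientGroup.mk (epsOct : Co0) : Spor.Co1) ∈ (yBar Q k).map e.toMonoidHom := by
    rw [hE]
    exact ⟨_, epsOct_mem, rfl⟩
  obtain ⟨tb, htb, htbe⟩ := h1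
  obtain ⟨p, p', rfl, hpp'⟩ := (mem_yBar_iff tb).mp htb
  have hpe : (QuotientGroup.mk (epsOct : Co0) : Spor.Co1) = e (QuotientGroup.mk p) := htbe.symm
  obtain ⟨r, hr⟩ : ∃ r : Q, ψ wOct = QuotientGroup.mk r := ⟨lift ψ wOct, (mk_lift ψ _).symm⟩
  have hrs : r * s = s * r := by
    rw [← cmv_eq_zero_iff, hM.cmv_eq wOct (axisVec none) r s hr hs]
    exact b0_wOct
  have hrinv : ψ (-wOct) = QuotientGroup.mk r⁻¹ := by
    have h2 : ψ (-wOct) * ψ wOct = 1 := by rw [← hM.ψ1, neg_add_cancel, hM.ψ0]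
    rw [hr] at h2
    rw [QuotientGroup.mk_inv]
    exact eq_inv_of_mul_eq_one_left h2
  have h3 := hM.ψ4 p (epsOct : Co0) hpe (-wOct) r⁻¹ hrinv
  obtain ⟨y, hy⟩ : ∃ y : Q, y = r * ⟨p * ((r⁻¹ : Q) : Subgroup.centralizer ({z} : Set G)) * p⁻¹,
      (inferInstance : Q.Normal).conj_mem _ (r⁻¹).2 p⟩ := ⟨_, rfl⟩
  have hymk : ψ Spor.leechU = QuotientGroup.mk y := by
    rw [hy, QuotientGroup.mk_mul, ← h3, ← hr, ← hM.ψ1, wOct_eps]
  have hyx : y = x ∨ y = x * ζ := by
    have h4 : (QuotientGroup.mk x : Q ⧸ Subgroup.center Q) = QuotientGroup.mk y := by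
      rw [← hB.hx, hymk]
    rcases hM.xs.ctr _ (QuotientGroup.eq.mp h4) with h5 | h5
    · left
      exact (inv_mul_eq_one.mp h5).symm
    · right
      rw [← h5]
      group
  have hrsG : ((r : Subgroup.centralizer ({z} : Set G)) : G) * (s : G) = (s : G) * r :=
    congrArg (incl Q) hrs
  obtain ⟨p'', hp''⟩ := hD.conj_P _ hrsG p'
  have hyP : ((y : Subgroup.centralizer ({z} : Set G)) : G) =
      k * (((p'' * p'⁻¹ : Q) : Subgroup.centralizer ({z} : Set G)) : G) * k⁻¹ := by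
    rw [hy]
    show ((r : Subgroup.centralizer ({z} : Set G)) : G) * ((p : G) * (r : G)⁻¹ * (p : G)⁻¹) =
      k * (((p'' : Subgroup.centralizer ({z} : Set G)) : G) * (p' : G)⁻¹) * k⁻¹
    rw [hpp']
    calc ((r : Subgroup.centralizer ({z} : Set G)) : G) *
          (k * (p' : G) * k⁻¹ * (r : G)⁻¹ * (k * (p' : G) * k⁻¹)⁻¹)
        = ((r : G) * (k * (p' : G) * k⁻¹) * (r : G)⁻¹) * (k * (p' : G)⁻¹ * k⁻¹) := by group
      _ = (k * (p'' : G) * k⁻¹) * (k * (p' : G)⁻¹ * k⁻¹) := by rw [hp'']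
      _ = k * (((p'' : Subgroup.centralizer ({z} : Set G)) : G) * (p' : G)⁻¹) * k⁻¹ := by group
  obtain ⟨b, hb⟩ := hD.z_mem
  obtain ⟨q0, hq0⟩ : ∃ q0 : Q, ((x : Subgroup.centralizer ({z} : Set G)) : G) =
      k * ((q0 : Subgroup.centralizer ({z} : Set G)) : G) * k⁻¹ := by
    rcases hyx with h | h
    · exact ⟨p'' * p'⁻¹, by rw [← h]; exact hyP⟩
    · refine ⟨p'' * p'⁻¹ * b, ?_⟩
      have h5 : ((x : Subgroup.centralizer ({z} : Set G)) : G) =
          ((y : Subgroup.centralizer ({z} : Set G)) : G) * z := by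
        rw [h]
        show ((x : Subgroup.centralizer ({z} : Set G)) : G) =
          (x : G) * ((ζ : Subgroup.centralizer ({z} : Set G)) : G) * z
        rw [hM.ζz, mul_assoc, hM.zz, mul_one]
      rw [h5, hyP]
      show k * (((p'' : Subgroup.centralizer ({z} : Set G)) : G) * (p' : G)⁻¹) * k⁻¹ * z =
        k * ((p'' : G) * (p' : G)⁻¹ * (b : G)) * k⁻¹
      calc k * (((p'' : Subgroup.centralizer ({z} : Set G)) : G) * (p' : G)⁻¹) * k⁻¹ * z
          = k * ((p'' : G) * (p' : G)⁻¹) * k⁻¹ * (k * (b : G) * k⁻¹) := by rw [hb]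
        _ = k * ((p'' : G) * (p' : G)⁻¹ * (b : G)) * k⁻¹ := by group
  have hxxG : ((x : Subgroup.centralizer ({z} : Set G)) : G) * (x : G) = 1 :=
    congrArg (incl Q) hB.xx
  have hx1 : ((x : Subgroup.centralizer ({z} : Set G)) : G) ≠ 1 := by
    intro h
    apply hB.xc
    have h9 : x = 1 := incl_injective (by rw [map_one]; exact h)
    rw [h9]
    exact one_mem _
  have hq0x : ((q0 : Subgroup.centralizer ({z} : Set G)) : G) = k⁻¹ * (x : G) * k := by
    rw [hq0]
    group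
  have hx2 : orderOf ((x : Subgroup.centralizer ({z} : Set G)) : G) = 2 := by
    apply orderOf_eq_prime
    · rw [pow_two]
      exact hxxG
    · exact hx1
  have hq02 : orderOf ((q0 : Subgroup.centralizer ({z} : Set G)) : G) = 2 := by
    apply orderOf_eq_prime
    · rw [pow_two, hq0x]
      calc k⁻¹ * (x : G) * k * (k⁻¹ * (x : G) * k) = k⁻¹ * ((x : G) * (x : G)) * k := by group
        _ = 1 := by rw [hxxG]; group
    · intro h
      apply hx1
      rw [hq0, h]
      group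
  have hncq0 : ¬ IsConj z ((q0 : Subgroup.centralizer ({z} : Set G)) : G) := by
    intro h
    apply hB.nconj
    exact h.trans (isConj_iff.mpr ⟨k, hq0.symm⟩)
  obtain ⟨h, hhC, hh⟩ := Cfsg.Agent.S5411.result z Q hB.mt
    ((q0 : Subgroup.centralizer ({z} : Set G)) : G)
    ((x : Subgroup.centralizer ({z} : Set G)) : G)
    ⟨(q0 : Subgroup.centralizer ({z} : Set G)).2, q0.2⟩
    ⟨(x : Subgroup.centralizer ({z} : Set G)).2, x.2⟩ hq02 hx2 hncq0 hB.nconj
  refine ⟨k * h⁻¹, s, ?_, ?_, ?_, ?_, ?_⟩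
  · have h6 : h⁻¹ * ((x : Subgroup.centralizer ({z} : Set G)) : G) * h = (q0 : G) := by
      rw [← hh]
      group
    calc k * h⁻¹ * ((x : Subgroup.centralizer ({z} : Set G)) : G)
        = k * (h⁻¹ * (x : G) * h) * k⁻¹ * (k * h⁻¹) := by group
      _ = (x : G) * (k * h⁻¹) := by rw [h6, ← hq0]
  · have h7 : h⁻¹ * z * h = z := by
      have h8 := Subgroup.mem_centralizer_iff.mp hhC z rfl
      rw [mul_assoc, h8, inv_mul_cancel_left]
    calc k * h⁻¹ * z * (k * h⁻¹)⁻¹ = k * (h⁻¹ * z * h) * k⁻¹ := by group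
      _ = ((s : Subgroup.centralizer ({z} : Set G)) : G) := by rw [h7, hk]
  · apply incl_injective
    rw [map_mul, map_mul]
    show ((s : Subgroup.centralizer ({z} : Set G)) : G) * (x : G) = (x : G) * (s : G)
    rw [hq0]
    exact (hD.comm_s q0).symm
  · intro h8
    exact hsconj.2 (by rw [h8, hM.ζz])
  · intro h8
    apply hB.nconj'
    rw [← h8]
    exact hsconj.1

end Fuse

end Cfsg.Agent.Lib.Helper92
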