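-- In a group of Monster type: the centralizer of an involution `t` of `Q` not conjugate to `z`,
-- modulo `⟨t⟩`, is of Baby Monster type.  Part 2: the homomorphisms.
import Mathlib
import Cfsg.Agent.Lib.Helper92.MonsterBaby1

set_option autoImplicit false
open Cfsg
open scoped commutatorElement

namespace Cfsg.Agent.Lib.Helper92

open Cfsg.Agent.S5408 Cfsg.Agent.S5552 Cfsg.Agent.Lib.Helper10 Cfsg.Agent.S5392
  Cfsg.Agent.Lib.Helper9

section QuotGen
variable {G : Type*} [Group G] (z t : G)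

/-- `C_G(z) ∩ C_G(t)` -/
def dSub : Subgroup G :=
  Subgroup.centralizer ({z} : Set G) ⊓ Subgroup.centralizer ({t} : Set G)

theorem mem_cent_iff' {a y : G} : y ∈ Subgroup.centralizer ({a} : Set G) ↔ y * a = a * y := by
  rw [Subgroup.mem_centralizer_iff]
  constructor
  · intro h
    exact (h a rfl).symm
  · intro h b hb
    rw [Set.mem_singleton_iff.mp hb]
    exact h.symm

theorem mem_dSub {d : G} : d ∈ dSub z t ↔ d * z = z * d ∧ d * t = t * d := by
  unfold dSub
  rw [Subgroup.mem_inf, mem_cent_iff', mem_cent_iff']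

theorem dSub_le_left : dSub z t ≤ Subgroup.centralizer ({z} : Set G) := inf_le_left

theorem dSub_le_right : dSub z t ≤ Subgroup.centralizer ({t} : Set G) := inf_le_right

theorem mem_zpowers_invol {t : G} (ht : t * t = 1) (y : G) :
    y ∈ Subgroup.zpowers t ↔ y = 1 ∨ y = t := by
  constructor
  · intro h
    obtain ⟨k, rfl⟩ := Subgroup.mem_zpowers_iff.mp h
    rcases Int.even_or_odd k with ⟨m, hm⟩ | ⟨m, hm⟩
    · left
      rw [hm, ← two_mul, zpow_mul, zpow_two, ht, one_zpow]
    · right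
      rw [hm, zpow_add, zpow_mul, zpow_two, ht, one_zpow, one_mul, zpow_one]
  · rintro (rfl | rfl)
    · exact one_mem _
    · exact Subgroup.mem_zpowers _

variable [hn : ((Subgroup.zpowers t).subgroupOf (Subgroup.centralizer ({t} : Set G))).Normal]

/-- the image of `z` in `C_G(t) / ⟨t⟩` -/
def zBar (hzt : z * t = t * z) : ↥(Subgroup.centralizer ({t} : Set G)) ⧸
    (Subgroup.zpowers t).subgroupOf (Subgroup.centralizer ({t} : Set G)) :=
  QuotientGroup.mk ⟨z, mem_cent_iff'.mpr hzt⟩

/-- the projection of `C_G(z) ∩ C_G(t)` to the centralizer of the image of `z` in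
`C_G(t) / ⟨t⟩` -/
def piHom (hzt : z * t = t * z) :
    dSub z t →* Subgroup.centralizer ({zBar z t hzt} : Set (↥(Subgroup.centralizer ({t} : Set G)) ⧸
      (Subgroup.zpowers t).subgroupOf (Subgroup.centralizer ({t} : Set G)))) :=
  MonoidHom.codRestrict ((QuotientGroup.mk'
    ((Subgroup.zpowers t).subgroupOf (Subgroup.centralizer ({t} : Set G)))).comp
      (Subgroup.inclusion (dSub_le_right z t))) _ (by
    intro d
    rw [mem_cent_iff']
    show (QuotientGroup.mk (Subgroup.inclusion (dSub_le_right z t) d) :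
        ↥(Subgroup.centralizer ({t} : Set G)) ⧸
          (Subgroup.zpowers t).subgroupOf (Subgroup.centralizer ({t} : Set G))) *
      QuotientGroup.mk (⟨z, mem_cent_iff'.mpr hzt⟩ : ↥(Subgroup.centralizer ({t} : Set G))) =
      QuotientGroup.mk (⟨z, mem_cent_iff'.mpr hzt⟩ : ↥(Subgroup.centralizer ({t} : Set G))) *
        QuotientGroup.mk (Subgroup.inclusion (dSub_le_right z t) d)
    rw [← QuotientGroup.mk_mul, ← QuotientGroup.mk_mul]
    congr 1
    apply Subtype.ext
    exact ((mem_dSub z t).mp d.2).1)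

theorem piHom_val (hzt : z * t = t * z) (d : dSub z t) :
    ((piHom z t hzt d : Subgroup.centralizer ({zBar z t hzt} : Set _)) :
      ↥(Subgroup.centralizer ({t} : Set G)) ⧸
        (Subgroup.zpowers t).subgroupOf (Subgroup.centralizer ({t} : Set G))) =
      QuotientGroup.mk (Subgroup.inclusion (dSub_le_right z t) d) := rfl

theorem piHom_surjective (hzt : z * t = t * z) (ht : t * t = 1)
    (hnc : ∀ h : G, h * z * h⁻¹ ≠ t * z) : Function.Surjective (piHom z t hzt) := by
  rintro ⟨kb, hkb⟩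
  obtain ⟨h, rfl⟩ := QuotientGroup.mk_surjective kb
  rw [mem_cent_iff'] at hkb
  have h1 : (QuotientGroup.mk (h * ⟨z, mem_cent_iff'.mpr hzt⟩) : _ ⧸
      (Subgroup.zpowers t).subgroupOf (Subgroup.centralizer ({t} : Set G))) =
      QuotientGroup.mk (⟨z, mem_cent_iff'.mpr hzt⟩ * h) := hkb
  rw [QuotientGroup.eq] at h1
  have h2 : ((h : G) * z)⁻¹ * (z * h) ∈ Subgroup.zpowers t := h1
  rcases (mem_zpowers_invol ht _).mp h2 with h3 | h3
  · have h4 : (h : G) * z = z * h := inv_mul_eq_one.mp h3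
    refine ⟨⟨h, (mem_dSub z t).mpr ⟨h4, mem_cent_iff'.mp h.2⟩⟩, ?_⟩
    apply Subtype.ext
    rfl
  · exfalso
    apply hnc (h : G)⁻¹
    calc (h : G)⁻¹ * z * (h : G)⁻¹⁻¹ = z * (((h : G) * z)⁻¹ * (z * h)) := by group
      _ = z * t := by rw [h3]
      _ = t * z := hzt

theorem piHom_eq_one_iff (hzt : z * t = t * z) (ht : t * t = 1) (d : dSub z t) :
    piHom z t hzt d = 1 ↔ (d : G) = 1 ∨ (d : G) = t := by
  rw [← mem_zpowers_invol ht]
  constructor
  · intro h
    have h1 : (QuotientGroup.mk (Subgroup.inclusion (dSub_le_right z t) d) :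
        _ ⧸ (Subgroup.zpowers t).subgroupOf (Subgroup.centralizer ({t} : Set G))) = 1 :=
      congrArg Subtype.val h
    have h2 : Subgroup.inclusion (dSub_le_right z t) d ∈
        (Subgroup.zpowers t).subgroupOf (Subgroup.centralizer ({t} : Set G)) :=
      (QuotientGroup.eq_one_iff _).mp h1
    exact h2
  · intro h
    apply Subtype.ext
    have h2 : Subgroup.inclusion (dSub_le_right z t) d ∈
        (Subgroup.zpowers t).subgroupOf (Subgroup.centralizer ({t} : Set G)) := h
    exact (QuotientGroup.eq_one_iff _).mpr h2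

end QuotGen

section QuotBaby
variable {G : Type*} [Group G] {z : G} {Q : Subgroup (Subgroup.centralizer ({z} : Set G))}
  [Q.Normal] {e : (Subgroup.centralizer ({z} : Set G)) ⧸ Q ≃* Spor.Co1}
  {ψ : leechLattice → Q ⧸ Subgroup.center Q} {ζ : Q} {x : Q}

/-- the inclusion of `C_G(z) ∩ C_G(x)` in `C_G(z)` -/
def dC (x : Q) : dSub z ((x : Subgroup.centralizer ({z} : Set G)) : G) →*
    Subgroup.centralizer ({z} : Set G) :=
  Subgroup.inclusion (dSub_le_left z _)

theorem dC_val (d : dSub z ((x : Subgroup.centralizer ({z} : Set G)) : G)) :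
    ((dC x d : Subgroup.centralizer ({z} : Set G)) : G) = d := rfl

theorem dC_comm (d : dSub z ((x : Subgroup.centralizer ({z} : Set G)) : G)) :
    dC x d * (x : Subgroup.centralizer ({z} : Set G)) = x * dC x d :=
  Subtype.ext ((mem_dSub _ _).mp d.2).2

/-- the lattice automorphism fixing `(4, 4, 0, …)` induced by an element of
`C_G(z) ∩ C_G(x)` -/
noncomputable def BabyData.liftCo (hB : BabyData z Q e ψ ζ x)
    (d : dSub z ((x : Subgroup.centralizer ({z} : Set G)) : G)) : Co0 :=
  Classical.choose (hB.exists_lift (dC x d) (dC_comm d))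

theorem BabyData.liftCo_fix (hB : BabyData z Q e ψ ζ x)
    (d : dSub z ((x : Subgroup.centralizer ({z} : Set G)) : G)) :
    hB.liftCo d • Spor.leechU = Spor.leechU :=
  (Classical.choose_spec (hB.exists_lift (dC x d) (dC_comm d))).1

theorem BabyData.liftCo_mk (hB : BabyData z Q e ψ ζ x)
    (d : dSub z ((x : Subgroup.centralizer ({z} : Set G)) : G)) :
    (QuotientGroup.mk (hB.liftCo d) : Spor.Co1) = e (QuotientGroup.mk (dC x d)) :=
  (Classical.choose_spec (hB.exists_lift (dC x d) (dC_comm d))).2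

theorem BabyData.liftCo_eq (hB : BabyData z Q e ψ ζ x)
    (d : dSub z ((x : Subgroup.centralizer ({z} : Set G)) : G)) (γ : Co0)
    (h1 : γ • Spor.leechU = Spor.leechU)
    (h2 : (QuotientGroup.mk γ : Spor.Co1) = e (QuotientGroup.mk (dC x d))) :
    hB.liftCo d = γ :=
  lift_unique _ _ (hB.liftCo_fix d) h1 (by rw [hB.liftCo_mk, h2])

/-- the homomorphism from `C_G(z) ∩ C_G(x)` onto the stabilizer of `(4, 4, 0, …)` -/
noncomputable def BabyData.fHom (hB : BabyData z Q e ψ ζ x) :
    dSub z ((x : Subgroup.centralizer ({z} : Set G)) : G) →* Spor.Co2 :=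
  MonoidHom.mk' (fun d => ⟨(hB.liftCo d).1, ⟨(hB.liftCo d).2, hB.liftCo_fix d⟩⟩) (by
    intro a b
    apply Subtype.ext
    show (hB.liftCo (a * b)).1 = (hB.liftCo a).1 * (hB.liftCo b).1
    have h1 := hB.liftCo_eq (a * b) (hB.liftCo a * hB.liftCo b)
      (by rw [mul_smul, hB.liftCo_fix, hB.liftCo_fix])
      (by rw [QuotientGroup.mk_mul, hB.liftCo_mk, hB.liftCo_mk, ← map_mul, ← QuotientGroup.mk_mul,
        ← map_mul])
    rw [h1]
    rfl)

theorem BabyData.fHom_val (hB : BabyData z Q e ψ ζ x)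
    (d : dSub z ((x : Subgroup.centralizer ({z} : Set G)) : G)) :
    ((hB.fHom d : Spor.Co2) : Equiv.Perm leechLattice) = (hB.liftCo d).1 := rfl

theorem BabyData.fHom_eq_one_iff (hB : BabyData z Q e ψ ζ x)
    (d : dSub z ((x : Subgroup.centralizer ({z} : Set G)) : G)) :
    hB.fHom d = 1 ↔ dC x d ∈ Q := by
  constructor
  · intro h
    have h1 : (hB.liftCo d).1 = 1 := congrArg Subtype.val h
    have h2 : hB.liftCo d = 1 := Subtype.ext h1
    have h3 := hB.liftCo_mk d
    rw [h2, QuotientGroup.mk_one] at h3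
    exact (QuotientGroup.eq_one_iff _).mp ((MulEquiv.map_eq_one_iff e).mp h3.symm)
  · intro h
    have h1 : hB.liftCo d = 1 := by
      apply hB.liftCo_eq d 1 (one_smul _ _)
      rw [(QuotientGroup.eq_one_iff _).mpr h, map_one]
      rfl
    apply Subtype.ext
    show (hB.liftCo d).1 = 1
    rw [h1]
    rfl

theorem BabyData.fHom_surjective (hB : BabyData z Q e ψ ζ x) :
    Function.Surjective hB.fHom := by
  intro g
  have hM := hB.ms
  obtain ⟨γ, hγ⟩ : ∃ γ : Co0, (γ : Equiv.Perm leechLattice) = g := ⟨⟨g.1, g.2.1⟩, rfl⟩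
  have hγU : γ • Spor.leechU = Spor.leechU := by
    have h1 : (g : Equiv.Perm leechLattice) • Spor.leechU = Spor.leechU := g.2.2
    rw [← hγ] at h1
    exact h1
  obtain ⟨h, hh, hhx⟩ := hM.conj_e x x Spor.leechU Spor.leechU γ hB.hx hB.hx (by rw [hγU]) hB.xc
  have hhx' : (h : G) * ((x : Subgroup.centralizer ({z} : Set G)) : G) = (x : G) * h := by
    have h3 : (h : G) * ((x : Subgroup.centralizer ({z} : Set G)) : G) * (h : G)⁻¹ = (x : G) :=
      congrArg Subtype.val hhx
    calc (h : G) * ((x : Subgroup.centralizer ({z} : Set G)) : G)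
        = (h : G) * (x : G) * (h : G)⁻¹ * h := by group
      _ = (x : G) * h := by rw [h3]
  refine ⟨⟨(h : G), (mem_dSub _ _).mpr ⟨comm_z h, hhx'⟩⟩, ?_⟩
  apply Subtype.ext
  rw [hB.fHom_val, ← hγ]
  congr 1
  apply hB.liftCo_eq _ γ hγU
  rw [← hh]
  rfl

end QuotBaby

end Cfsg.Agent.Lib.Helper92
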