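-- In a group of Monster type: the centralizer of an involution `t` of `Q` not conjugate to `z`,
-- modulo `⟨t⟩`, is of Baby Monster type.  Part 3: the extraspecial subgroup of the quotient.
import Mathlib
import Cfsg.Agent.Lib.Helper92.MonsterBaby2
import Cfsg.Agent.Lib.Helper57.CharP
import Cfsg.Agent.Lib.Helper55.Basic
import Cfsg.Agent.Lib.Helper3.Extra4

set_option autoImplicit false
open Cfsg
open scoped commutatorElement

namespace Cfsg.Agent.Lib.Helper92

open Cfsg.Agent.S5408 Cfsg.Agent.S5552 Cfsg.Agent.Lib.Helper10 Cfsg.Agent.S5392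
  Cfsg.Agent.Lib.Helper9

section QuotBaby3
variable {G : Type*} [Group G] {z : G} {Q : Subgroup (Subgroup.centralizer ({z} : Set G))}
  [Q.Normal] {e : (Subgroup.centralizer ({z} : Set G)) ⧸ Q ≃* Spor.Co1}
  {ψ : leechLattice → Q ⧸ Subgroup.center Q} {ζ : Q} {x : Q}

/-- `C_G(x) / ⟨x⟩` -/
abbrev HbX (x : Q)
    [hn : ((Subgroup.zpowers ((x : Subgroup.centralizer ({z} : Set G)) : G)).subgroupOf
      (Subgroup.centralizer ({((x : Subgroup.centralizer ({z} : Set G)) : G)} : Set G))).Normal] :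
    Type _ :=
  ↥(Subgroup.centralizer ({((x : Subgroup.centralizer ({z} : Set G)) : G)} : Set G)) ⧸
    (Subgroup.zpowers ((x : Subgroup.centralizer ({z} : Set G)) : G)).subgroupOf
      (Subgroup.centralizer ({((x : Subgroup.centralizer ({z} : Set G)) : G)} : Set G))

variable [hn : ((Subgroup.zpowers ((x : Subgroup.centralizer ({z} : Set G)) : G)).subgroupOf
  (Subgroup.centralizer ({((x : Subgroup.centralizer ({z} : Set G)) : G)} : Set G))).Normal]

/-- the image of `z` in `C_G(x) / ⟨x⟩` -/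
abbrev zbX (x : Q)
    [hn : ((Subgroup.zpowers ((x : Subgroup.centralizer ({z} : Set G)) : G)).subgroupOf
      (Subgroup.centralizer ({((x : Subgroup.centralizer ({z} : Set G)) : G)} : Set G))).Normal] :
    HbX x :=
  zBar z ((x : Subgroup.centralizer ({z} : Set G)) : G)
    (comm_z (x : Subgroup.centralizer ({z} : Set G))).symm

/-- the projection of `C_G(z) ∩ C_G(x)` to the centralizer of the image of `z` -/
abbrev piX (x : Q)
    [hn : ((Subgroup.zpowers ((x : Subgroup.centralizer ({z} : Set G)) : G)).subgroupOf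
      (Subgroup.centralizer ({((x : Subgroup.centralizer ({z} : Set G)) : G)} : Set G))).Normal] :
    dSub z ((x : Subgroup.centralizer ({z} : Set G)) : G) →*
      Subgroup.centralizer ({zbX x} : Set (HbX x)) :=
  piHom z ((x : Subgroup.centralizer ({z} : Set G)) : G)
    (comm_z (x : Subgroup.centralizer ({z} : Set G))).symm

theorem BabyData.xxG (hB : BabyData z Q e ψ ζ x) :
    ((x : Subgroup.centralizer ({z} : Set G)) : G) * (x : G) = 1 :=
  congrArg (incl Q) hB.xx

theorem BabyData.pi_surj [Finite G] (hB : BabyData z Q e ψ ζ x) :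
    Function.Surjective (piX x) := by
  apply piHom_surjective z _ _ hB.xxG
  intro h hh
  apply hB.nconj'
  rw [isConj_iff]
  refine ⟨h, ?_⟩
  rw [hh]
  show ((x : Subgroup.centralizer ({z} : Set G)) : G) * z =
    ((ζ : Subgroup.centralizer ({z} : Set G)) : G) * (x : G)
  rw [hB.ms.ζz]
  exact comm_z (x : Subgroup.centralizer ({z} : Set G))

theorem BabyData.pi_one_iff (hB : BabyData z Q e ψ ζ x)
    (d : dSub z ((x : Subgroup.centralizer ({z} : Set G)) : G)) :
    piX x d = 1 ↔ (d : G) = 1 ∨ (d : G) = ((x : Subgroup.centralizer ({z} : Set G)) : G) :=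
  piHom_eq_one_iff z _ _ hB.xxG d

theorem BabyData.ker_le (hB : BabyData z Q e ψ ζ x) : (piX x).ker ≤ hB.fHom.ker := by
  intro d hd
  rw [MonoidHom.mem_ker] at hd ⊢
  rw [hB.fHom_eq_one_iff]
  rcases (hB.pi_one_iff d).mp hd with h | h
  · have h1 : dC x d = 1 := Subtype.ext h
    rw [h1]
    exact one_mem _
  · have h1 : dC x d = (x : Subgroup.centralizer ({z} : Set G)) := Subtype.ext h
    rw [h1]
    exact x.2

/-- the homomorphism from the centralizer of the image of `z` onto the stabilizer of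
`(4, 4, 0, …)` -/
noncomputable def BabyData.fBar [Finite G] (hB : BabyData z Q e ψ ζ x) :
    Subgroup.centralizer ({zbX x} : Set (HbX x)) →* Spor.Co2 :=
  (piX x).liftOfSurjective hB.pi_surj ⟨hB.fHom, hB.ker_le⟩

theorem BabyData.fBar_pi [Finite G] (hB : BabyData z Q e ψ ζ x)
    (d : dSub z ((x : Subgroup.centralizer ({z} : Set G)) : G)) :
    hB.fBar (piX x d) = hB.fHom d :=
  MonoidHom.liftOfRightInverse_comp_apply _ _ _ ⟨hB.fHom, hB.ker_le⟩ d

theorem BabyData.fBar_surj [Finite G] (hB : BabyData z Q e ψ ζ x) :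
    Function.Surjective hB.fBar := by
  intro g
  obtain ⟨d, hd⟩ := hB.fHom_surjective g
  exact ⟨piX x d, by rw [hB.fBar_pi, hd]⟩

/-- the inclusion of `C_Q(x)` in `C_G(z) ∩ C_G(x)` -/
def iotaQ (x : Q) : ↥(Subgroup.centralizer ({x} : Set Q)) →*
    dSub z ((x : Subgroup.centralizer ({z} : Set G)) : G) :=
  MonoidHom.codRestrict ((incl Q).comp (Subgroup.subtype _)) _ (by
    intro r
    rw [mem_dSub]
    refine ⟨comm_z ((r : Q) : Subgroup.centralizer ({z} : Set G)), ?_⟩
    have h : (r : Q) * x = x * r := mem_cent_iff'.mp r.2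
    exact congrArg (incl Q) h)

theorem iotaQ_val (r : ↥(Subgroup.centralizer ({x} : Set Q))) :
    ((iotaQ x r : dSub z ((x : Subgroup.centralizer ({z} : Set G)) : G)) : G) =
      (((r : Q) : Subgroup.centralizer ({z} : Set G)) : G) := rfl

theorem dC_iotaQ (r : ↥(Subgroup.centralizer ({x} : Set Q))) :
    dC x (iotaQ x r) = ((r : Q) : Subgroup.centralizer ({z} : Set G)) := rfl

/-- the homomorphism from `C_Q(x)` onto the kernel -/
noncomputable def BabyData.rho [Finite G] (hB : BabyData z Q e ψ ζ x) :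
    ↥(Subgroup.centralizer ({x} : Set Q)) →* ↥(hB.fBar.ker) :=
  MonoidHom.codRestrict ((piX x).comp (iotaQ x)) _ (by
    intro r
    rw [MonoidHom.mem_ker]
    show hB.fBar (piX x (iotaQ x r)) = 1
    rw [hB.fBar_pi, hB.fHom_eq_one_iff, dC_iotaQ]
    exact (r : Q).2)

theorem BabyData.rho_val [Finite G] (hB : BabyData z Q e ψ ζ x)
    (r : ↥(Subgroup.centralizer ({x} : Set Q))) :
    ((hB.rho r : ↥(hB.fBar.ker)) : Subgroup.centralizer ({zbX x} : Set (HbX x))) =
      piX x (iotaQ x r) := rfl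

theorem BabyData.rho_surj [Finite G] (hB : BabyData z Q e ψ ζ x) :
    Function.Surjective hB.rho := by
  rintro ⟨kb, hkb⟩
  obtain ⟨d, rfl⟩ := hB.pi_surj kb
  rw [MonoidHom.mem_ker, hB.fBar_pi, hB.fHom_eq_one_iff] at hkb
  have hc : (⟨dC x d, hkb⟩ : Q) ∈ Subgroup.centralizer ({x} : Set Q) := by
    rw [mem_cent_iff']
    exact Subtype.ext (dC_comm d)
  refine ⟨⟨⟨dC x d, hkb⟩, hc⟩, ?_⟩
  apply Subtype.ext
  rfl

theorem BabyData.rho_one_iff [Finite G] (hB : BabyData z Q e ψ ζ x)
    (r : ↥(Subgroup.centralizer ({x} : Set Q))) :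
    hB.rho r = 1 ↔ (r : Q) = 1 ∨ (r : Q) = x := by
  have h1 : hB.rho r = 1 ↔ piX x (iotaQ x r) = 1 := by
    constructor
    · intro h
      exact congrArg Subtype.val h
    · intro h
      exact Subtype.ext h
  rw [h1, hB.pi_one_iff, iotaQ_val]
  constructor
  · rintro (h | h)
    · left
      exact incl_injective (by rw [map_one]; exact h)
    · right
      exact incl_injective h
  · rintro (h | h)
    · left
      rw [h]
      rfl
    · right
      rw [h]

theorem BabyData.rho_comm_iff [Finite G] (hB : BabyData z Q e ψ ζ x)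
    (r m : ↥(Subgroup.centralizer ({x} : Set Q))) :
    hB.rho r * hB.rho m = hB.rho m * hB.rho r ↔ (r : Q) * m = m * r := by
  have hX := hB.ms.xs
  constructor
  · intro h
    have h1 : hB.rho (r * m * r⁻¹ * m⁻¹) = 1 := by
      rw [map_mul, map_mul, map_mul, h, map_inv, map_inv]
      group
    have h2 : ((r * m * r⁻¹ * m⁻¹ : ↥(Subgroup.centralizer ({x} : Set Q))) : Q) = ⁅(r : Q), (m : Q)⁆ := by
      rw [commutatorElement_def]
      rfl
    rcases (hB.rho_one_iff _).mp h1 with h3 | h3
    · rw [h2] at h3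
      exact commutatorElement_eq_one_iff_mul_comm.mp h3
    · exfalso
      rw [h2] at h3
      apply hB.xc
      rw [← h3, hB.ms.center_iff]
      exact hX.comm _ _
  · intro h
    rw [← map_mul, ← map_mul]
    congr 1
    exact Subtype.ext h

/-- the elements of `C_Q(x)` mapping to the centre -/
theorem BabyData.rho_center [Finite G] (hB : BabyData z Q e ψ ζ x)
    (m : ↥(Subgroup.centralizer ({x} : Set Q))) :
    hB.rho m ∈ Subgroup.center ↥(hB.fBar.ker) ↔
      (m : Q) = 1 ∨ (m : Q) = ζ ∨ (m : Q) = x ∨ (m : Q) = x * ζ := by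
  have hX := hB.ms.xs
  rw [Subgroup.mem_center_iff]
  constructor
  · intro h
    apply double_centralizer hX x (m : Q)
    intro t ht
    have h1 := h (hB.rho ⟨t, mem_cent_iff'.mpr ht⟩)
    exact (hB.rho_comm_iff _ _).mp h1
  · intro h g
    obtain ⟨r, rfl⟩ := hB.rho_surj g
    rw [hB.rho_comm_iff]
    rcases h with h | h | h | h
    · rw [h, mul_one, one_mul]
    · rw [h]
      exact hX.cen _
    · rw [h]
      exact mem_cent_iff'.mp r.2
    · rw [h, ← mul_assoc, mem_cent_iff'.mp r.2, mul_assoc, hX.cen, mul_assoc]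

end QuotBaby3

end Cfsg.Agent.Lib.Helper92
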