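-- In a group of Monster type: the centralizer of an involution `t` of `Q` not conjugate to `z`,
-- modulo `⟨t⟩`, is of Baby Monster type.  Part 4: the extraspecial-centralizer setting of width 11.
import Mathlib
import Cfsg.Agent.Lib.Helper92.MonsterBaby3

set_option autoImplicit false
open Cfsg
open scoped commutatorElement

namespace Cfsg.Agent.Lib.Helper92

open Cfsg.Agent.S5408 Cfsg.Agent.S5552 Cfsg.Agent.Lib.Helper10 Cfsg.Agent.S5392
  Cfsg.Agent.Lib.Helper9

section QuotBaby4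
variable {G : Type*} [Group G] {z : G} {Q : Subgroup (Subgroup.centralizer ({z} : Set G))}
  [Q.Normal] {e : (Subgroup.centralizer ({z} : Set G)) ⧸ Q ≃* Spor.Co1}
  {ψ : leechLattice → Q ⧸ Subgroup.center Q} {ζ : Q} {x : Q}

theorem BabyData.card_cent [Finite G] (hB : BabyData z Q e ψ ζ x) :
    Nat.card ↥(Subgroup.centralizer ({x} : Set Q)) = 2 ^ 24 := by
  have hX := hB.ms.xs
  have h1 := card_le_two_mul_centralizer hX x
  rw [hB.ms.card] at h1
  have h2 := Subgroup.card_mul_index (Subgroup.centralizer ({x} : Set Q))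
  rw [hB.ms.card] at h2
  have h3 : (Subgroup.centralizer ({x} : Set Q)).index ≠ 1 := by
    intro h
    rw [Subgroup.index_eq_one] at h
    apply hB.xc
    rw [Subgroup.mem_center_iff]
    intro g
    have h4 : g ∈ Subgroup.centralizer ({x} : Set Q) := by
      rw [h]
      trivial
    exact mem_cent_iff'.mp h4
  have h4 : (Subgroup.centralizer ({x} : Set Q)).index ≠ 0 := by
    intro h
    rw [h, mul_zero] at h2
    norm_num at h2
  have h5 : 2 ≤ (Subgroup.centralizer ({x} : Set Q)).index := by omega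
  have h6 := Nat.mul_le_mul_left (Nat.card ↥(Subgroup.centralizer ({x} : Set Q))) h5
  rw [h2] at h6
  norm_num at h1 h6 ⊢
  omega

/-- `x` as an element of `C_Q(x)` -/
def xCent (x : Q) : ↥(Subgroup.centralizer ({x} : Set Q)) := ⟨x, mem_cent_iff'.mpr rfl⟩

/-- the central involution of `Q` as an element of `C_Q(x)` -/
def zCent {ζ : Q} (hX : XS Q ζ) (x : Q) : ↥(Subgroup.centralizer ({x} : Set Q)) :=
  ⟨ζ, mem_cent_iff'.mpr (hX.cen x).symm⟩

variable [hn : ((Subgroup.zpowers ((x : Subgroup.centralizer ({z} : Set G)) : G)).subgroupOf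
  (Subgroup.centralizer ({((x : Subgroup.centralizer ({z} : Set G)) : G)} : Set G))).Normal]

theorem BabyData.card_rho_ker [Finite G] (hB : BabyData z Q e ψ ζ x) :
    Nat.card ↥(hB.rho.ker) = 2 := by
  have h1 : hB.rho.ker = Subgroup.zpowers (xCent x) := by
    ext r
    have hxx : xCent x * xCent x = 1 := Subtype.ext hB.xx
    rw [MonoidHom.mem_ker, hB.rho_one_iff, mem_zpowers_invol hxx]
    constructor
    · rintro (h | h)
      · left
        exact Subtype.ext h
      · right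
        exact Subtype.ext h
    · rintro (h | h)
      · left
        rw [h]
        rfl
      · right
        rw [h]
        rfl
  rw [h1, Nat.card_zpowers]
  apply orderOf_eq_prime
  · rw [pow_two]
    exact Subtype.ext hB.xx
  · intro h
    apply hB.xc
    have h2 : x = 1 := congrArg Subtype.val h
    rw [h2]
    exact one_mem _

theorem BabyData.card_ker [Finite G] (hB : BabyData z Q e ψ ζ x) :
    Nat.card ↥(hB.fBar.ker) = 2 ^ 23 := by
  have h1 := Subgroup.card_mul_index hB.rho.ker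
  rw [hB.card_rho_ker, hB.card_cent, Subgroup.index_ker,
    MonoidHom.range_eq_top.mpr hB.rho_surj, Subgroup.card_top] at h1
  omega

theorem BabyData.rho_zeta_ne [Finite G] (hB : BabyData z Q e ψ ζ x) :
    hB.rho (zCent hB.ms.xs x) ≠ 1 := by
  intro h
  rcases (hB.rho_one_iff _).mp h with h1 | h1
  · exact hB.ms.xs.ne h1
  · apply hB.xc
    rw [← h1, hB.ms.center_iff]
    right
    rfl

theorem BabyData.rho_zeta_central [Finite G] (hB : BabyData z Q e ψ ζ x)
    (g : ↥(hB.fBar.ker)) :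
    g * hB.rho (zCent hB.ms.xs x) = hB.rho (zCent hB.ms.xs x) * g :=
  Subgroup.mem_center_iff.mp ((hB.rho_center _).mpr (Or.inr (Or.inl rfl))) g

theorem BabyData.rho_sq [Finite G] (hB : BabyData z Q e ψ ζ x)
    (r : ↥(Subgroup.centralizer ({x} : Set Q))) :
    hB.rho r ^ 2 = 1 ∨ hB.rho r ^ 2 = hB.rho (zCent hB.ms.xs x) := by
  have h0 : hB.rho r ^ 2 = hB.rho (r ^ 2) := (map_pow hB.rho r 2).symm
  rcases hB.ms.xs.sqm (r : Q) with h | h
  · left
    have h1 : r ^ 2 = 1 := by
      rw [pow_two]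
      exact Subtype.ext h
    rw [h0, h1]
    exact map_one hB.rho
  · right
    have h1 : r ^ 2 = zCent hB.ms.xs x := by
      rw [pow_two]
      exact Subtype.ext h
    rw [h0, h1]

theorem BabyData.rho_comm_cases [Finite G] (hB : BabyData z Q e ψ ζ x)
    (r m : ↥(Subgroup.centralizer ({x} : Set Q))) :
    hB.rho r * hB.rho m = hB.rho m * hB.rho r ∨
      hB.rho r * hB.rho m = hB.rho (zCent hB.ms.xs x) * hB.rho m * hB.rho r := by
  rcases hB.ms.xs.comm (r : Q) (m : Q) with h | h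
  · left
    rw [hB.rho_comm_iff]
    exact commutatorElement_eq_one_iff_mul_comm.mp h
  · right
    have h1 : r * m = zCent hB.ms.xs x * m * r := by
      apply Subtype.ext
      show (r : Q) * (m : Q) = ζ * (m : Q) * (r : Q)
      rw [← h, commutatorElement_def]
      group
    rw [← map_mul, ← map_mul, ← map_mul, h1]

theorem BabyData.rho_center_cases [Finite G] (hB : BabyData z Q e ψ ζ x)
    (c : ↥(hB.fBar.ker)) (hc : ∀ g, g * c = c * g) :
    c = 1 ∨ c = hB.rho (zCent hB.ms.xs x) := by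
  obtain ⟨m, rfl⟩ := hB.rho_surj c
  rcases (hB.rho_center m).mp (Subgroup.mem_center_iff.mpr hc) with h | h | h | h
  · left
    rw [hB.rho_one_iff]
    exact Or.inl h
  · right
    have h1 : m = zCent hB.ms.xs x := Subtype.ext h
    rw [h1]
  · left
    rw [hB.rho_one_iff]
    exact Or.inr h
  · right
    have h1 : m = xCent x * zCent hB.ms.xs x := Subtype.ext h
    rw [h1, map_mul, (hB.rho_one_iff (xCent x)).mpr (Or.inr rfl), one_mul]

theorem BabyData.rho_nonab [Finite G] (hB : BabyData z Q e ψ ζ x) :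
    ∃ a b : ↥(hB.fBar.ker), a * b ≠ b * a := by
  have hX := hB.ms.xs
  have hc : 8 < Nat.card Q := by
    rw [hB.ms.card]
    norm_num
  obtain ⟨y₁, y₂, h1, h2, h3⟩ := exists_comm_pair hX hc x
  refine ⟨hB.rho ⟨y₁, mem_cent_iff'.mpr h1⟩, hB.rho ⟨y₂, mem_cent_iff'.mpr h2⟩, ?_⟩
  intro h
  rw [hB.rho_comm_iff] at h
  have h4 : ⁅y₁, y₂⁆ = 1 := commutatorElement_eq_one_iff_mul_comm.mpr h
  rw [h3] at h4
  exact hX.ne h4

theorem BabyData.es [Finite G] (hB : BabyData z Q e ψ ζ x) :
    Cfsg.IsExtraspecial 2 ↥(hB.fBar.ker) := by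
  have hP : IsPGroup 2 ↥(hB.fBar.ker) := IsPGroup.of_card (n := 23) hB.card_ker
  apply Cfsg.Agent.Lib.Helper3.Extra4.es2_of_data hP (hB.rho (zCent hB.ms.xs x)) hB.rho_zeta_ne
  · rcases hB.rho_sq (zCent hB.ms.xs x) with h | h
    · exact h
    · rw [pow_two] at h
      rw [pow_two]
      exact mul_left_cancel (h.trans (mul_one _).symm) |>.symm ▸ h
  · exact hB.rho_zeta_central
  · exact hB.rho_center_cases
  · intro a b
    obtain ⟨r, rfl⟩ := hB.rho_surj a
    obtain ⟨m, rfl⟩ := hB.rho_surj b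
    rcases hB.rho_comm_cases r m with h | h
    · exact ⟨1, fun g => by rw [mul_one, one_mul], by rw [one_mul]; exact h⟩
    · exact ⟨hB.rho (zCent hB.ms.xs x), hB.rho_zeta_central, h⟩
  · intro a g
    obtain ⟨r, rfl⟩ := hB.rho_surj a
    rcases hB.rho_sq r with h | h
    · rw [h, mul_one, one_mul]
    · rw [h]
      exact hB.rho_zeta_central g
  · exact hB.rho_nonab

/-- A normal subgroup of the centralizer of the image of `z` all of whose elements have order a
power of 2 lies in the kernel. -/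
theorem BabyData.two_sub_le [Finite G] (hB : BabyData z Q e ψ ζ x)
    (N : Subgroup (Subgroup.centralizer ({zbX x} : Set (HbX x)))) [hNn : N.Normal]
    (hN : ∀ n ∈ N, ∃ k : ℕ, n ^ 2 ^ k = 1) : N ≤ hB.fBar.ker := by
  have hM := hB.ms
  obtain ⟨R, hR⟩ : ∃ R : Subgroup G, R = (N.comap (piX x)).map (Subgroup.subtype _) := ⟨_, rfl⟩
  have hmem : ∀ r : G, r ∈ R ↔
      ∃ d : dSub z ((x : Subgroup.centralizer ({z} : Set G)) : G), piX x d ∈ N ∧ (d : G) = r := by
    intro r
    rw [hR, Subgroup.mem_map]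
    constructor
    · rintro ⟨d, hd, rfl⟩
      exact ⟨d, Subgroup.mem_comap.mp hd, rfl⟩
    · rintro ⟨d, hd, rfl⟩
      exact ⟨d, Subgroup.mem_comap.mpr hd, rfl⟩
  have key := normal_two_le hM x Spor.leechU nUvec hB.hx R ?_ ?_ ?_
  · intro n hn
    obtain ⟨d, rfl⟩ := hB.pi_surj n
    obtain ⟨hr, hrQ⟩ := key (d : G) ((hmem _).mpr ⟨d, hn, rfl⟩)
    rw [MonoidHom.mem_ker, hB.fBar_pi, hB.fHom_eq_one_iff]
    exact hrQ
  · intro r hr
    obtain ⟨d, -, rfl⟩ := (hmem r).mp hr
    exact (mem_dSub _ _).mp d.2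
  · intro d hdz hdx r hr
    obtain ⟨d', hd', rfl⟩ := (hmem r).mp hr
    rw [hmem]
    obtain ⟨dD, hdD⟩ : ∃ dD : dSub z ((x : Subgroup.centralizer ({z} : Set G)) : G),
        (dD : G) = d := ⟨⟨d, (mem_dSub _ _).mpr ⟨hdz, hdx⟩⟩, rfl⟩
    refine ⟨dD * d' * dD⁻¹, ?_, ?_⟩
    · rw [map_mul, map_mul, map_inv]
      exact hNn.conj_mem _ hd' _
    · rw [← hdD]
      rfl
  · intro r hr
    obtain ⟨d, hd, rfl⟩ := (hmem r).mp hr
    obtain ⟨k, hk⟩ := hN _ hd
    rw [← map_pow] at hk
    refine ⟨k + 1, ?_⟩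
    rw [pow_succ, pow_mul]
    rcases (hB.pi_one_iff _).mp hk with h | h
    · have h1 : (d : G) ^ 2 ^ k = 1 := h
      rw [h1, one_pow]
    · have h1 : (d : G) ^ 2 ^ k = ((x : Subgroup.centralizer ({z} : Set G)) : G) := h
      rw [h1, pow_two]
      exact hB.xxG

theorem BabyData.pcore_eq [Finite G] (hB : BabyData z Q e ψ ζ x) :
    pCore 2 ↥(Subgroup.centralizer ({zbX x} : Set (HbX x))) = hB.fBar.ker := by
  apply le_antisymm
  · have := Cfsg.Agent.Lib.Helper58.pCore_normal 2
      ↥(Subgroup.centralizer ({zbX x} : Set (HbX x)))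
    apply hB.two_sub_le
    intro n hn
    obtain ⟨k, hk⟩ := Cfsg.Agent.Lib.Helper58.isPGroup_pCore 2
      ↥(Subgroup.centralizer ({zbX x} : Set (HbX x))) ⟨n, hn⟩
    exact ⟨k, congrArg Subtype.val hk⟩
  · exact Cfsg.Agent.Lib.Helper55.le_pCore (MonoidHom.normal_ker _)
      (IsPGroup.of_card (n := 23) hB.card_ker)

theorem BabyData.cent_le [Finite G] (hB : BabyData z Q e ψ ζ x) :
    Subgroup.centralizer (hB.fBar.ker : Set ↥(Subgroup.centralizer ({zbX x} : Set (HbX x)))) ≤
      hB.fBar.ker := by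
  apply hB.two_sub_le
  intro n hn
  refine ⟨3, ?_⟩
  obtain ⟨d, rfl⟩ := hB.pi_surj n
  have h8 : dC x d ^ 8 = 1 := by
    apply hB.pow_eight (dC x d) (dC_comm d)
    intro r hr
    obtain ⟨rC, hrC⟩ : ∃ rC : ↥(Subgroup.centralizer ({x} : Set Q)), (rC : Q) = r :=
      ⟨⟨r, mem_cent_iff'.mpr hr⟩, rfl⟩
    have h1 := Subgroup.mem_centralizer_iff.mp hn
      ((hB.rho rC : ↥(hB.fBar.ker)) : Subgroup.centralizer ({zbX x} : Set (HbX x)))
      (Subtype.property _)
    rw [hB.rho_val] at h1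
    have h2 : piX x (d * iotaQ x rC * d⁻¹ * (iotaQ x rC)⁻¹) = 1 := by
      rw [map_mul, map_mul, map_mul, ← h1, map_inv, map_inv]
      group
    have hrG : ((rC : Q) : Subgroup.centralizer ({z} : Set G)) = r := by rw [hrC]
    rcases (hB.pi_one_iff _).mp h2 with h3 | h3
    · left
      apply Subtype.ext
      have h4 : (d : G) * (((rC : Q) : Subgroup.centralizer ({z} : Set G)) : G) * (d : G)⁻¹ *
          (((rC : Q) : Subgroup.centralizer ({z} : Set G)) : G)⁻¹ = 1 := h3
      rw [hrG] at h4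
      show (d : G) * ((r : Subgroup.centralizer ({z} : Set G)) : G) * (d : G)⁻¹ = (r : G)
      exact mul_inv_eq_one.mp h4
    · right
      apply Subtype.ext
      have h4 : (d : G) * (((rC : Q) : Subgroup.centralizer ({z} : Set G)) : G) * (d : G)⁻¹ *
          (((rC : Q) : Subgroup.centralizer ({z} : Set G)) : G)⁻¹ =
          ((x : Subgroup.centralizer ({z} : Set G)) : G) := h3
      rw [hrG] at h4
      have hrx : ((r : Subgroup.centralizer ({z} : Set G)) : G) * (x : G) = (x : G) * (r : G) :=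
        congrArg (incl Q) hr
      show (d : G) * ((r : Subgroup.centralizer ({z} : Set G)) : G) * (d : G)⁻¹ =
        (r : G) * (x : G)
      calc (d : G) * ((r : Subgroup.centralizer ({z} : Set G)) : G) * (d : G)⁻¹
          = ((d : G) * (r : G) * (d : G)⁻¹ * (r : G)⁻¹) * (r : G) := by group
        _ = ((x : Subgroup.centralizer ({z} : Set G)) : G) * (r : G) := by rw [h4]
        _ = (r : G) * (x : G) := hrx.symm
  have h9 : d ^ 8 = 1 := by
    apply Subtype.ext
    have h11 := congrArg Subtype.val h8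
    exact h11
  have h10 : piX x d ^ 2 ^ 3 = piX x (d ^ 8) := by
    rw [map_pow]
    norm_num
  rw [h10, h9, map_one]

theorem BabyData.fstar [Finite G] (hB : BabyData z Q e ψ ζ x) :
    generalizedFittingSubgroup ↥(Subgroup.centralizer ({zbX x} : Set (HbX x))) = hB.fBar.ker := by
  have h1 : Subgroup.centralizer
      (pCore 2 ↥(Subgroup.centralizer ({zbX x} : Set (HbX x))) :
        Set ↥(Subgroup.centralizer ({zbX x} : Set (HbX x)))) ≤
      pCore 2 ↥(Subgroup.centralizer ({zbX x} : Set (HbX x))) := by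
    rw [hB.pcore_eq]
    exact hB.cent_le
  rw [Cfsg.Agent.Lib.Helper57.genFitting_eq_pCore_of_charP h1, hB.pcore_eq]

theorem BabyData.order_zb [Finite G] (hB : BabyData z Q e ψ ζ x) : orderOf (zbX x) = 2 := by
  have hzx : z * ((x : Subgroup.centralizer ({z} : Set G)) : G) = (x : G) * z :=
    (comm_z (x : Subgroup.centralizer ({z} : Set G))).symm
  obtain ⟨zc, hzc⟩ : ∃ zc : ↥(Subgroup.centralizer
      ({((x : Subgroup.centralizer ({z} : Set G)) : G)} : Set G)), zc = ⟨z, mem_cent_iff'.mpr hzx⟩ :=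
    ⟨_, rfl⟩
  have hzb : zbX x = QuotientGroup.mk zc := by
    rw [hzc]
    rfl
  rw [hzb]
  apply orderOf_eq_prime
  · rw [← QuotientGroup.mk_pow]
    have h1 : zc ^ 2 = 1 := by
      rw [hzc, pow_two]
      exact Subtype.ext hB.ms.zz
    rw [h1]
    rfl
  · intro h
    have h1 : zc ∈ (Subgroup.zpowers ((x : Subgroup.centralizer ({z} : Set G)) : G)).subgroupOf
        (Subgroup.centralizer ({((x : Subgroup.centralizer ({z} : Set G)) : G)} : Set G)) :=
      (QuotientGroup.eq_one_iff _).mp h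
    have h2 : z ∈ Subgroup.zpowers ((x : Subgroup.centralizer ({z} : Set G)) : G) := by
      rw [hzc] at h1
      exact h1
    rcases (mem_zpowers_invol hB.xxG z).mp h2 with h3 | h3
    · exact hB.ms.z1 h3
    · apply hB.xc
      have h4 : x = ζ := by
        apply incl_injective
        show ((x : Subgroup.centralizer ({z} : Set G)) : G) =
          ((ζ : Subgroup.centralizer ({z} : Set G)) : G)
        exact (hB.ms.ζz.trans h3).symm
      rw [h4, hB.ms.center_iff]
      right
      rfl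

theorem BabyData.fuse [Finite G] (hB : BabyData z Q e ψ ζ x) :
    ∃ g : HbX x, (∃ hq : g * zbX x * g⁻¹ ∈ Subgroup.centralizer ({zbX x} : Set (HbX x)),
      (⟨g * zbX x * g⁻¹, hq⟩ : Subgroup.centralizer ({zbX x} : Set (HbX x))) ∈ hB.fBar.ker) ∧
        g * zbX x * g⁻¹ ≠ zbX x := by
  obtain ⟨g, s, hgx, hgz, hsx, hs1, hs2⟩ := hB.exists_fuse
  have hX := hB.ms.xs
  obtain ⟨sC, hsC⟩ : ∃ sC : ↥(Subgroup.centralizer ({x} : Set Q)), (sC : Q) = s :=
    ⟨⟨s, mem_cent_iff'.mpr hsx⟩, rfl⟩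
  obtain ⟨gc, hgc⟩ : ∃ gc : ↥(Subgroup.centralizer
      ({((x : Subgroup.centralizer ({z} : Set G)) : G)} : Set G)), (gc : G) = g :=
    ⟨⟨g, mem_cent_iff'.mpr hgx⟩, rfl⟩
  have hzx : z * ((x : Subgroup.centralizer ({z} : Set G)) : G) = (x : G) * z :=
    (comm_z (x : Subgroup.centralizer ({z} : Set G))).symm
  obtain ⟨zc, hzc⟩ : ∃ zc : ↥(Subgroup.centralizer
      ({((x : Subgroup.centralizer ({z} : Set G)) : G)} : Set G)), zc = ⟨z, mem_cent_iff'.mpr hzx⟩ :=
    ⟨_, rfl⟩
  have hzb : zbX x = QuotientGroup.mk zc := by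
    rw [hzc]
    rfl
  have key : (QuotientGroup.mk gc : HbX x) * zbX x * (QuotientGroup.mk gc : HbX x)⁻¹ =
      ((hB.rho sC : ↥(hB.fBar.ker)) : Subgroup.centralizer ({zbX x} : Set (HbX x))) := by
    rw [hB.rho_val, piHom_val, hzb, ← QuotientGroup.mk_mul, ← QuotientGroup.mk_inv,
      ← QuotientGroup.mk_mul]
    congr 1
    apply Subtype.ext
    show (gc : G) * (zc : G) * (gc : G)⁻¹ = (((sC : Q) : Subgroup.centralizer ({z} : Set G)) : G)
    rw [hgc, hsC, hzc]
    exact hgz
  have hzb' : zbX x = ((hB.rho (zCent hX x) : ↥(hB.fBar.ker)) :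
      Subgroup.centralizer ({zbX x} : Set (HbX x))) := by
    rw [hB.rho_val, piHom_val, hzb]
    congr 1
    apply Subtype.ext
    rw [hzc]
    exact hB.ms.ζz.symm
  refine ⟨QuotientGroup.mk gc, ⟨?_, ?_⟩, ?_⟩
  · rw [key]
    exact Subtype.property _
  · have h1 : (⟨(QuotientGroup.mk gc : HbX x) * zbX x * (QuotientGroup.mk gc : HbX x)⁻¹,
        by rw [key]; exact Subtype.property _⟩ : Subgroup.centralizer ({zbX x} : Set (HbX x))) =
        (hB.rho sC : ↥(hB.fBar.ker)) := Subtype.ext key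
    rw [h1]
    exact (hB.rho sC).2
  · intro h
    have h1 : hB.rho sC = hB.rho (zCent hX x) :=
      Subtype.ext (Subtype.ext (key.symm.trans (h.trans hzb')))
    have h2 : hB.rho (sC * (zCent hX x)⁻¹) = 1 := by
      rw [map_mul, map_inv, h1, mul_inv_cancel]
    rcases (hB.rho_one_iff _).mp h2 with h3 | h3
    · apply hs1
      have h4 : s * ζ⁻¹ = 1 := by
        rw [← hsC]
        exact h3
      exact mul_inv_eq_one.mp h4
    · apply hs2
      have h4 : s * ζ⁻¹ = x := by
        rw [← hsC]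
        exact h3
      rw [← hX.cen x, ← h4]
      group

end QuotBaby4

end Cfsg.Agent.Lib.Helper92
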