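-- In a group of Monster type: the centralizer of an involution `t` of `Q` not conjugate to `z`,
-- modulo `⟨t⟩`, is of Baby Monster type.  Part 5: the module isomorphism.
import Mathlib
import Cfsg.Agent.Lib.Helper92.MonsterBaby4

set_option autoImplicit false
open Cfsg
open scoped commutatorElement

namespace Cfsg.Agent.Lib.Helper92

open Cfsg.Agent.S5408 Cfsg.Agent.S5552 Cfsg.Agent.Lib.Helper10 Cfsg.Agent.S5392
  Cfsg.Agent.Lib.Helper9

section QuotBaby5
variable {G : Type*} [Group G] {z : G} {Q : Subgroup (Subgroup.centralizer ({z} : Set G))}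
  [Q.Normal] {e : (Subgroup.centralizer ({z} : Set G)) ⧸ Q ≃* Spor.Co1}
  {ψ : leechLattice → Q ⧸ Subgroup.center Q} {ζ : Q} {x : Q}

/-- lifts of vectors orthogonal to `(4, 4, 0, …)` modulo 2 commute with `x` -/
theorem BabyData.perp_comm (hB : BabyData z Q e ψ ζ x) (w : leechLattice) (hw : w ∈ leechPerpU)
    (r : Q) (hr : ψ w = QuotientGroup.mk r) : r * x = x * r := by
  rw [← cmv_eq_zero_iff, hB.ms.cmv_eq w Spor.leechU r x hr hB.hx]
  unfold b0
  have h1 : (16 : ℤ) ∣ dotInt (w : GolayPt → ℤ) Spor.vecU := hw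
  obtain ⟨k, hk⟩ := h1
  have h2 : dotInt (w : GolayPt → ℤ) ((Spor.leechU : leechLattice) : GolayPt → ℤ) / 8 = 2 * k := by
    have h3 : ((Spor.leechU : leechLattice) : GolayPt → ℤ) = Spor.vecU := rfl
    rw [h3, hk]
    omega
  rw [h2]
  push_cast
  have h4 : (2 : ZMod 2) = 0 := by decide
  rw [h4, zero_mul]

/-- vectors whose lifts commute with `x` are orthogonal to `(4, 4, 0, …)` modulo 2 -/
theorem BabyData.comm_perp (hB : BabyData z Q e ψ ζ x) (w : leechLattice)
    (r : Q) (hr : ψ w = QuotientGroup.mk r) (hc : r * x = x * r) : w ∈ leechPerpU := by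
  have h0 := (cmv_eq_zero_iff r x).mpr hc
  rw [hB.ms.cmv_eq w Spor.leechU r x hr hB.hx] at h0
  unfold b0 at h0
  have h1 := dvd_dot w Spor.leechU
  have h3 : ((Spor.leechU : leechLattice) : GolayPt → ℤ) = Spor.vecU := rfl
  rw [h3] at h0 h1
  have h2 : ((2 : ℕ) : ℤ) ∣ dotInt (w : GolayPt → ℤ) Spor.vecU / 8 :=
    (ZMod.intCast_zmod_eq_zero_iff_dvd _ 2).mp h0
  show (16 : ℤ) ∣ dotInt (w : GolayPt → ℤ) Spor.vecU
  push_cast at h2
  omega

/-- the chosen lift to `C_Q(x)` of a vector orthogonal to `(4, 4, 0, …)` modulo 2 -/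
noncomputable def BabyData.liftC (hB : BabyData z Q e ψ ζ x) (w : leechPerpU) :
    ↥(Subgroup.centralizer ({x} : Set Q)) :=
  ⟨lift ψ (w : leechLattice),
    mem_cent_iff'.mpr (hB.perp_comm (w : leechLattice) w.2 _ (mk_lift ψ _).symm)⟩

theorem BabyData.liftC_mk (hB : BabyData z Q e ψ ζ x) (w : leechPerpU) :
    (QuotientGroup.mk ((hB.liftC w : ↥(Subgroup.centralizer ({x} : Set Q))) : Q) :
      Q ⧸ Subgroup.center Q) = ψ (w : leechLattice) :=
  mk_lift ψ _

variable [hn : ((Subgroup.zpowers ((x : Subgroup.centralizer ({z} : Set G)) : G)).subgroupOf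
  (Subgroup.centralizer ({((x : Subgroup.centralizer ({z} : Set G)) : G)} : Set G))).Normal]

theorem BabyData.rho_mk_iff [Finite G] (hB : BabyData z Q e ψ ζ x)
    (r₁ r₂ : ↥(Subgroup.centralizer ({x} : Set Q))) :
    (QuotientGroup.mk (hB.rho r₁) : ↥(hB.fBar.ker) ⧸ Subgroup.center ↥(hB.fBar.ker)) =
        QuotientGroup.mk (hB.rho r₂) ↔
      (QuotientGroup.mk (r₁ : Q) : Q ⧸ Subgroup.center Q) = QuotientGroup.mk (r₂ : Q) ∨
      (QuotientGroup.mk (r₁ : Q) : Q ⧸ Subgroup.center Q) = QuotientGroup.mk ((r₂ : Q) * x) := by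
  have hX := hB.ms.xs
  have hxx := hB.xx
  rw [QuotientGroup.eq, ← map_inv, ← map_mul, hB.rho_center, QuotientGroup.eq, QuotientGroup.eq,
    hB.ms.center_iff, hB.ms.center_iff]
  have hy : (r₁ : Q)⁻¹ * ((r₂ : Q) * x) = ((r₁ : Q)⁻¹ * r₂) * x := by group
  rw [hy]
  show ((r₁ : Q)⁻¹ * (r₂ : Q) = 1 ∨ (r₁ : Q)⁻¹ * (r₂ : Q) = ζ ∨ (r₁ : Q)⁻¹ * (r₂ : Q) = x ∨
    (r₁ : Q)⁻¹ * (r₂ : Q) = x * ζ) ↔ _
  generalize (r₁ : Q)⁻¹ * (r₂ : Q) = y
  constructor
  · rintro (h | h | h | h)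
    · exact Or.inl (Or.inl h)
    · exact Or.inl (Or.inr h)
    · right
      left
      rw [h]
      exact hxx
    · right
      right
      rw [h, hX.cen x, mul_assoc, hxx, mul_one]
  · rintro ((h | h) | (h | h))
    · exact Or.inl h
    · exact Or.inr (Or.inl h)
    · right
      right
      left
      calc y = y * x * x := by rw [mul_assoc, hxx, mul_one]
        _ = x := by rw [h, one_mul]
    · right
      right
      right
      calc y = y * x * x := by rw [mul_assoc, hxx, mul_one]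
        _ = ζ * x := by rw [h]
        _ = x * ζ := (hX.cen x).symm

/-- the module map -/
noncomputable def BabyData.psiB [Finite G] (hB : BabyData z Q e ψ ζ x) (w : leechPerpU) :
    ↥(hB.fBar.ker) ⧸ Subgroup.center ↥(hB.fBar.ker) :=
  QuotientGroup.mk (hB.rho (hB.liftC w))

theorem BabyData.psiB_eq [Finite G] (hB : BabyData z Q e ψ ζ x) (w : leechPerpU)
    (r : ↥(Subgroup.centralizer ({x} : Set Q))) :
    hB.psiB w = QuotientGroup.mk (hB.rho r) ↔
      ψ (w : leechLattice) = QuotientGroup.mk (r : Q) ∨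
      ψ (w : leechLattice) = QuotientGroup.mk ((r : Q) * x) := by
  unfold BabyData.psiB
  rw [hB.rho_mk_iff, hB.liftC_mk]

theorem BabyData.psiB_add [Finite G] (hB : BabyData z Q e ψ ζ x) (w w' : leechPerpU) :
    hB.psiB (w + w') = hB.psiB w * hB.psiB w' := by
  have h1 : hB.psiB w * hB.psiB w' = QuotientGroup.mk (hB.rho (hB.liftC w * hB.liftC w')) := by
    rw [map_mul, QuotientGroup.mk_mul]
    rfl
  rw [h1, hB.psiB_eq]
  left
  have h2 : ((w + w' : leechPerpU) : leechLattice) = (w : leechLattice) + (w' : leechLattice) := rfl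
  rw [h2, hB.ms.ψ1, ← hB.liftC_mk, ← hB.liftC_mk, ← QuotientGroup.mk_mul]
  rfl

theorem BabyData.psiB_surj [Finite G] (hB : BabyData z Q e ψ ζ x) :
    Function.Surjective hB.psiB := by
  intro y
  obtain ⟨k, rfl⟩ := QuotientGroup.mk_surjective y
  obtain ⟨r, rfl⟩ := hB.rho_surj k
  obtain ⟨v, hv⟩ := hB.ms.ψ2 (QuotientGroup.mk (r : Q))
  refine ⟨⟨v, hB.comm_perp v (r : Q) hv (mem_cent_iff'.mp r.2)⟩, ?_⟩
  rw [hB.psiB_eq]
  exact Or.inl hv

theorem BabyData.psiB_ker [Finite G] (hB : BabyData z Q e ψ ζ x) (w : leechPerpU) :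
    hB.psiB w = 1 ↔ (∃ u : leechLattice, (w : leechLattice) = u + u) ∨
      ∃ u : leechLattice, (w : leechLattice) = Spor.leechU + (u + u) := by
  have hM := hB.ms
  have h1 : hB.psiB w = 1 ↔ hB.psiB w = QuotientGroup.mk (hB.rho 1) := by
    rw [map_one, QuotientGroup.mk_one]
  have h2 : (((1 : ↥(Subgroup.centralizer ({x} : Set Q))) : Q)) = 1 := rfl
  rw [h1, hB.psiB_eq, h2, one_mul, QuotientGroup.mk_one, ← hB.hx, hM.ψ3]
  apply or_congr Iff.rfl
  constructor
  · intro h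
    have h3 : ψ ((w : leechLattice) + -Spor.leechU) = 1 := by
      rw [hM.ψ1, h, ← hM.ψ1, add_neg_cancel, hM.ψ0]
    obtain ⟨u, hu⟩ := (hM.ψ3 _).mp h3
    refine ⟨u, ?_⟩
    rw [← hu]
    abel
  · rintro ⟨u, hu⟩
    rw [hu, hM.ψ_double]

theorem BabyData.psiB_equiv [Finite G] (hB : BabyData z Q e ψ ζ x)
    (h : Subgroup.centralizer ({zbX x} : Set (HbX x))) (g : Spor.Co2) (hg : hB.fBar h = g)
    (w y : leechPerpU) (hwy : g • (w : leechLattice) = (y : leechLattice))
    (q : ↥(hB.fBar.ker)) (hq : hB.psiB w = QuotientGroup.mk q) :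
    hB.psiB y = QuotientGroup.mk ⟨h * q * h⁻¹,
      (MonoidHom.normal_ker hB.fBar).conj_mem
        (q : Subgroup.centralizer ({zbX x} : Set (HbX x))) q.2 h⟩ := by
  have hM := hB.ms
  obtain ⟨d, rfl⟩ := hB.pi_surj h
  obtain ⟨r, rfl⟩ := hB.rho_surj q
  rw [hB.fBar_pi] at hg
  have hγ : hB.liftCo d • (w : leechLattice) = (y : leechLattice) := by
    rw [← hwy, ← hg]
    rfl
  have hrx : dC x d * (((r : Q) : Subgroup.centralizer ({z} : Set G)) * x) * (dC x d)⁻¹ =
      dC x d * ((r : Q) : Subgroup.centralizer ({z} : Set G)) * (dC x d)⁻¹ * x := by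
    calc dC x d * (((r : Q) : Subgroup.centralizer ({z} : Set G)) * x) * (dC x d)⁻¹
        = dC x d * ((r : Q) : Subgroup.centralizer ({z} : Set G)) * (dC x d)⁻¹ * (dC x d * x) *
            (dC x d)⁻¹ := by
          group
      _ = dC x d * ((r : Q) : Subgroup.centralizer ({z} : Set G)) * (dC x d)⁻¹ * x := by
          rw [dC_comm d]
          group
  obtain ⟨r', hr'⟩ : ∃ r' : ↥(Subgroup.centralizer ({x} : Set Q)),
      (((r' : Q) : Subgroup.centralizer ({z} : Set G))) =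
        dC x d * ((r : Q) : Subgroup.centralizer ({z} : Set G)) * (dC x d)⁻¹ := by
    refine ⟨⟨⟨dC x d * ((r : Q) : Subgroup.centralizer ({z} : Set G)) * (dC x d)⁻¹,
      (inferInstance : Q.Normal).conj_mem _ (r : Q).2 _⟩, ?_⟩, rfl⟩
    rw [mem_cent_iff']
    apply Subtype.ext
    show dC x d * ((r : Q) : Subgroup.centralizer ({z} : Set G)) * (dC x d)⁻¹ * x =
      x * (dC x d * ((r : Q) : Subgroup.centralizer ({z} : Set G)) * (dC x d)⁻¹)
    have h5 : ((r : Q) : Subgroup.centralizer ({z} : Set G)) * x = x * (r : Q) :=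
      congrArg Subtype.val (mem_cent_iff'.mp r.2)
    rw [← hrx, h5]
    calc dC x d * ((x : Subgroup.centralizer ({z} : Set G)) * (r : Q)) * (dC x d)⁻¹
        = (dC x d * x) * (r : Q) * (dC x d)⁻¹ := by group
      _ = x * (dC x d * ((r : Q) : Subgroup.centralizer ({z} : Set G)) * (dC x d)⁻¹) := by
          rw [dC_comm d]
          group
  have hconj : (⟨piX x d * (hB.rho r : ↥(hB.fBar.ker)) * (piX x d)⁻¹,
      (MonoidHom.normal_ker hB.fBar).conj_mem
        ((hB.rho r : ↥(hB.fBar.ker)) : Subgroup.centralizer ({zbX x} : Set (HbX x)))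
          (hB.rho r).2 (piX x d)⟩ : ↥(hB.fBar.ker)) = hB.rho r' := by
    apply Subtype.ext
    show piX x d * (hB.rho r : ↥(hB.fBar.ker)) * (piX x d)⁻¹ = (hB.rho r' : ↥(hB.fBar.ker))
    rw [hB.rho_val, hB.rho_val, ← map_inv, ← map_mul, ← map_mul]
    congr 1
    apply Subtype.ext
    show (d : G) * (((r : Q) : Subgroup.centralizer ({z} : Set G)) : G) * (d : G)⁻¹ =
      (((r' : Q) : Subgroup.centralizer ({z} : Set G)) : G)
    rw [hr']
    rfl
  rw [hconj, hB.psiB_eq, ← hγ]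
  rcases (hB.psiB_eq w r).mp hq with h1 | h1
  · left
    have h2 := hM.ψ4 (dC x d) (hB.liftCo d) (hB.liftCo_mk d) (w : leechLattice) (r : Q) h1
    rw [h2]
    congr 1
    apply Subtype.ext
    exact hr'.symm
  · right
    have h2 := hM.ψ4 (dC x d) (hB.liftCo d) (hB.liftCo_mk d) (w : leechLattice) ((r : Q) * x) h1
    rw [h2]
    congr 1
    apply Subtype.ext
    show dC x d * (((r : Q) : Subgroup.centralizer ({z} : Set G)) * x) * (dC x d)⁻¹ =
      ((r' : Q) : Subgroup.centralizer ({z} : Set G)) * x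
    rw [hr', hrx]

/-- `C_G(x) / ⟨x⟩` is of Baby Monster type. -/
theorem BabyData.baby [Finite G] (hB : BabyData z Q e ψ ζ x) :
    Cfsg.IsOfBabyMonsterType (HbX x) := by
  refine ⟨zbX x, hB.fBar.ker, MonoidHom.normal_ker _,
    ⟨hB.order_zb, hB.fstar, hB.es, hB.card_ker.trans (by norm_num), hB.fuse⟩,
    QuotientGroup.quotientKerEquivOfSurjective hB.fBar hB.fBar_surj, hB.psiB,
    hB.psiB_add, hB.psiB_surj, hB.psiB_ker, ?_⟩
  intro h g hg w y hwy q hq
  exact hB.psiB_equiv h g hg w y hwy q hq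

end QuotBaby5

end Cfsg.Agent.Lib.Helper92
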