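-- In a group of Monster type: the centralizer of an involution `t` of `Q` not conjugate to `z`,
-- modulo `⟨t⟩`, is of Baby Monster type.  Part 6: reduction to the standard position.
import Mathlib
import Cfsg.Agent.Lib.Helper92.MonsterBaby5

set_option autoImplicit false
open Cfsg
open scoped commutatorElement

namespace Cfsg.Agent.Lib.Helper92

open Cfsg.Agent.S5408 Cfsg.Agent.S5552 Cfsg.Agent.Lib.Helper10 Cfsg.Agent.S5392
  Cfsg.Agent.Lib.Helper9

/-- In a group of Monster type at `(z, Q)`, the centralizer of an involution `x` of `Q` not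
conjugate to `z`, modulo `⟨x⟩`, is of Baby Monster type. -/
theorem baby_of_monster {G : Type*} [Group G] [Finite G] (z : G)
    (Q : Subgroup (Subgroup.centralizer ({z} : Set G))) [Q.Normal]
    (hM : Cfsg.IsOfMonsterType z Q) (x : Q)
    (hx2 : orderOf ((x : Subgroup.centralizer ({z} : Set G)) : G) = 2)
    (hnc : ¬ IsConj z ((x : Subgroup.centralizer ({z} : Set G)) : G))
    [hn : ((Subgroup.zpowers ((x : Subgroup.centralizer ({z} : Set G)) : G)).subgroupOf
      (Subgroup.centralizer ({((x : Subgroup.centralizer ({z} : Set G)) : G)} : Set G))).Normal] :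
    Cfsg.IsOfBabyMonsterType (HbX x) := by
  obtain ⟨hS, e, ψ, hψ⟩ := id hM
  obtain ⟨ζ, hMS⟩ := ms_of_setting z Q hS e ψ hψ
  have hxxG : ((x : Subgroup.centralizer ({z} : Set G)) : G) * (x : G) = 1 := by
    rw [← pow_two, ← hx2]
    exact pow_orderOf_eq_one _
  have hxx : x * x = 1 := incl_injective (by rw [map_mul, map_one]; exact hxxG)
  have hxc : x ∉ Subgroup.center Q := by
    intro h
    rcases (hMS.center_iff x).mp h with h1 | h1
    · have h2 : ((x : Subgroup.centralizer ({z} : Set G)) : G) = 1 := by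
        rw [h1]
        rfl
      rw [h2, orderOf_one] at hx2
      exact absurd hx2 (by norm_num)
    · apply hnc
      have h2 : ((x : Subgroup.centralizer ({z} : Set G)) : G) = z := by
        rw [h1]
        exact hMS.ζz
      rw [h2]
  obtain ⟨v, hv, hvx⟩ := hMS.type x hxx hxc
  have hv32 : sqNorm (v : GolayPt → ℤ) = 32 := by
    rcases hv with h | h
    · exact h
    · exfalso
      exact hnc ((Cfsg.Agent.S5407.result z Q hM e ψ hψ x).mpr ⟨v, h, hvx⟩).1
  obtain ⟨γ0, hγ0⟩ := trans_norm32 Spor.leechU v nUvec hv32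
  have hB : BabyData z Q (e.trans (MulAut.conj (QuotientGroup.mk γ0 : Spor.Co1)⁻¹))
      (fun v => ψ (γ0 • v)) ζ x :=
    ⟨hM, hMS.twist γ0, by
      show ψ (γ0 • Spor.leechU) = _
      rw [hγ0]
      exact hvx⟩
  exact hB.baby

end Cfsg.Agent.Lib.Helper92
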