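import Mathlib
import Cfsg.Agent.Lib.Helper44.UDDefs
import Cfsg.Agent.Lib.Helper44.UDDefs2
import Cfsg.Agent.Lib.Helper7.SUGenB

/-!
# S5655 piece PLANE (helper44's project UD), proved by helper92
-/

set_option autoImplicit false

namespace Cfsg.Agent.Lib.Helper44.UD

open Matrix Cfsg.Agent.Lib.Helper93 Cfsg.Agent.Lib.Helper18 Cfsg.Agent.Lib.Helper7

/-- the embedding of `F^2` on the coordinates `i`, `j` -/
private def udplane_iota {F : Type*} [Field F] {n : ℕ} (i j : Fin n) (v : Fin 2 → F) : Fin n → F :=
  v 0 • Pi.single i 1 + v 1 • Pi.single j 1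

private theorem udplane_iota_i {F : Type*} [Field F] {n : ℕ} (i j : Fin n) (hij : i ≠ j)
    (v : Fin 2 → F) : udplane_iota i j v i = v 0 := by
  simp [udplane_iota, hij]

private theorem udplane_iota_j {F : Type*} [Field F] {n : ℕ} (i j : Fin n) (hij : i ≠ j)
    (v : Fin 2 → F) : udplane_iota i j v j = v 1 := by
  simp [udplane_iota, hij.symm]

private theorem udplane_iota_c {F : Type*} [Field F] {n : ℕ} (i j : Fin n)
    (v : Fin 2 → F) (c : Fin n) (hci : c ≠ i) (hcj : c ≠ j) : udplane_iota i j v c = 0 := by
  simp [udplane_iota, hci, hcj]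

private theorem udplane_iota_lin {F : Type*} [Field F] {n : ℕ} (i j : Fin n)
    (u v : Fin 2 → F) (c : F) :
    udplane_iota i j (u + c • v) = udplane_iota i j u + c • udplane_iota i j v := by
  funext k
  simp only [udplane_iota, Pi.add_apply, Pi.smul_apply, smul_eq_mul]
  ring

private theorem udplane_form {F : Type*} [Field F] [Fintype F] {q : ℕ} {n : ℕ} (i j : Fin n)
    (hij : i ≠ j) (u v : Fin 2 → F) :
    Cfsg.hermForm n F q (udplane_iota i j u) (udplane_iota i j v) = Cfsg.hermForm 2 F q u v := by
  have h1 : Cfsg.hermForm n F q (udplane_iota i j u) (udplane_iota i j v) =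
      u 0 * (udplane_iota i j v i) ^ q + u 1 * (udplane_iota i j v j) ^ q := by
    conv_lhs => rw [udplane_iota]
    rw [hf_add_left, hf_smul_left, hf_smul_left, hf_single_left, hf_single_left]
  rw [h1, udplane_iota_i i j hij, udplane_iota_j i j hij]
  simp [Cfsg.hermForm, Fin.sum_univ_two]

private theorem udplane_form_c {F : Type*} [Field F] [Fintype F] {q : ℕ} {n : ℕ} (i j : Fin n)
    (v : Fin 2 → F) (c : Fin n) (hci : c ≠ i) (hcj : c ≠ j) (hq : q ≠ 0) :
    Cfsg.hermForm n F q (Pi.single c 1) (udplane_iota i j v) = 0 := by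
  rw [hf_single_left, udplane_iota_c i j v c hci hcj]
  exact zero_pow hq

theorem ud_plane {F : Type*} [Field F] [Fintype F] (q : ℕ) : PlaneStmt F q := by
  intro hF n Y hY i j hij hcen a b hab
  have hq : q ≠ 0 := herm_q_ne_zero hF
  -- key induction over products of transvections of `F^2`
  have key : ∀ M ∈ suTM F q 2, ∃ G : Matrix (Fin n) (Fin n) F, MIn Y G ∧
      (∀ u : Fin 2 → F, G *ᵥ udplane_iota i j u = udplane_iota i j (M *ᵥ u)) ∧
      ∀ c : Fin n, c ≠ i → c ≠ j → G *ᵥ Pi.single c 1 = Pi.single c 1 := by
    intro M hM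
    induction hM using Submonoid.closure_induction with
    | mem M hM =>
      obtain ⟨v, c, hv, hc, rfl⟩ := hM
      refine ⟨Cfsg.unitaryTransvection n q (udplane_iota i j v) c, ?_, ?_, ?_⟩
      · by_cases hv0 : v 0 = 0
        · have hv1 : v 1 = 0 := by
            have h := hv
            simp only [Cfsg.hermForm, Fin.sum_univ_two, hv0, zero_mul, zero_add] at h
            rcases mul_eq_zero.1 h with h | h
            · exact h
            · exact (pow_eq_zero_iff hq).1 h
          have hz : udplane_iota i j v = 0 := by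
            funext k; simp [udplane_iota, hv0, hv1]
          rw [hz]
          have h1 : Cfsg.unitaryTransvection n q (0 : Fin n → F) c = 1 := by
            apply Matrix.mulVec_injective
            funext x
            rw [unitaryTransvection_mulVec, smul_zero, add_zero, Matrix.one_mulVec]
          rw [h1]; exact MIn.one Y
        · have hε : (v 1 / v 0) ^ (q + 1) = -1 := by
            have h := hv
            simp only [Cfsg.hermForm, Fin.sum_univ_two] at h
            rw [div_pow, div_eq_iff (pow_ne_zero _ hv0), pow_succ', pow_succ']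
            linear_combination h
          have hC := (hcen _ hε).smul hF (v 0)
          have hvec : v 0 • (Pi.single i 1 + (v 1 / v 0) • Pi.single j 1 : Fin n → F) =
              udplane_iota i j v := by
            funext k
            simp only [udplane_iota, Pi.add_apply, Pi.smul_apply, smul_eq_mul]
            field_simp
          rw [hvec] at hC
          exact hC.2 c hc
      · intro u
        rw [unitaryTransvection_mulVec, unitaryTransvection_mulVec, udplane_form i j hij,
          udplane_iota_lin]
      · intro k hki hkj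
        rw [unitaryTransvection_mulVec, udplane_form_c i j v k hki hkj hq, mul_zero, zero_smul,
          add_zero]
    | one =>
      exact ⟨1, MIn.one Y, fun u => by rw [Matrix.one_mulVec, Matrix.one_mulVec],
        fun c _ _ => Matrix.one_mulVec _⟩
    | mul A B _ _ hA hB =>
      obtain ⟨G1, h1, h1u, h1c⟩ := hA
      obtain ⟨G2, h2, h2u, h2c⟩ := hB
      refine ⟨G1 * G2, h1.mul h2, ?_, ?_⟩
      · intro u
        rw [← Matrix.mulVec_mulVec, h2u, h1u, Matrix.mulVec_mulVec]
      · intro c hci hcj
        rw [← Matrix.mulVec_mulVec, h2c c hci hcj, h1c c hci hcj]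
  -- the rotation in dimension 2
  have hxx : Cfsg.hermForm 2 F q (Pi.single 0 1) (Pi.single 0 1) = 1 := by
    rw [hf_single_left]; simp
  have hzz : Cfsg.hermForm 2 F q (Pi.single 1 1) (Pi.single 1 1) = 1 := by
    rw [hf_single_left]; simp
  have hxz : Cfsg.hermForm 2 F q (Pi.single 0 1) (Pi.single 1 1) = 0 := by
    rw [hf_single_left]; simp [hq]
  obtain ⟨N, hN, hNx⟩ := su_rot hF 2 (Pi.single 0 1) (Pi.single 1 1) hxx hzz hxz a b hab
  obtain ⟨G, hG, hGu, hGc⟩ := key N hN
  obtain ⟨g, hg, rfl⟩ := hG
  refine ⟨g, hg, ?_, hGc⟩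
  have h1 := hGu (Pi.single 0 1)
  rw [hNx] at h1
  have h2 : udplane_iota i j (Pi.single 0 1 : Fin 2 → F) = Pi.single i 1 := by
    funext k; simp [udplane_iota]
  have h3 : udplane_iota i j (a • (Pi.single 0 1 : Fin 2 → F) + b • Pi.single 1 1) =
      a • Pi.single i 1 + b • Pi.single j 1 := by
    funext k; simp [udplane_iota]
  rw [h2, h3] at h1
  exact h1

end Cfsg.Agent.Lib.Helper44.UD
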